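import Mathlib
import Cfsg.Prelude.Def_JComponents
import Cfsg.Agent.Lib.Helper72.JLDefs

/-! Interface for the S2944 project JN (helper78), built on helper72's project JL (S2942):
a `J(T)`-component `K` in `𝒦₀(T)` of a ZN-group satisfies `N_G(K) = N_G(W_K)`.
Definitions: none new; the exact statements of the pieces. -/

set_option autoImplicit false

namespace Cfsg.Agent.Lib.Helper78.JN

open Cfsg.Agent.Lib.Helper72.JL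
open Cfsg.Agent.Lib.Helper72.SC
open Cfsg.Agent.Lib.Helper78.Jc

open scoped commutatorElement

universe u

/-- JN-CQ: the kernel of `rhoT` is `O₂(X)` extended by a group of odd order -/
def CqStmt.{w} : Prop :=
  ∀ (X : Type w) [Group X] [Finite X] (T : Subgroup X), Setting X T →
    (∀ c ∈ (rhoT T).ker, ∃ m : ℕ, Odd m ∧ c ^ m ∈ Cfsg.pCore 2 X) ∧
      ∀ P : Subgroup X, IsPGroup 2 ↥P → P ≤ (rhoT T).ker → P ≤ Cfsg.pCore 2 X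

/-- JN-AUT: automorphisms of an elementary abelian 2-group normalizing an `S₃` acting on a
four-group -/
def AutStmt.{w} : Prop :=
  ∀ (V : Type w) [Group V] [Finite V], (∀ a b : V, a * b = b * a) → (∀ v : V, v * v = 1) →
    ∀ (W : Subgroup V), Nat.card ↥W ≤ 4 → ∀ (φ σ : MulAut V) (N : Subgroup (MulAut V)),
      IsPGroup 3 ↥N → φ ∈ N → φ ^ 3 = 1 → φ ≠ 1 → (∀ v : V, v⁻¹ * φ v ∈ W) → σ * σ = 1 →
      σ * φ * σ⁻¹ = φ⁻¹ → (∀ v : V, φ v = v → σ v = v) →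
      ∀ θ : MulAut V, (∀ w ∈ W, θ w ∈ W) → θ * φ * θ⁻¹ ∈ N →
        (θ * φ * θ⁻¹ = φ ∨ θ * φ * θ⁻¹ = φ⁻¹) ∧ ∃ j : ℕ, θ * σ * θ⁻¹ = φ ^ j * σ

/-- JN-FIN: the computation modulo `Q` -/
def FinStmt.{w} : Prop :=
  ∀ (X : Type w) [Group X] [Finite X] (Q C : Subgroup X), Q.Normal → C.Normal → Q ≤ C →
    (∀ c ∈ C, ∃ m : ℕ, Odd m ∧ c ^ m ∈ Q) →
    ∀ (y a x : X) (j : ℕ) (c γ : X), c ∈ C → γ ∈ C → (∀ d ∈ C, ⁅y, d⁆ ∈ Q) →
      (∀ d ∈ C, ⁅a, d⁆ ∈ Q) → a * y * a⁻¹ * y ∈ Q →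
      (x * y * x⁻¹ = y * c ∨ x * y * x⁻¹ = y⁻¹ * c) → x * a * x⁻¹ = y ^ j * a * γ → c ∈ Q

/-- JN-KNORM: conjugates of `K` inside `K Q` -/
def KnormStmt.{w} : Prop :=
  ∀ (X : Type w) [Group X] [Finite X] (Q K O : Subgroup X), Q.Normal → IsPGroup 2 ↥Q →
    Q ≤ Subgroup.normalizer (K : Set X) →
    Subgroup.closure {g : X | g ∈ K ∧ Odd (orderOf g)} = K → O ≤ Q →
    ∀ y ∈ K, (∀ k ∈ K, ∃ o ∈ O, k = o ∨ k = y * o ∨ k = y⁻¹ * o) →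
      ∀ x : X, x * y * x⁻¹ ∈ K ⊔ Q → ∀ k ∈ K, x * k * x⁻¹ ∈ K

/-- JN-VW: `[V, y] ≤ W` -/
def VwStmt.{w} : Prop :=
  ∀ (X : Type w) [Group X] [Finite X] (V Q K O W : Subgroup X) (y : X), V.Normal →
    (∀ a ∈ V, ∀ b ∈ V, a * b = b * a) → (∀ a ∈ V, a * a = 1) → V ≤ Q →
    Q ≤ Subgroup.normalizer (K : Set X) → (∀ P : Subgroup X, P ≤ K → IsPGroup 2 ↥P → P ≤ O) →
    (∀ o ∈ O, ∀ v ∈ V, o * v = v * o) → y ∈ K → y ^ 3 = 1 →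
    (∀ u ∈ O, u * u = 1 → (∀ o ∈ O, u * o = o * u) → ∀ k ∈ K, u⁻¹ * (k * u * k⁻¹) ∈ W) →
    ∀ v ∈ V, v⁻¹ * (y * v * y⁻¹) ∈ W

/-- JN-NC: some member of `𝒮` does not centralize `y` modulo `C` -/
def NcStmt.{w} : Prop :=
  ∀ (X : Type w) [Group X] (C K O : Subgroup X) (𝒮 : Set (Subgroup X)) (y : X), C.Normal →
    O ≤ C → y ∈ K → (∀ k ∈ K, ∃ o ∈ O, k = o ∨ k = y * o ∨ k = y⁻¹ * o) →
    ⁅K, sSup 𝒮⁆ = K → ¬ K ≤ C → ∃ A ∈ 𝒮, ∃ a ∈ A, a * y * a⁻¹ * y⁻¹ ∉ C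

/-- JN-OFFA: a minimal best offender inside `A` not centralizing `z`, with the structure given by
the failure-of-factorization theorem (landed S0612 and S0616) -/
def OffaStmt.{w} : Prop :=
  ∀ (G : Type w) [Group G] [Finite G] (V H : Subgroup G), Cfsg.IsElementaryAbelian 2 V →
    H ≤ Subgroup.normalizer (V : Set G) → H ⊓ Subgroup.centralizer (V : Set G) = ⊥ →
    Subgroup.centralizer (Cfsg.pPrimeCore 2 ↥H : Set ↥H) ≤ Cfsg.pPrimeCore 2 ↥H →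
    H = ⨆ A : {A : Subgroup G // A ≤ H ∧ Cfsg.IsBestOffenderOn 2 V A}, (A : Subgroup G) →
    ∀ A : Subgroup G, A ≤ H → Cfsg.IsBestOffenderOn 2 V A →
    ∀ z : G, (∃ a ∈ A, a * z ≠ z * a) →
      ∃ (E D : Subgroup G) (b : G), b ∈ A ∧ b ∈ E ∧ b * z ≠ z * b ∧ Nat.card ↥E = 6 ∧
        Nat.card ↥(⁅V, E⁆ : Subgroup G) = 4 ∧
        ⁅V, E⁆ ⊓ (V ⊓ Subgroup.centralizer (E : Set G)) = ⊥ ∧
        ⁅V, E⁆ ⊔ (V ⊓ Subgroup.centralizer (E : Set G)) = V ∧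
        (∀ e ∈ E, ∀ d ∈ D, e * d = d * e) ∧ E ⊓ D = ⊥ ∧ E ⊔ D = H ∧
        D ≤ Subgroup.centralizer ((⁅V, E⁆ : Subgroup G) : Set G) ∧
        ⁅V, D⁆ ≤ V ⊓ Subgroup.centralizer (E : Set G)

/-- JN-OFFB: inside `H = E × D` with `E ≅ S₃` acting on the four-group `[V, E]`, an element `z` of
order 3 with `[V, z]` of order at most 4 not centralized by `b ∈ E` is inverted by `b`, and `b`
centralizes `C_V(z)` -/
def OffbStmt.{w} : Prop :=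
  ∀ (G : Type w) [Group G] [Finite G] (V H E D : Subgroup G),
    (∀ a ∈ V, ∀ b ∈ V, a * b = b * a) →
    H ≤ Subgroup.normalizer (V : Set G) → H ⊓ Subgroup.centralizer (V : Set G) = ⊥ →
    Nat.card ↥E = 6 → Nat.card ↥(⁅V, E⁆ : Subgroup G) = 4 →
    ⁅V, E⁆ ⊓ (V ⊓ Subgroup.centralizer (E : Set G)) = ⊥ →
    ⁅V, E⁆ ⊔ (V ⊓ Subgroup.centralizer (E : Set G)) = V →
    (∀ e ∈ E, ∀ d ∈ D, e * d = d * e) → E ⊓ D = ⊥ → E ⊔ D = H →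
    D ≤ Subgroup.centralizer ((⁅V, E⁆ : Subgroup G) : Set G) →
    ⁅V, D⁆ ≤ V ⊓ Subgroup.centralizer (E : Set G) →
    ∀ (z b : G), z ∈ H → z ^ 3 = 1 → b ∈ E → b * z ≠ z * b →
    ∀ W : Subgroup G, Nat.card ↥W ≤ 4 → (∀ v ∈ V, v⁻¹ * (z * v * z⁻¹) ∈ W) →
      b * z * b⁻¹ = z⁻¹ ∧ ∀ v ∈ V, z * v = v * z → b * v = v * b

/-- the offender lemma in a failure-of-factorization group (JN-OFFA + JN-OFFB) -/
def OffgStmt.{w} : Prop :=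
  ∀ (G : Type w) [Group G] [Finite G] (V H : Subgroup G), Cfsg.IsElementaryAbelian 2 V →
    H ≤ Subgroup.normalizer (V : Set G) → H ⊓ Subgroup.centralizer (V : Set G) = ⊥ →
    Subgroup.centralizer (Cfsg.pPrimeCore 2 ↥H : Set ↥H) ≤ Cfsg.pPrimeCore 2 ↥H →
    H = ⨆ A : {A : Subgroup G // A ≤ H ∧ Cfsg.IsBestOffenderOn 2 V A}, (A : Subgroup G) →
    ∀ A : Subgroup G, A ≤ H → Cfsg.IsBestOffenderOn 2 V A →
    ∀ z ∈ H, z ^ 3 = 1 → (∃ a ∈ A, a * z ≠ z * a) →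
    ∀ W : Subgroup G, Nat.card ↥W ≤ 4 → (∀ v ∈ V, v⁻¹ * (z * v * z⁻¹) ∈ W) →
      ∃ b ∈ A, b * z * b⁻¹ = z⁻¹ ∧ ∀ v ∈ V, z * v = v * z → b * v = v * b

/-- JN-OFFX: the offender lemma transported to the setting `(X, T)` (from OffgStmt and the JL/SC
pieces, all passed as hypotheses in the piece) -/
def OffxStmt.{w} : Prop :=
  ∀ (X : Type w) [Group X] [Finite X] (T : Subgroup X), Setting X T →
    ∀ A : Subgroup X, IsMaxEA T A → ∀ y : X, (rhoT T y) ^ 3 = 1 →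
      (SemidirectProduct.inr (rhoT T y) : Gam ↥(VT T)) ∈ Hs 2 (rhoT T).range →
      (∃ a ∈ A, rhoT T a * rhoT T y ≠ rhoT T y * rhoT T a) →
      ∀ W : Subgroup X, Nat.card ↥W ≤ 4 → (∀ v ∈ VT T, v⁻¹ * (y * v * y⁻¹) ∈ W) →
        ∃ a₁ ∈ A, rhoT T a₁ * rhoT T y * (rhoT T a₁)⁻¹ = (rhoT T y)⁻¹ ∧
          ∀ v ∈ VT T, y * v = v * y → a₁ * v = v * a₁

/-- the abstract theorem: in the setting, `K` as in the JL main theorem with `O₂(K)` of index 3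
and `[Ω₁(Z(O₂(K))), K]` inside a normal subgroup `W` of order 4 is normal -/
def NormStmt.{w} : Prop :=
  ∀ (X : Type w) [Group X] [Finite X] (T : Subgroup X), Setting X T →
    ∀ (𝒮 : Set (Subgroup X)) (K O W : Subgroup X), (∀ A ∈ 𝒮, IsMaxEA T A) →
      ⁅K, sSup 𝒮⁆ = K → Subgroup.closure {g : X | g ∈ K ∧ Odd (orderOf g)} = K →
      Cfsg.pCore 2 X ≤ Subgroup.normalizer (K : Set X) →
      O ≤ K → K ≤ Subgroup.normalizer (O : Set X) → IsPGroup 2 ↥O → O.relIndex K = 3 →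
      (∀ P : Subgroup X, P ≤ K → IsPGroup 2 ↥P → P ≤ O) →
      W.Normal → Nat.card ↥W = 4 →
      (∀ u ∈ O, u * u = 1 → (∀ o ∈ O, u * o = o * u) → ∀ k ∈ K, u⁻¹ * (k * u * k⁻¹) ∈ W) →
      K.Normal

/-- JN-TRN: a Sylow 2-subgroup `T₁` of `N_G(W_K)` containing `J(T)`; `N_G(W_K) ∈ ℒ(T₁)` -/
def TrnStmt.{w} : Prop :=
  ∀ (G : Type w) [Group G] [Finite G], ZNHyp G → ∀ (T K : Subgroup G), IsPGroup 2 ↥T →
    K ∈ Cfsg.jComponentsZero T →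
    ∃ T₁ : Subgroup G, Cfsg.thompsonSubgroupOf 2 T ≤ T₁ ∧
      Cfsg.thompsonSubgroupOf 2 T₁ = Cfsg.thompsonSubgroupOf 2 T ∧
      Cfsg.IsSylowTwoIn T₁ (Subgroup.normalizer (Cfsg.wOf K : Set G)) ∧
      Subgroup.normalizer (Cfsg.wOf K : Set G) ∈ Cfsg.jOvergroups T₁ ∧ Cfsg.IsJComponent T₁ K ∧
      K ≤ Subgroup.normalizer (Cfsg.wOf K : Set G) ∧ IsPGroup 2 ↥T₁ ∧ T₁ ≠ ⊥

/-- JN-TRW: the data of a `J`-component inside a subgroup `L ≤ N_G(W_K)` containing it -/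
def TrwStmt.{w} : Prop :=
  ∀ (G : Type w) [Group G] [Finite G] (T K L : Subgroup G), Cfsg.IsJComponent T K → K ≤ L →
    L ≤ Subgroup.normalizer (Cfsg.wOf K : Set G) →
    (Cfsg.pCoreOf 2 K).subgroupOf L ≤ K.subgroupOf L ∧
      K.subgroupOf L ≤ Subgroup.normalizer (((Cfsg.pCoreOf 2 K).subgroupOf L : Subgroup ↥L) : Set ↥L) ∧
      IsPGroup 2 ↥((Cfsg.pCoreOf 2 K).subgroupOf L) ∧
      ((Cfsg.pCoreOf 2 K).subgroupOf L).relIndex (K.subgroupOf L) = 3 ∧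
      (∀ P : Subgroup ↥L, P ≤ K.subgroupOf L → IsPGroup 2 ↥P → P ≤ (Cfsg.pCoreOf 2 K).subgroupOf L) ∧
      ((Cfsg.wOf K).subgroupOf L).Normal ∧ Nat.card ↥((Cfsg.wOf K).subgroupOf L) = 4 ∧
      ∀ u ∈ (Cfsg.pCoreOf 2 K).subgroupOf L, u * u = 1 →
        (∀ o ∈ (Cfsg.pCoreOf 2 K).subgroupOf L, u * o = o * u) →
        ∀ k ∈ K.subgroupOf L, u⁻¹ * (k * u * k⁻¹) ∈ (Cfsg.wOf K).subgroupOf L

/-- JN-THC: the Thompson subgroup commutes with conjugation -/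
def ThcStmt.{w} : Prop :=
  ∀ (G : Type w) [Group G] [Finite G] (S : Subgroup G) (x : G),
    Cfsg.thompsonSubgroupOf 2 (S.map (MulAut.conj x).toMonoidHom) =
      (Cfsg.thompsonSubgroupOf 2 S).map (MulAut.conj x).toMonoidHom

/-- JN-PB1: a conjugate of `J(T)` inside `N` is an `N`-conjugate of `J(T)` -/
def Pb1Stmt.{w} : Prop :=
  ∀ (G : Type w) [Group G] [Finite G] (T T₁ N : Subgroup G) (g : G), IsPGroup 2 ↥T →
    Cfsg.IsSylowTwoIn T₁ N → Cfsg.thompsonSubgroupOf 2 T ≤ T₁ →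
    Cfsg.thompsonSubgroupOf 2 T₁ = Cfsg.thompsonSubgroupOf 2 T →
    Cfsg.thompsonSubgroupOf 2 (T.map (MulAut.conj g).toMonoidHom) ≤ N →
    ∃ x ∈ N, Cfsg.thompsonSubgroupOf 2 (T.map (MulAut.conj g).toMonoidHom) =
      (Cfsg.thompsonSubgroupOf 2 T).map (MulAut.conj x).toMonoidHom

/-- JN-PB2: `J`-components for a conjugate Thompson subgroup -/
def Pb2Stmt.{w} : Prop :=
  ∀ (G : Type w) [Group G] [Finite G] (T T' K : Subgroup G) (x : G), Cfsg.IsJComponent T K →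
    x ∈ Subgroup.normalizer (K : Set G) →
    Cfsg.thompsonSubgroupOf 2 T' = (Cfsg.thompsonSubgroupOf 2 T).map (MulAut.conj x).toMonoidHom →
    Cfsg.IsJComponent T' K

end Cfsg.Agent.Lib.Helper78.JN
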