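import Cfsg.Agent.Lib.Helper10.LC0

/-!
# Piece A1 of the S0406 project (helper10): pairwise orthogonal nonzero vectors in `ℤ^24`
-/

set_option autoImplicit false

namespace Cfsg.Agent.Lib.Helper78.LCA

open Matrix Cfsg.Agent.Lib.Helper10.LC

theorem orth_card_le {B : Matrix (Fin 24) (Fin 24) ℤ} (hB : Hyp B) (s : Finset (Fin 24 → ℤ))
    (h0 : ∀ x ∈ s, x ≠ 0) (horth : ∀ x ∈ s, ∀ y ∈ s, x ≠ y → bf B x y = 0) : s.card ≤ 24 := by
  classical
  have hli : LinearIndependent ℤ (fun x : s => (x : Fin 24 → ℤ)) := by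
    rw [Fintype.linearIndependent_iff]
    intro c hc y
    have h1 : bf B (∑ x : s, c x • (x : Fin 24 → ℤ)) (y : Fin 24 → ℤ) = 0 := by
      rw [hc, bf_zero_left]
    rw [bf_sum_left] at h1
    rw [Finset.sum_eq_single y] at h1
    · have hpos : 0 < qf B (y : Fin 24 → ℤ) := hB.pos _ (h0 _ y.2)
      rw [bf_self] at h1
      rcases mul_eq_zero.mp h1 with h | h
      · exact h
      · omega
    · intro x _ hxy
      rw [horth _ x.2 _ y.2 (fun h => hxy (Subtype.ext h)), mul_zero]
    · intro h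
      exact absurd (Finset.mem_univ y) h
  have h2 := hli.fintype_card_le_finrank
  rw [Module.finrank_fin_fun, Fintype.card_coe] at h2
  exact h2

end Cfsg.Agent.Lib.Helper78.LCA
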