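import Cfsg.Agent.Lib.Helper10.LC0

/-!
# Piece A4 of the S0406 project (helper10): a class of 48 vectors contains a frame
-/

set_option autoImplicit false

namespace Cfsg.Agent.Lib.Helper78.LCA

open Matrix Cfsg.Agent.Lib.Helper10.LC

theorem frame_exists {B : Matrix (Fin 24) (Fin 24) ℤ} (hB : Hyp B)
    (hsp : ∀ x y z : Fin 24 → ℤ, qf B x ≤ 8 → qf B y ≤ 8 → x - y = (2 : ℤ) • z → x ≠ y → x ≠ -y →
      qf B x = 8 ∧ qf B y = 8 ∧ bf B x y = 0)
    (hoc : ∀ s : Finset (Fin 24 → ℤ), (∀ x ∈ s, x ≠ 0) →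
      (∀ x ∈ s, ∀ y ∈ s, x ≠ y → bf B x y = 0) → s.card ≤ 24)
    (hcc : ∀ x : Fin 24 → ℤ, qf B x = 8 →
      {y : Fin 24 → ℤ | qf B y = 8 ∧ ∃ z : Fin 24 → ℤ, x - y = (2 : ℤ) • z}.ncard = 48) :
    ∃ e : Fin 24 → (Fin 24 → ℤ), (∀ i, qf B (e i) = 8) ∧
      (∀ i j, i ≠ j → bf B (e i) (e j) = 0) ∧
      ∀ i j, ∃ z : Fin 24 → ℤ, e i - e j = (2 : ℤ) • z := by
  classical
  -- a vector of norm 8
  have hne : {x : Fin 24 → ℤ | qf B x = 8}.Nonempty := by
    rw [← Set.ncard_pos (Set.finite_of_ncard_ne_zero (by rw [hB.c8]; norm_num)), hB.c8]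
    norm_num
  obtain ⟨x, hx⟩ := hne
  have hx : qf B x = 8 := hx
  have hK := hcc x hx
  have hKfin : {y : Fin 24 → ℤ | qf B y = 8 ∧ ∃ z : Fin 24 → ℤ, x - y = (2 : ℤ) • z}.Finite :=
    Set.finite_of_ncard_ne_zero (by rw [hK]; norm_num)
  set Kf := hKfin.toFinset with hKf
  have hKfcard : Kf.card = 48 := by
    rw [← hK, Set.ncard_eq_toFinset_card _ hKfin]
  have hmemK : ∀ y, y ∈ Kf ↔ qf B y = 8 ∧ ∃ z : Fin 24 → ℤ, x - y = (2 : ℤ) • z := by
    intro y
    rw [hKf, Set.Finite.mem_toFinset]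
    rfl
  -- congruence of two members of the class
  have hcong : ∀ a ∈ Kf, ∀ b ∈ Kf, ∃ z : Fin 24 → ℤ, a - b = (2 : ℤ) • z := by
    intro a ha b hb
    obtain ⟨-, za, hza⟩ := (hmemK a).mp ha
    obtain ⟨-, zb, hzb⟩ := (hmemK b).mp hb
    refine ⟨zb - za, ?_⟩
    rw [smul_sub, ← hza, ← hzb]
    abel
  -- a pairwise orthogonal subfamily of maximal cardinality
  obtain ⟨P, hP⟩ : ∃ P : Finset (Fin 24 → ℤ) → Prop,
      ∀ R, P R ↔ (∀ a ∈ R, ∀ b ∈ R, a ≠ b → bf B a b = 0) := ⟨_, fun _ => Iff.rfl⟩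
  obtain ⟨R, hRmem, hRmax⟩ := Finset.exists_max_image
    (Kf.powerset.filter P) Finset.card
    ⟨∅, by rw [Finset.mem_filter, Finset.mem_powerset, hP]; simp⟩
  rw [Finset.mem_filter, Finset.mem_powerset, hP] at hRmem
  obtain ⟨hRK, hRorth⟩ := hRmem
  have hcover : Kf ⊆ R ∪ R.image Neg.neg := by
    intro y hy
    by_contra hcon
    rw [Finset.mem_union, not_or] at hcon
    obtain ⟨hyR, hyN⟩ := hcon
    have hy8 : qf B y = 8 := ((hmemK y).mp hy).1
    have horthy : ∀ r ∈ R, bf B y r = 0 := by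
      intro r hr
      have hr8 : qf B r = 8 := ((hmemK r).mp (hRK hr)).1
      obtain ⟨z, hz⟩ := hcong y hy r (hRK hr)
      have h1 : y ≠ r := fun h => hyR (h ▸ hr)
      have h2 : y ≠ -r := fun h => hyN (Finset.mem_image.mpr ⟨r, hr, h.symm⟩)
      exact (hsp y r z hy8.le hr8.le hz h1 h2).2.2
    have hins : insert y R ∈ Kf.powerset.filter P := by
      rw [Finset.mem_filter, Finset.mem_powerset, hP]
      refine ⟨Finset.insert_subset hy hRK, ?_⟩
      intro a ha b hb hab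
      rw [Finset.mem_insert] at ha hb
      rcases ha with rfl | ha
      · rcases hb with rfl | hb
        · exact absurd rfl hab
        · exact horthy b hb
      · rcases hb with rfl | hb
        · rw [bf_comm hB.symm]; exact horthy a ha
        · exact hRorth a ha b hb hab
    have := hRmax _ hins
    rw [Finset.card_insert_of_notMem hyR] at this
    omega
  have hR0 : ∀ r ∈ R, r ≠ 0 := by
    intro r hr h0
    have hr8 : qf B r = 8 := ((hmemK r).mp (hRK hr)).1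
    rw [h0, qf_zero] at hr8
    norm_num at hr8
  have hRle : R.card ≤ 24 := hoc R hR0 hRorth
  have hRge : 24 ≤ R.card := by
    have h1 := Finset.card_le_card hcover
    have h2 := Finset.card_union_le R (R.image Neg.neg)
    have h3 : (R.image Neg.neg).card ≤ R.card := Finset.card_image_le
    omega
  have hR24 : R.card = 24 := le_antisymm hRle hRge
  let ε := (R.equivFinOfCardEq hR24).symm
  refine ⟨fun i => ((ε i : R) : Fin 24 → ℤ), ?_, ?_, ?_⟩
  · intro i
    exact ((hmemK _).mp (hRK (ε i).2)).1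
  · intro i j hij
    refine hRorth _ (ε i).2 _ (ε j).2 ?_
    intro h
    exact hij (ε.injective (Subtype.ext h))
  · intro i j
    exact hcong _ (hRK (ε i).2) _ (hRK (ε j).2)

end Cfsg.Agent.Lib.Helper78.LCA
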