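import Cfsg.Agent.Lib.Helper47.QuadDefs

/-!
# Piece BALSUM of the S2674 project (helper47): value counts of an orthogonal sum
-/

set_option autoImplicit false

namespace Cfsg.Agent.Lib.Helper78.Quad

open Cfsg.Agent.Lib.Helper47

/-- The value counts of `Q₁(x) + Q₂(y)` as a convolution. -/
theorem card_sum_eq_conv {F : Type*} [Field F] [Fintype F] {V₁ V₂ : Type*} [Finite V₁] [Finite V₂]
    (Q₁ : V₁ → F) (Q₂ : V₂ → F) (c : F) :
    Nat.card {x : V₁ × V₂ // Q₁ x.1 + Q₂ x.2 = c} =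
      ∑ a : F, Nat.card {v : V₁ // Q₁ v = a} * Nat.card {v : V₂ // Q₂ v = c - a} := by
  have e : {x : V₁ × V₂ // Q₁ x.1 + Q₂ x.2 = c} ≃
      Σ a : F, {v : V₁ // Q₁ v = a} × {v : V₂ // Q₂ v = c - a} :=
    { toFun := fun x => ⟨Q₁ x.1.1, ⟨x.1.1, rfl⟩, ⟨x.1.2, eq_sub_of_add_eq' x.2⟩⟩
      invFun := fun s => ⟨(s.2.1.1, s.2.2.1), by
        show Q₁ s.2.1.1 + Q₂ s.2.2.1 = c
        rw [s.2.1.2, s.2.2.2]; ring⟩
      left_inv := fun x => rfl
      right_inv := by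
        rintro ⟨a, ⟨x₁, h₁⟩, ⟨x₂, h₂⟩⟩
        subst h₁
        rfl }
  rw [Nat.card_congr e, Nat.card_sigma]
  apply Finset.sum_congr rfl
  intro a _
  rw [Nat.card_prod]

-- PIECE BALSUM
theorem isTyp_prod {F : Type*} [Field F] [Fintype F] {V₁ V₂ : Type*} [Finite V₁] [Finite V₂]
    (Q₁ : V₁ → F) (Q₂ : V₂ → F) {k₁ k₂ : ℕ} {ε₁ ε₂ : ℤ} (h₁ : IsTyp Q₁ k₁ ε₁)
    (h₂ : IsTyp Q₂ k₂ ε₂) :
    IsTyp (fun x : V₁ × V₂ => Q₁ x.1 + Q₂ x.2) (k₁ + k₂ + 1) (ε₁ * ε₂) := by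
  classical
  obtain ⟨h10, h1c⟩ := h₁
  obtain ⟨h20, h2c⟩ := h₂
  have hg₁ : ∀ a : F, (Nat.card {v : V₁ // Q₁ v = a} : ℤ) =
      ((Fintype.card F : ℤ) ^ (2 * k₁ + 1) - ε₁ * (Fintype.card F : ℤ) ^ k₁) +
        (if a = 0 then (Fintype.card F : ℤ) * (ε₁ * (Fintype.card F : ℤ) ^ k₁) else 0) := by
    intro a
    by_cases ha : a = 0
    · subst ha
      rw [if_pos rfl, h10]
      ring
    · rw [if_neg ha, h1c a ha, add_zero]
  have hg₂ : ∀ a : F, (Nat.card {v : V₂ // Q₂ v = a} : ℤ) =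
      ((Fintype.card F : ℤ) ^ (2 * k₂ + 1) - ε₂ * (Fintype.card F : ℤ) ^ k₂) +
        (if a = 0 then (Fintype.card F : ℤ) * (ε₂ * (Fintype.card F : ℤ) ^ k₂) else 0) := by
    intro a
    by_cases ha : a = 0
    · subst ha
      rw [if_pos rfl, h20]
      ring
    · rw [if_neg ha, h2c a ha, add_zero]
  have key : ∀ c : F, (Nat.card {x : V₁ × V₂ // Q₁ x.1 + Q₂ x.2 = c} : ℤ) =
      (Fintype.card F : ℤ) *
        (((Fintype.card F : ℤ) ^ (2 * k₁ + 1) - ε₁ * (Fintype.card F : ℤ) ^ k₁) *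
          ((Fintype.card F : ℤ) ^ (2 * k₂ + 1) - ε₂ * (Fintype.card F : ℤ) ^ k₂)) +
      ((Fintype.card F : ℤ) ^ (2 * k₁ + 1) - ε₁ * (Fintype.card F : ℤ) ^ k₁) *
        ((Fintype.card F : ℤ) * (ε₂ * (Fintype.card F : ℤ) ^ k₂)) +
      ((Fintype.card F : ℤ) * (ε₁ * (Fintype.card F : ℤ) ^ k₁)) *
        ((Fintype.card F : ℤ) ^ (2 * k₂ + 1) - ε₂ * (Fintype.card F : ℤ) ^ k₂) +
      (if c = 0 then ((Fintype.card F : ℤ) * (ε₁ * (Fintype.card F : ℤ) ^ k₁)) *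
        ((Fintype.card F : ℤ) * (ε₂ * (Fintype.card F : ℤ) ^ k₂)) else 0) := by
    intro c
    rw [card_sum_eq_conv, Nat.cast_sum]
    simp only [Nat.cast_mul, hg₁, hg₂]
    generalize ((Fintype.card F : ℤ) ^ (2 * k₁ + 1) - ε₁ * (Fintype.card F : ℤ) ^ k₁) = A₁
    generalize ((Fintype.card F : ℤ) ^ (2 * k₂ + 1) - ε₂ * (Fintype.card F : ℤ) ^ k₂) = A₂
    generalize ((Fintype.card F : ℤ) * (ε₁ * (Fintype.card F : ℤ) ^ k₁)) = D₁
    generalize ((Fintype.card F : ℤ) * (ε₂ * (Fintype.card F : ℤ) ^ k₂)) = D₂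
    have hs1 : ∑ a : F, A₁ * A₂ = (Fintype.card F : ℤ) * (A₁ * A₂) := by
      rw [Finset.sum_const, Finset.card_univ, nsmul_eq_mul]
    have hs2 : ∑ a : F, A₁ * (if c - a = 0 then D₂ else 0) = A₁ * D₂ := by
      rw [← Finset.mul_sum]
      congr 1
      have : ∀ a : F, (if c - a = 0 then D₂ else 0) = if c = a then D₂ else 0 := by
        intro a
        simp only [sub_eq_zero]
      simp only [this]
      rw [Finset.sum_ite_eq]
      simp
    have hs3 : ∑ a : F, (if a = 0 then D₁ else 0) * A₂ = D₁ * A₂ := by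
      rw [← Finset.sum_mul]
      congr 1
      rw [Finset.sum_ite_eq']
      simp
    have hs4 : ∑ a : F, (if a = 0 then D₁ else 0) * (if c - a = 0 then D₂ else 0) =
        if c = 0 then D₁ * D₂ else 0 := by
      have : ∀ a : F, (if a = 0 then D₁ else 0) * (if c - a = 0 then D₂ else 0) =
          if a = 0 then D₁ * (if c = 0 then D₂ else 0) else 0 := by
        intro a
        by_cases ha : a = 0
        · subst ha
          rw [if_pos rfl, if_pos rfl, sub_zero]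
        · rw [if_neg ha, if_neg ha, zero_mul]
      simp only [this]
      rw [Finset.sum_ite_eq']
      simp
    calc ∑ a : F, (A₁ + if a = 0 then D₁ else 0) * (A₂ + if c - a = 0 then D₂ else 0)
        = ∑ a : F, (A₁ * A₂ + A₁ * (if c - a = 0 then D₂ else 0) +
            (if a = 0 then D₁ else 0) * A₂ +
            (if a = 0 then D₁ else 0) * (if c - a = 0 then D₂ else 0)) := by
          apply Finset.sum_congr rfl
          intro a _
          ring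
      _ = _ := by
          rw [Finset.sum_add_distrib, Finset.sum_add_distrib, Finset.sum_add_distrib, hs1, hs2,
            hs3, hs4]
  refine ⟨?_, fun c hc => ?_⟩
  · rw [key 0, if_pos rfl]
    ring
  · rw [key c, if_neg hc]
    ring

end Cfsg.Agent.Lib.Helper78.Quad
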