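import Cfsg.Agent.Lib.Helper47.QuadDefs
import Cfsg.Agent.Lib.Helper96.SpDefs

/-!
# Piece EVENALT of the S2674 project (helper47): a nondegenerate alternating form lives on a
space of even dimension
-/

set_option autoImplicit false

namespace Cfsg.Agent.Lib.Helper78.Quad

open Cfsg.Agent.Lib.Helper47 Module

-- PIECE EVENALT
theorem even_finrank_of_alt {F : Type*} [Field F] {V : Type*} [AddCommGroup V] [Module F V]
    [FiniteDimensional F V] {B : V → V → F} (hB : IsSForm (RingHom.id F) (-1) B)
    (halt : ∀ x, B x x = 0) (hnd : Nondeg B) : Even (finrank F V) := by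
  let B' : LinearMap.BilinForm F V := LinearMap.mk₂ F B hB.add_left
    (fun c x y => hB.smul_left c x y) (fun x y z => hB.add_right x y z)
    (fun c x y => hB.smul_right c x y)
  have hA : B'.IsAlt := fun x => halt x
  have hND : Cfsg.Agent.Lib.Helper96.Sp.ND B' ⊤ :=
    fun u _ h => hnd u (fun y => h y Submodule.mem_top)
  have h := Cfsg.Agent.Lib.Helper96.Sp.even_finrank_of_nd hA ⊤ hND
  rwa [finrank_top] at h

end Cfsg.Agent.Lib.Helper78.Quad
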