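import Mathlib
import Cfsg.Prelude.Def_JComponents
import Cfsg.Agent.Lib.Helper78.JcDefs

/-! Interface for the S2945 project JQ (helper78): a subgroup `K ≤ L ∈ ℒ(T)`, subnormal in
`⟨K, J(T)⟩`, that is a `J(Tᵍ)`-component in `𝒦₀(Tᵍ)`, is normalized by `J(T)` (then S2944 applies).
The exact statements of the pieces. -/

set_option autoImplicit false

namespace Cfsg.Agent.Lib.Helper78.JQ

open Cfsg.Agent.Lib.Helper78.Jc

universe u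

/-- the conjugate `a W a⁻¹` -/
def cj {X : Type*} [Group X] (a : X) (W : Subgroup X) : Subgroup X :=
  W.map (MulAut.conj a).toMonoidHom

/-- the subgroup generated by the `A`-conjugates of `W` -/
def cjSup {X : Type*} [Group X] (A W : Subgroup X) : Subgroup X :=
  ⨆ a : ↥A, cj (a : X) W

/-- the subgroup generated by the `A`-conjugates of `W` other than `W` -/
def cjSupNe {X : Type*} [Group X] (A W : Subgroup X) : Subgroup X :=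
  ⨆ a : {a : ↥A // cj (a : X) W ≠ W}, cj ((a : ↥A) : X) W

/-- JQ-RNK: `O₂(X)` normalizes a subnormal subgroup generated by elements of odd order, and
contains its normal 2-subgroups -/
def RnkStmt.{w} : Prop :=
  ∀ (X : Type w) [Group X] [Finite X] (K O : Subgroup X), K.IsSubnormal →
    Subgroup.closure {g : X | g ∈ K ∧ Odd (orderOf g)} = K → O ≤ K →
    K ≤ Subgroup.normalizer (O : Set X) → IsPGroup 2 ↥O →
    Cfsg.pCore 2 X ≤ Subgroup.normalizer (K : Set X) ∧ O ≤ Cfsg.pCore 2 X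

/-- JQ-RCW: a normal 2-subgroup `R` normalizing `K` and the four-group `W` centralizes `W` -/
def RcwStmt.{w} : Prop :=
  ∀ (X : Type w) [Group X] [Finite X] (R K O W : Subgroup X) (y : X), R.Normal → IsPGroup 2 ↥R →
    R ≤ Subgroup.normalizer (K : Set X) → R ≤ Subgroup.normalizer (W : Set X) →
    (∀ P : Subgroup X, P ≤ K → IsPGroup 2 ↥P → P ≤ O) →
    (∀ o ∈ O, ∀ w ∈ W, o * w = w * o) → y ∈ K → y ^ 3 = 1 →
    y ∈ Subgroup.normalizer (W : Set X) → Nat.card ↥W = 4 →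
    (∀ w ∈ W, y * w * y⁻¹ = w → w = 1) →
    ∀ r ∈ R, ∀ w ∈ W, r * w = w * r

/-- JQ-SUB3: modulo `C_X(U)` the subnormal subgroup `K = O⟨y⟩` lies in a normal 3-subgroup -/
def Sub3Stmt.{w} : Prop :=
  ∀ (X : Type w) [Group X] [Finite X] (U K O : Subgroup X) (y : X), U.Normal → K.IsSubnormal →
    (∀ o ∈ O, ∀ u ∈ U, o * u = u * o) → y ∈ K → y ^ 3 = 1 →
    (∀ k ∈ K, ∃ o ∈ O, k = o ∨ k = y * o ∨ k = y⁻¹ * o) →
    ∃ N : Subgroup X, N.Normal ∧ y ∈ N ∧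
      ∀ n ∈ N, ∃ j : ℕ, ∀ u ∈ U, n ^ (3 ^ j) * u = u * n ^ (3 ^ j)

/-- JQ-LABA: two elements of a 3-group (modulo `C_X(U)`) with distinct four-groups as commutators
on the elementary abelian normal 2-subgroup `U`, fixed-point-free on them: the four-groups meet
trivially -/
def LabaStmt.{w} : Prop :=
  ∀ (X : Type w) [Group X] [Finite X] (U N W₁ W₂ : Subgroup X) (x₁ x₂ : X), U.Normal →
    (∀ a ∈ U, ∀ b ∈ U, a * b = b * a) → (∀ a ∈ U, a * a = 1) →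
    (∀ n ∈ N, ∃ j : ℕ, ∀ u ∈ U, n ^ (3 ^ j) * u = u * n ^ (3 ^ j)) → x₁ ∈ N → x₂ ∈ N →
    W₁ ≤ U → W₂ ≤ U → Nat.card ↥W₁ = 4 → Nat.card ↥W₂ = 4 →
    (∀ v ∈ U, v⁻¹ * (x₁ * v * x₁⁻¹) ∈ W₁) → (∀ v ∈ U, v⁻¹ * (x₂ * v * x₂⁻¹) ∈ W₂) →
    (∀ w ∈ W₁, x₁ * w * x₁⁻¹ = w → w = 1) → (∀ w ∈ W₂, x₂ * w * x₂⁻¹ = w → w = 1) →
    W₁ ≠ W₂ → W₁ ⊓ W₂ = ⊥

/-- JQ-LABC: in the situation of JQ-LABA with `W₁ ∩ W₂ = 1`, the element `x₁` centralizes `W₂` -/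
def LabcStmt.{w} : Prop :=
  ∀ (X : Type w) [Group X] [Finite X] (U N W₁ W₂ : Subgroup X) (x₁ x₂ : X), U.Normal →
    (∀ a ∈ U, ∀ b ∈ U, a * b = b * a) → (∀ a ∈ U, a * a = 1) →
    (∀ n ∈ N, ∃ j : ℕ, ∀ u ∈ U, n ^ (3 ^ j) * u = u * n ^ (3 ^ j)) → x₁ ∈ N → x₂ ∈ N →
    W₁ ≤ U → W₂ ≤ U → Nat.card ↥W₁ = 4 → Nat.card ↥W₂ = 4 →
    (∀ v ∈ U, v⁻¹ * (x₁ * v * x₁⁻¹) ∈ W₁) → (∀ v ∈ U, v⁻¹ * (x₂ * v * x₂⁻¹) ∈ W₂) →
    (∀ w ∈ W₁, x₁ * w * x₁⁻¹ = w → w = 1) → (∀ w ∈ W₂, x₂ * w * x₂⁻¹ = w → w = 1) →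
    W₁ ⊓ W₂ = ⊥ → ∀ w ∈ W₂, x₁ * w = w * x₁

/-- JQ-IND: the distinct `A`-conjugates of `W` are independent -/
def IndStmt.{w} : Prop :=
  ∀ (X : Type w) [Group X] [Finite X] (U A W : Subgroup X) (y : X), U.Normal →
    (∀ a ∈ U, ∀ b ∈ U, a * b = b * a) → W ≤ U → Nat.card ↥W = 4 →
    y ∈ Subgroup.normalizer (W : Set X) → (∀ w ∈ W, y * w * y⁻¹ = w → w = 1) →
    (∀ a ∈ A, cj a W ≠ W → ∀ w ∈ W, (a * y * a⁻¹) * w = w * (a * y * a⁻¹)) →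
    Nat.card ↥(cjSup A W) = 4 ^ ((A ⊓ Subgroup.normalizer (W : Set X)).relIndex A) ∧
      (∀ u ∈ cjSup A W, (∀ a ∈ A, (a * y * a⁻¹) * u = u * (a * y * a⁻¹)) → u = 1) ∧
      W ⊓ cjSupNe A W = ⊥

/-- JQ-CNTB: `|C_A(W) ∩ ⟨W^A⟩| · |N_A(W) : C_A(W)| ≤ 4` -/
def CntbStmt.{w} : Prop :=
  ∀ (X : Type w) [Group X] [Finite X] (U A W : Subgroup X) (y : X), U.Normal →
    (∀ a ∈ U, ∀ b ∈ U, a * b = b * a) → (∀ a ∈ U, a * a = 1) →
    (∀ a ∈ A, ∀ b ∈ A, a * b = b * a) → (∀ a ∈ A, a * a = 1) →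
    W ≤ U → Nat.card ↥W = 4 → (∀ v ∈ U, v⁻¹ * (y * v * y⁻¹) ∈ W) →
    (∀ w ∈ W, y * w * y⁻¹ = w → w = 1) →
    (∀ a ∈ A, cj a W ≠ W → ∀ w ∈ W, (a * y * a⁻¹) * w = w * (a * y * a⁻¹)) →
    (∀ u ∈ cjSup A W, (∀ a ∈ A, (a * y * a⁻¹) * u = u * (a * y * a⁻¹)) → u = 1) →
    W ⊓ cjSupNe A W = ⊥ →
    Nat.card ↥(A ⊓ Subgroup.centralizer (W : Set X) ⊓ cjSup A W) *
      (A ⊓ Subgroup.centralizer (W : Set X)).relIndex (A ⊓ Subgroup.normalizer (W : Set X)) ≤ 4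

/-- JQ-CNTE: the counting argument with `E = C_A(W) ⟨W^A⟩` -/
def CnteStmt.{w} : Prop :=
  ∀ (X : Type w) [Group X] [Finite X] (U A W : Subgroup X), U.Normal →
    (∀ a ∈ U, ∀ b ∈ U, a * b = b * a) → (∀ a ∈ U, a * a = 1) →
    (∀ a ∈ A, ∀ b ∈ A, a * b = b * a) → (∀ a ∈ A, a * a = 1) →
    (∀ E : Subgroup X, (∀ a ∈ E, ∀ b ∈ E, a * b = b * a) → (∀ a ∈ E, a * a = 1) →
      Nat.card ↥E ≤ Nat.card ↥A) →
    W ≤ U →
    Nat.card ↥(cjSup A W) = 4 ^ ((A ⊓ Subgroup.normalizer (W : Set X)).relIndex A) →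
    Nat.card ↥(A ⊓ Subgroup.centralizer (W : Set X) ⊓ cjSup A W) *
      (A ⊓ Subgroup.centralizer (W : Set X)).relIndex (A ⊓ Subgroup.normalizer (W : Set X)) ≤ 4 →
    A ≤ Subgroup.normalizer (W : Set X)

/-- the abstract theorem: a maximal elementary abelian 2-subgroup `A` normalizes the four-group
`W` of the subnormal subgroup `K` -/
def AbsStmt.{w} : Prop :=
  ∀ (X : Type w) [Group X] [Finite X] (K O W A : Subgroup X), K.IsSubnormal →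
    Subgroup.closure {g : X | g ∈ K ∧ Odd (orderOf g)} = K →
    O ≤ K → K ≤ Subgroup.normalizer (O : Set X) → IsPGroup 2 ↥O → O.relIndex K = 3 →
    (∀ P : Subgroup X, P ≤ K → IsPGroup 2 ↥P → P ≤ O) →
    Nat.card ↥W = 4 → (∀ w ∈ W, w * w = 1) → W ≤ O → (∀ o ∈ O, ∀ w ∈ W, o * w = w * o) →
    Subgroup.normalizer (K : Set X) ≤ Subgroup.normalizer (W : Set X) →
    (∀ u ∈ O, u * u = 1 → (∀ o ∈ O, u * o = o * u) → ∀ k ∈ K, u⁻¹ * (k * u * k⁻¹) ∈ W) →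
    (∀ y ∈ K, y ∉ O → y ^ 3 = 1 → ∀ w ∈ W, y * w * y⁻¹ = w → w = 1) →
    (∀ a ∈ A, ∀ b ∈ A, a * b = b * a) → (∀ a ∈ A, a * a = 1) →
    (∀ E : Subgroup X, (∀ a ∈ E, ∀ b ∈ E, a * b = b * a) → (∀ a ∈ E, a * a = 1) →
      Nat.card ↥E ≤ Nat.card ↥A) →
    A ≤ Subgroup.normalizer (W : Set X)

/-- JQ-TRDA: the data of a `J`-component inside a subgroup `H` containing it (JN-TRW without
the normality of `W_K`) -/
def TrdaStmt.{w} : Prop :=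
  ∀ (G : Type w) [Group G] [Finite G] (T K H : Subgroup G), Cfsg.IsJComponent T K → K ≤ H →
    (Cfsg.pCoreOf 2 K).subgroupOf H ≤ K.subgroupOf H ∧
      K.subgroupOf H ≤
        Subgroup.normalizer (((Cfsg.pCoreOf 2 K).subgroupOf H : Subgroup ↥H) : Set ↥H) ∧
      IsPGroup 2 ↥((Cfsg.pCoreOf 2 K).subgroupOf H) ∧
      ((Cfsg.pCoreOf 2 K).subgroupOf H).relIndex (K.subgroupOf H) = 3 ∧
      (∀ P : Subgroup ↥H, P ≤ K.subgroupOf H → IsPGroup 2 ↥P →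
        P ≤ (Cfsg.pCoreOf 2 K).subgroupOf H) ∧
      Nat.card ↥((Cfsg.wOf K).subgroupOf H) = 4 ∧
      ∀ u ∈ (Cfsg.pCoreOf 2 K).subgroupOf H, u * u = 1 →
        (∀ o ∈ (Cfsg.pCoreOf 2 K).subgroupOf H, u * o = o * u) →
        ∀ k ∈ K.subgroupOf H, u⁻¹ * (k * u * k⁻¹) ∈ (Cfsg.wOf K).subgroupOf H

/-- JQ-TRDB: further data of a `J`-component inside a subgroup `H` containing it -/
def TrdbStmt.{w} : Prop :=
  ∀ (G : Type w) [Group G] [Finite G] (T K H : Subgroup G), Cfsg.IsJComponent T K → K ≤ H →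
    Subgroup.closure {g : ↥H | g ∈ K.subgroupOf H ∧ Odd (orderOf g)} = K.subgroupOf H ∧
      (∀ w ∈ (Cfsg.wOf K).subgroupOf H, w * w = 1) ∧
      (Cfsg.wOf K).subgroupOf H ≤ (Cfsg.pCoreOf 2 K).subgroupOf H ∧
      (∀ o ∈ (Cfsg.pCoreOf 2 K).subgroupOf H, ∀ w ∈ (Cfsg.wOf K).subgroupOf H, o * w = w * o) ∧
      Subgroup.normalizer ((K.subgroupOf H : Subgroup ↥H) : Set ↥H) ≤
        Subgroup.normalizer (((Cfsg.wOf K).subgroupOf H : Subgroup ↥H) : Set ↥H)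

/-- JQ-TRDC: an element of `K` outside `O₂(K)` of order 3 acts fixed-point-freely on `W_K` -/
def TrdcStmt.{w} : Prop :=
  ∀ (G : Type w) [Group G] [Finite G] (T K H : Subgroup G), Cfsg.IsJComponent T K → K ≤ H →
    ∀ y ∈ K.subgroupOf H, y ∉ (Cfsg.pCoreOf 2 K).subgroupOf H → y ^ 3 = 1 →
      ∀ w ∈ (Cfsg.wOf K).subgroupOf H, y * w * y⁻¹ = w → w = 1

/-- JQ-MAXX: a largest elementary abelian subgroup `A` of a Sylow 2-subgroup `T` of `L` is a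
largest elementary abelian 2-subgroup of every subgroup `H ≤ L` containing it -/
def MaxxStmt.{w} : Prop :=
  ∀ (G : Type w) [Group G] [Finite G] (T L A H : Subgroup G), Cfsg.IsSylowTwoIn T L →
    IsMaxEA T A → H ≤ L → A ≤ H →
    (∀ a ∈ A.subgroupOf H, ∀ b ∈ A.subgroupOf H, a * b = b * a) ∧
      (∀ a ∈ A.subgroupOf H, a * a = 1) ∧
      ∀ E : Subgroup ↥H, (∀ a ∈ E, ∀ b ∈ E, a * b = b * a) → (∀ a ∈ E, a * a = 1) →
        Nat.card ↥E ≤ Nat.card ↥(A.subgroupOf H)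

/-- JQ-SUBN: subnormality in `⟨K, J⟩` restricts to `⟨K, A⟩` for `A ≤ J` -/
def SubnStmt.{w} : Prop :=
  ∀ (G : Type w) [Group G] (K J A : Subgroup G), (K.subgroupOf (K ⊔ J)).IsSubnormal → A ≤ J →
    (K.subgroupOf (K ⊔ A)).IsSubnormal

end Cfsg.Agent.Lib.Helper78.JQ
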