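import Mathlib
import Cfsg.Prelude.Def_CaseTheorems
import Cfsg.Prelude.Def_TwoFusion

/-!
# Definitions for S1235 (helper78, project HAR)

`ElemSecLE X n`: every section `P/M` of `X` of exponent two has order at most `n`.
`E16Hyp X T B`: `T` is elementary abelian of order 16, `B ≤ T` has order 4 and the centralizer of
every nonidentity element of `B` lies in `T`.
`Conf X T T' N g`: the configuration `N = N_X(T) = T T'`, `T' = g T g⁻¹ ≠ T`, of order 64.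
-/

set_option autoImplicit false

namespace Cfsg.Agent.Lib.Helper78.Har

/-- Every section `P/M` of `X` of exponent two has order at most `n`. -/
def ElemSecLE (X : Type*) [Group X] (n : ℕ) : Prop :=
  ∀ P M : Subgroup X, M ≤ P → (∀ x ∈ P, ∀ m ∈ M, x * m * x⁻¹ ∈ M) → (∀ x ∈ P, x ^ 2 ∈ M) →
    Nat.card P ≤ n * Nat.card M

/-- Commutators lie in `M` when all squares do. -/
theorem comm_mem_of_sq {X : Type*} [Group X] (P M : Subgroup X) (hsq : ∀ x ∈ P, x ^ 2 ∈ M)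
    {x y : X} (hx : x ∈ P) (hy : y ∈ P) : x * y * x⁻¹ * y⁻¹ ∈ M := by
  have h : x * y * x⁻¹ * y⁻¹ = x ^ 2 * (x⁻¹ * y) ^ 2 * (y⁻¹) ^ 2 := by
    simp only [pow_two]; group
  rw [h]
  exact M.mul_mem (M.mul_mem (hsq x hx) (hsq _ (P.mul_mem (P.inv_mem hx) hy)))
    (hsq _ (P.inv_mem hy))

/-- A subgroup of exponent two is commutative. -/
theorem comm_of_sq {X : Type*} [Group X] (T : Subgroup X) (h2 : ∀ t ∈ T, t ^ 2 = 1)
    {s t : X} (hs : s ∈ T) (ht : t ∈ T) : s * t = t * s := by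
  have h1 : (s * t) ^ 2 = 1 := h2 _ (T.mul_mem hs ht)
  have hs2 : s ^ 2 = 1 := h2 s hs
  have ht2 : t ^ 2 = 1 := h2 t ht
  have hsi : s⁻¹ = s := by
    rw [inv_eq_iff_mul_eq_one, ← pow_two]; exact hs2
  have hti : t⁻¹ = t := by
    rw [inv_eq_iff_mul_eq_one, ← pow_two]; exact ht2
  have h3 : s * t = (s * t)⁻¹ := by
    rw [eq_comm, inv_eq_iff_mul_eq_one, ← pow_two]; exact h1
  rw [h3, mul_inv_rev, hsi, hti]

/-- `T` elementary abelian of order 16, `B ≤ T` of order 4 with `C_X(b) ≤ T` for `b ∈ B`, `b ≠ 1`. -/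
def E16Hyp (X : Type*) [Group X] (T B : Subgroup X) : Prop :=
  Nat.card T = 16 ∧ (∀ t ∈ T, t ^ 2 = 1) ∧ B ≤ T ∧ Nat.card B = 4 ∧
    ∀ b ∈ B, b ≠ 1 → Subgroup.centralizer ({b} : Set X) ≤ T

/-- The configuration `N = N_X(T) = N_X(T') = T T'` of order 64 with `T' = g T g⁻¹ ≠ T`. -/
def Conf (X : Type*) [Group X] (T T' N : Subgroup X) (g : X) : Prop :=
  N = Subgroup.normalizer (T : Set X) ∧ N = Subgroup.normalizer (T' : Set X) ∧ g ∉ N ∧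
  (∀ x : X, x ∈ T' ↔ g⁻¹ * x * g ∈ T) ∧ T ≤ N ∧ T' ≤ N ∧ Nat.card N = 64 ∧
  Nat.card T = 16 ∧ Nat.card T' = 16 ∧ (∀ t ∈ T, t ^ 2 = 1) ∧ (∀ t ∈ T', t ^ 2 = 1) ∧
  Nat.card ↥(T ⊓ T') = 4 ∧ (∀ n ∈ N, ∃ t ∈ T, ∃ t' ∈ T', n = t * t') ∧
  (∀ y ∈ N, y ∉ T → T ⊓ Subgroup.centralizer ({y} : Set X) = T ⊓ T') ∧
  (∀ y ∈ N, y ∉ T' → T' ⊓ Subgroup.centralizer ({y} : Set X) = T ⊓ T') ∧
  Subgroup.centralizer (T : Set X) ≤ T ∧ Subgroup.centralizer (T' : Set X) ≤ T'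

end Cfsg.Agent.Lib.Helper78.Har
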