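import Mathlib
import Cfsg.Prelude.Def_Local
import Cfsg.Agent.Lib.Helper40.HallHigman

/-!
# Piece RANGE of the S3787 project (helper17): the image of a `p`-soluble group under a
homomorphism with kernel `O_p` is `p`-soluble with trivial `p`-core
-/

set_option autoImplicit false

namespace Cfsg.Agent.Lib.Helper78

open Cfsg

universe u v

/-- surjective images of `p`-soluble groups are `p`-soluble -/
theorem s3787_isPSolvable_of_surjective {G : Type u} {H' : Type v} [Group G] [Group H']
    {p : ℕ} [hp : Fact p.Prime] (π : G →* H') (hsurj : Function.Surjective π)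
    (h : IsPSolvable p G) : IsPSolvable p H' := by
  obtain ⟨n, H, h0, hlast, hmono, hnormal, hidx⟩ := h
  refine ⟨n, fun i => (H i).map π, ?_, ?_, ?_, ?_, ?_⟩
  · show (H 0).map π = ⊥
    rw [h0, Subgroup.map_bot]
  · show (H (Fin.last n)).map π = ⊤
    rw [hlast, Subgroup.map_top_of_surjective π hsurj]
  · intro i j hij
    exact Subgroup.map_mono (hmono hij)
  · intro i
    exact (hnormal i).map π hsurj
  · intro i
    have hA := hnormal i.castSucc
    have hB := hnormal i.succ
    have hAB : H i.castSucc ≤ H i.succ := hmono (Fin.castSucc_le_succ i)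
    have key : ((H i.castSucc).map π).relIndex ((H i.succ).map π) ∣
        (H i.castSucc).relIndex (H i.succ) := by
      rw [Subgroup.relIndex_map_map]
      have e : H i.succ ⊔ π.ker = H i.succ ⊔ (H i.castSucc ⊔ π.ker) := by
        rw [← sup_assoc, sup_eq_left.mpr hAB]
      rw [e, Subgroup.relIndex_sup_right]
      exact Subgroup.relIndex_dvd_of_le_left _ le_sup_left
    rcases hidx i with ⟨m, hm⟩ | hc
    · left
      rw [hm] at key
      obtain ⟨m', -, hm'⟩ := (Nat.dvd_prime_pow hp.out).mp key
      exact ⟨m', hm'⟩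
    · right
      exact Nat.Coprime.coprime_dvd_left key hc

theorem s3787_range {X : Type u} {Y : Type v} [Group X] [Finite X] [Group Y] (p : ℕ)
    [Fact p.Prime] (hsol : IsPSolvable p X) (ρ : X →* Y) (hker : ρ.ker = pCore p X) :
    IsPSolvable p ρ.range ∧ pCore p ρ.range = ⊥ := by
  have hsurj : Function.Surjective ρ.rangeRestrict := ρ.rangeRestrict_surjective
  have hfin : Finite ↥ρ.range := Finite.of_surjective ρ.rangeRestrict hsurj
  refine ⟨s3787_isPSolvable_of_surjective ρ.rangeRestrict hsurj hsol, ?_⟩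
  have hQn : (pCore p ↥ρ.range).Normal := Cfsg.Agent.Lib.Helper40.pCore_normal' p
  have hQp : IsPGroup p ↥(pCore p ↥ρ.range) := Cfsg.Agent.Lib.Helper40.pCore_isPGroup' p
  have hkp : IsPGroup p ↥ρ.rangeRestrict.ker := by
    rw [MonoidHom.ker_rangeRestrict, hker]
    exact Cfsg.Agent.Lib.Helper40.pCore_isPGroup' p
  have hLp : IsPGroup p ↥((pCore p ↥ρ.range).comap ρ.rangeRestrict) :=
    hQp.comap_of_ker_isPGroup ρ.rangeRestrict hkp
  have hLn : ((pCore p ↥ρ.range).comap ρ.rangeRestrict).Normal := hQn.comap _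
  have hLle : (pCore p ↥ρ.range).comap ρ.rangeRestrict ≤ pCore p X :=
    le_sSup ⟨hLn, hLp⟩
  rw [eq_bot_iff]
  intro q hq
  obtain ⟨x, rfl⟩ := hsurj q
  have hx : x ∈ ρ.ker := by
    rw [hker]
    exact hLle hq
  rw [Subgroup.mem_bot]
  apply Subtype.ext
  exact hx

end Cfsg.Agent.Lib.Helper78
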