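import Mathlib
import Cfsg.Prelude.Def_Local
import Cfsg.Agent.Lib.Helper40.HallHigman

/-!
# Piece SYL of the S3787 project (helper17): `O_p(G/K)` lies in the image of a Sylow `p`-subgroup
-/

set_option autoImplicit false

namespace Cfsg.Agent.Lib.Helper78

open Cfsg

universe u v

theorem s3787_syl {G : Type u} [Group G] [Finite G] (p : ℕ) [Fact p.Prime] (P : Sylow p G)
    (K : Subgroup G) [K.Normal] :
    pCore p (G ⧸ K) ≤ (P : Subgroup G).map (QuotientGroup.mk' K) := by
  have hn : (pCore p (G ⧸ K)).Normal := Cfsg.Agent.Lib.Helper40.pCore_normal' p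
  have hp : IsPGroup p ↥(pCore p (G ⧸ K)) := Cfsg.Agent.Lib.Helper40.pCore_isPGroup' p
  have h := hp.le_sylow_of_normal (P.mapSurjective (QuotientGroup.mk'_surjective K))
  rwa [Sylow.coe_mapSurjective] at h

end Cfsg.Agent.Lib.Helper78
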