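import Cfsg.Agent.Lib.Helper24.TwD4Inst

/-!
# S2734 piece PA (helper78): the triality without field twist, unipotent fixed points
Copy of `d4_card_unip_gen`, `d4_fix_unip` (TwUD4b.lean) and `d4Tw` (TwD4Inst.lean) with `q := 1`.
-/

set_option autoImplicit false

namespace Cfsg.Agent.Lib.Helper24.Fold

open Cfsg.Lie Matrix Cfsg.Agent.Lib.Helper24
open Cfsg.Agent.Lib.Helper25 (sgn pk8 gPiD4a gEpsD4a wPi wEta wEta_cases negSet uMinus)

theorem pa_hf {K : Type*} [Field K] : ∀ t : K, (RingHom.id K) t = t ^ 1 :=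
  fun t => (pow_one t).symm

/-- `|U ∩ G1| = |K|⁶` for every group `G1` of fixed points containing the folded group. -/
theorem pa_card_unip_gen {K : Type*} [Field K] [Fintype K]
    (G1 : Subgroup (GL chevD4.Idx K)) (hle : twistedD4 K 1 ≤ G1)
    (hfix : ∀ g ∈ G1, (d4Sig (RingHom.id K)).sig g = g) :
    Nat.card ↥(chevD4.posUnipotent K ⊓ G1) = Fintype.card K ^ 6 := by
  classical
  have hq3 : ∀ t : K, t ^ (1 ^ 3) = t := fun t => by simp
  have hSpos : ∀ r, chevD4.IsPosRoot r →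
      chevD4.IsPosRoot ((d4Sig (RingHom.id K)).π r) ∧ lvD4 ((d4Sig (RingHom.id K)).π r) = lvD4 r :=
    fun r hr => sigD4_chk.1 r hr.1 hr
  have hSinj : ∀ r r', chevD4.IsPosRoot r → chevD4.IsPosRoot r' →
      (d4Sig (RingHom.id K)).π r = (d4Sig (RingHom.id K)).π r' → r = r' :=
    fun r r' hr hr' h => sigD4_chk.2 r hr.1 r' hr'.1 h
  have hgap : ∀ c c' a, gapD4 c c' a → ∀ r, chevD4.IsPosRoot r → 8 + c ≤ lvD4 r →
      lvD4 r < 8 + c' → ∃ k, r = (d4Sig (RingHom.id K)).π^[k] a := by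
    intro c c' a h r hr h1 h2
    rcases h r hr.1 hr h1 h2 with e | e | e
    · exact ⟨0, e⟩
    · exact ⟨1, e⟩
    · exact ⟨2, e⟩
  have cK : Nat.card {y : K // True} = Fintype.card K := by
    rw [Nat.card_congr (Equiv.subtypeUnivEquiv (fun _ => trivial)), Nat.card_eq_fintype_card]
  have cF : Nat.card {y : K // y ^ 1 = y} = Fintype.card K := by
    rw [Nat.card_congr (Equiv.subtypeUnivEquiv (fun y => pow_one y)), Nat.card_eq_fintype_card]
  have hYfix : ∀ a, pk8 gPiD4a a = a →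
      ∀ y : K, ((d4Sig (RingHom.id K)).π a = a → (d4Sig (RingHom.id K)).f y = y) → y ^ 1 = y := by
    intro a ha y h
    have := h ha
    rwa [d4Sig_f, pa_hf] at this
  have hrank : ∀ L : List ℕ, (∀ i ∈ L, i < 4) → ∀ i ∈ L, i < chevD4.rank := by
    intro L h i hi
    rw [d4_rank]
    exact h i hi
  -- the families of twisted root elements
  obtain ⟨X1, hX1⟩ : ∃ X : K → GL chevD4.Idx K, ∀ y, y ^ 1 = y → X y ∈ twistedD4 K 1 ∧
      X y ∈ chevD4.posUnipotent K ∧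
      X y ∈ utSubgroup (R := K) (wLev chevD4 lvD4 8) 1 le_rfl ∧
      ent chevD4 (X y) 14 (iaD4 14) = -((chevD4.cartan (iaD4 14) 14 : ℤ) : K) * y := by
    refine ⟨fun y => wGL chevD4 chevD4_mem [(14, y)], fun y hy => ⟨(d4_long_mem 1 y hy).1, ?_⟩⟩
    apply word_family chevD4 chevD4_mem lvD4 8 levD4 iaD4 posD4 _ 14 y 1 le_rfl _ d4_pos.2.1
      d4_levels.1
    · simp
    · intro p hp
      simp only [List.mem_singleton] at hp
      rw [hp]
      exact ⟨d4_pos.2.1, by rw [d4_levels.1]⟩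
  obtain ⟨X2, hX2⟩ := d4_family_short (K := K) 1 [] (by simp) (Subgroup.one_mem _) 18 13 12 2
    (by norm_num) d4_pos.1 d4_pos.2.2.1 d4_pos.2.2.2 d4_levels.2.1 d4_levels.2.2.1
    d4_levels.2.2.2.1 rfl rfl rfl (by norm_num) (by norm_num)
  obtain ⟨X3, hX3⟩ := d4_family_short (K := K) 1 [1] (hrank _ (by simp)) (d4_n1_mem 1 (RingHom.id K) pa_hf)
    19 16 15 3 (by norm_num) d4_posr.1 d4_posr.2.1 d4_posr.2.2.1 d4_levels.2.2.2.2.1
    d4_levels.2.2.2.2.2.1 d4_levels.2.2.2.2.2.2.1 d4_wPi.1 d4_wPi.2.1 d4_wPi.2.2.1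
    (by norm_num) (by norm_num)
  obtain ⟨X4, hX4⟩ := d4_family_short (K := K) 1 [0, 2, 3, 1] (hrank _ (by simp))
    (d4_block_mem 1 (RingHom.id K) pa_hf) 17 20 21 5 (by norm_num) d4_posr.2.2.2.1 d4_posr.2.2.2.2.1
    d4_posr.2.2.2.2.2.1 d4_levels.2.2.2.2.2.2.2.1 d4_levels.2.2.2.2.2.2.2.2.1
    d4_levels.2.2.2.2.2.2.2.2.2.1 d4_wPi.2.2.2.1 d4_wPi.2.2.2.2.1 d4_wPi.2.2.2.2.2.1
    (by norm_num) (by norm_num)
  obtain ⟨X5, hX5⟩ := d4_family_long (K := K) 1 (RingHom.id K) pa_hf [0, 2, 3, 1] (hrank _ (by simp))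
    (d4_block_mem 1 (RingHom.id K) pa_hf) 22 7 (by norm_num) d4_posr.2.2.2.2.2.2.1
    d4_levels.2.2.2.2.2.2.2.2.2.2.1 d4_wPi.2.2.2.2.2.2.1
  obtain ⟨X6, hX6⟩ := d4_family_long (K := K) 1 (RingHom.id K) pa_hf [1, 0, 2, 3, 1] (hrank _ (by simp))
    (d4_n5_mem 1 (RingHom.id K) pa_hf) 23 8 (by norm_num) d4_posr.2.2.2.2.2.2.2
    d4_levels.2.2.2.2.2.2.2.2.2.2.2 d4_wPi.2.2.2.2.2.2.2
  -- the six steps
  have s1 := orbit_step chevD4 chevD4_mem lvD4 8 levD4 iaD4 posD4 (d4Sig (RingHom.id K)) hSpos hSinj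
    G1 hfix 1 2 le_rfl (by norm_num) 14 d4_pos.2.1 d4_levels.1
    (hgap 1 2 14 gapD4_all.1) (fun y => y ^ 1 = y) X1 (hYfix 14 d4_pi.2.2.2.1) (one_pow 1) (fun y hy => ⟨hle (hX1 y hy).1, (hX1 y hy).2⟩)
  have s2 := orbit_step chevD4 chevD4_mem lvD4 8 levD4 iaD4 posD4 (d4Sig (RingHom.id K)) hSpos hSinj
    G1 hfix 2 3 (by norm_num) (by norm_num) 18 d4_pos.1 d4_levels.2.1
    (hgap 2 3 18 gapD4_all.2.1) (fun _ => True) X2 (fun _ _ => trivial) trivial (fun y hy => ⟨hle (hX2 y hy).1, (hX2 y hy).2⟩)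
  have s3 := orbit_step chevD4 chevD4_mem lvD4 8 levD4 iaD4 posD4 (d4Sig (RingHom.id K)) hSpos hSinj
    G1 hfix 3 5 (by norm_num) (by norm_num) 19 d4_posr.1 d4_levels.2.2.2.2.1
    (hgap 3 5 19 gapD4_all.2.2.1) (fun _ => True) X3 (fun _ _ => trivial) trivial (fun y hy => ⟨hle (hX3 y hy).1, (hX3 y hy).2⟩)
  have s4 := orbit_step chevD4 chevD4_mem lvD4 8 levD4 iaD4 posD4 (d4Sig (RingHom.id K)) hSpos hSinj
    G1 hfix 5 7 (by norm_num) (by norm_num) 17 d4_posr.2.2.2.1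
    d4_levels.2.2.2.2.2.2.2.1 (hgap 5 7 17 gapD4_all.2.2.2.1) (fun _ => True) X4
    (fun _ _ => trivial) trivial (fun y hy => ⟨hle (hX4 y hy).1, (hX4 y hy).2⟩)
  have s5 := orbit_step chevD4 chevD4_mem lvD4 8 levD4 iaD4 posD4 (d4Sig (RingHom.id K)) hSpos hSinj
    G1 hfix 7 8 (by norm_num) (by norm_num) 22 d4_posr.2.2.2.2.2.2.1
    d4_levels.2.2.2.2.2.2.2.2.2.2.1 (hgap 7 8 22 gapD4_all.2.2.2.2.1) (fun y => y ^ 1 = y) X5
    (hYfix 22 d4_pi2.1) (one_pow 1) (fun y hy => ⟨hle (hX5 y hy).1, (hX5 y hy).2⟩)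
  have s6 := orbit_step chevD4 chevD4_mem lvD4 8 levD4 iaD4 posD4 (d4Sig (RingHom.id K)) hSpos hSinj
    G1 hfix 8 9 (by norm_num) (by norm_num) 23 d4_posr.2.2.2.2.2.2.2
    d4_levels.2.2.2.2.2.2.2.2.2.2.2 (hgap 8 9 23 gapD4_all.2.2.2.2.2) (fun y => y ^ 1 = y) X6
    (hYfix 23 d4_pi2.2) (one_pow 1) (fun y hy => ⟨hle (hX6 y hy).1, (hX6 y hy).2⟩)
  have top := card_top (F := K) chevD4 chevD4_mem lvD4 8 levD4 iaD4 posD4 G1 9
    (by norm_num) (fun r hr => topD4 r hr.1 hr)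
  rw [inf_comm, ← inf_fil_one chevD4 chevD4_mem lvD4 8 levD4 iaD4 posD4 G1, s1, s2,
    s3, s4, s5, s6, top, cF, cK]
  ring

/-- PA1: copy of `d4_card_unip_gen` / `d4_fix_unip` (TwUD4b.lean) with `q := 1`, `f := RingHom.id K`. -/
theorem d4_fix_unip_id {K : Type*} [Field K] [Fintype K] (u : GL chevD4.Idx K)
    (hu : u ∈ chevD4.posUnipotent K) (hfix : (d4Sig (RingHom.id K)).sig u = u) :
    u ∈ twistedD4 K 1 := by
  classical
  have hq3 : ∀ t : K, t ^ (1 ^ 3) = t := fun t => by simp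
  have hle : twistedD4 K 1 ≤ (d4Sig (RingHom.id K)).fixed :=
    fun g hg => twistedD4_fixed 1 (RingHom.id K) pa_hf hq3 g hg
  have c1 := pa_card_unip_gen (d4Sig (RingHom.id K)).fixed hle (fun g hg => hg)
  have c2 := pa_card_unip_gen (twistedD4 K 1) le_rfl
    (fun g hg => twistedD4_fixed 1 (RingHom.id K) pa_hf hq3 g hg)
  have hsub : chevD4.posUnipotent K ⊓ twistedD4 K 1 ≤
      chevD4.posUnipotent K ⊓ (d4Sig (RingHom.id K)).fixed :=
    inf_le_inf_left _ hle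
  have heq : chevD4.posUnipotent K ⊓ twistedD4 K 1 =
      chevD4.posUnipotent K ⊓ (d4Sig (RingHom.id K)).fixed := by
    apply Subgroup.eq_of_le_of_card_ge hsub
    rw [c1, c2]
  have : u ∈ chevD4.posUnipotent K ⊓ (d4Sig (RingHom.id K)).fixed := ⟨hu, hfix⟩
  rw [← heq] at this
  exact this.2

/-- PA2: copy of `d4Tw` (TwD4Inst.lean) with `q := 1`. -/
theorem exists_d4TwId (K : Type*) [Field K] [Fintype K] :
    ∃ T : TwSet K chevD4 chevD4_mem, T.S = d4Sig (RingHom.id K) ∧ T.blocks = d4Blocks ∧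
      T.G1 = twistedD4 K 1 := by
  refine ⟨{
    S := d4Sig (RingHom.id K)
    blocks := d4Blocks
    G1 := twistedD4 K 1
    hsurj := Function.surjective_id
    hpos := fun r hr => (sigD4_chk.1 r hr.1 hr).1
    hneg := fun r hr => d4tw_sig_chk.1 r hr.1 hr
    hπneg := d4tw_sig_chk.2.1
    hεneg := d4tw_sig_chk.2.2
    hinj := sigD4_chk.2
    hblk := d4tw_blk_chk.1
    hcover := d4tw_blk_chk.2.1
    hJπ := d4tw_blk_chk.2.2.1
    horb := fun J hJ i hi j hj => by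
      obtain ⟨k, _, hk⟩ := d4tw_blk_chk.2.2.2.1 J hJ i hi j hj
      exact ⟨k, hk⟩
    horth := d4tw_blk_chk.2.2.2.2.1
    hnodup := d4tw_blk_chk.2.2.2.2.2.1
    hJneg := d4tw_blk_chk.2.2.2.2.2.2
    hcomm := d4tw_comm_chk.1
    hcommR := d4tw_comm_chk.2
    hG1le := genSubgroup_le_group chevD4 chevD4_mem _
    hG1fix := fun g hg => twistedD4_fixed 1 (RingHom.id K) pa_hf (fun t => by simp) g hg
    hUfix := fun u hu hfix => d4_fix_unip_id u hu hfix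
    hnJ := by
      intro J hJ
      simp only [d4Blocks, List.mem_cons, List.not_mem_nil, or_false] at hJ
      rcases hJ with rfl | rfl
      · exact d4_n1_mem 1 (RingHom.id K) pa_hf
      · have e : nWordGL (F := K) chevD4 chevD4_mem [0, 2, 3, 1] =
            nWordGL chevD4 chevD4_mem [0, 2, 3] * nWordGL chevD4 chevD4_mem [1] := by
          rw [← nWordGL_append]
          rfl
        have e2 : nWordGL (F := K) chevD4 chevD4_mem [0, 2, 3] =
            nWordGL chevD4 chevD4_mem [0, 2, 3, 1] * (nWordGL chevD4 chevD4_mem [1])⁻¹ := by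
          rw [e, mul_inv_cancel_right]
        rw [e2]
        exact Subgroup.mul_mem _ (d4_block_mem 1 (RingHom.id K) pa_hf)
          (Subgroup.inv_mem _ (d4_n1_mem 1 (RingHom.id K) pa_hf)) }, rfl, rfl, rfl⟩

end Cfsg.Agent.Lib.Helper24.Fold
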