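import Cfsg.Agent.Lib.Helper27.ChevDyn
import Cfsg.Agent.Lib.Helper25.ChevLeviN
import Cfsg.Agent.Lib.Helper25.ChevSylow

/-!
# Pieces PB1 / PB2 of the S2156 project (helper27): `N_G(U) = B` and `U` is a Sylow `p`-subgroup
-/

set_option autoImplicit false

namespace Cfsg.Agent.Lib.Helper78.ChevDynP

open Cfsg.Lie Matrix
open Cfsg.Agent.Lib.Helper24 Cfsg.Agent.Lib.Helper25
open Cfsg.Agent.Lib.Helper27.PslnOut Cfsg.Agent.Lib.Helper27.DynOut
  Cfsg.Agent.Lib.Helper27.ChevDyn

variable {F : Type*} [Field F] (D : ChevalleyDatum)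

/-- A fundamental reflection `n_p` does not conjugate `x_p(1)` into `U`. -/
theorem n_conj_x_not_mem_posUnipotent
    (hD : D ∈ [chevG2, chevB2, chevD4, chevF4, chevE6, chevE7, chevE8]) (i : ℕ)
    (hi : i < D.rank) (s : GL D.Idx F)
    (hs : (s : Matrix D.Idx D.Idx F) = D.nMat F (D.simple i) 1)
    (x : GL D.Idx F) (hx : (x : Matrix D.Idx D.Idx F) = D.x F (D.simple i) 1) :
    s * x * s⁻¹ ∉ D.posUnipotent F := by
  have hD' : D ∈ chevList := hD
  have hp : D.simple i < D.nroots := simple_lt D hD' i hi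
  have hpos := (upChk_all D hD i hi).1
  obtain ⟨_, hnp, _, _, _⟩ := reflect_facts D hD i hi (D.simple i) hp
  have hrefl : D.reflectRoot i (D.simple i) = D.neg (D.simple i) := by
    unfold ChevalleyDatum.reflectRoot
    simp
  have hc := n_simple_conj (F := F) D hD i hi (D.simple i) hp 1
  rw [hrefl, mul_one] at hc
  intro hconj
  have hUB : D.posUnipotent F ≤ D.borelSubgroup F :=
    (le_sup_left : D.posUnipotent F ≤ D.borelSubgroup F)
  obtain ⟨z, hz⟩ := exists_xGL (F := F) D hD (D.neg (D.simple i)) hnp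
    ((nEta D i (D.simple i) : ℤ) : F)
  have e : z = s * x * s⁻¹ := by
    rw [eq_mul_inv_iff_mul_eq]
    apply Units.ext
    simp only [Units.val_mul]
    rw [hz, hs, hx, hc]
  have hzB : z ∈ D.borelSubgroup F := by
    rw [e]
    exact hUB hconj
  have hzV : z ∈ D.negUnipotent F := by
    unfold ChevalleyDatum.negUnipotent
    apply Subgroup.subset_closure
    exact ⟨D.neg (D.simple i), _, ((sign_facts D hD (D.simple i) hp).2.2.2).1 hpos, hz⟩
  have hz1 : z ∈ D.borelSubgroup F ⊓ D.negUnipotent F := Subgroup.mem_inf.2 ⟨hzB, hzV⟩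
  rw [borel_inf_negUnipotent D hD', Subgroup.mem_bot] at hz1
  have : D.x F (D.neg (D.simple i)) ((nEta D i (D.simple i) : ℤ) : F) = 1 := by
    rw [← hz, hz1, Units.val_one]
  refine x_ne_one D hD (D.neg (D.simple i)) hnp _ ?_ this
  rcases nEta_cases D i (D.simple i) with h | h <;> rw [h] <;> simp

/-- PB1 -/
theorem pieceB_nm [Finite F] (hD : D ∈ lst) : Nm (Ug F D) = Bg F D := by
  have hD1 : D ∈ [chevG2, chevB2, chevD4, chevF4, chevE6, chevE7, chevE8] := hD
  have hD' : D ∈ chevList := hD1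
  have hHU : D.diagonalSubgroup F ≤
      Subgroup.normalizer (D.posUnipotent F : Set (GL D.Idx F)) :=
    diagonal_le_normalizer_rootGen D hD' D.IsPosRoot (fun r hr => hr.1)
  have hBN : D.borelSubgroup F ≤
      Subgroup.normalizer (D.posUnipotent F : Set (GL D.Idx F)) :=
    sup_le Subgroup.le_normalizer hHU
  have hBM : Bg F D ≤ Nm (Ug F D) := by
    intro b hb
    have hb' : (b : GL D.Idx F) ∈ D.borelSubgroup F := Subgroup.mem_subgroupOf.1 hb
    have hn := Subgroup.mem_set_normalizer_iff.1 (hBN hb')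
    rw [mem_Nm]
    intro k
    show ((b * k * b⁻¹ : ↥(D.group F)) : GL D.Idx F) ∈ D.posUnipotent F ↔
      (k : GL D.Idx F) ∈ D.posUnipotent F
    exact (hn (k : GL D.Idx F)).symm
  apply le_antisymm
  · have hpar := Cfsg.Agent.Lib.Helper8.eq_parabolic (chevBN (F := F) D hD1) (Nm (Ug F D)) hBM
    have hemp : {σ | σ ∈ (chevBN (F := F) D hD1).S ∧ σ ∈ Nm (Ug F D)} =
        (∅ : Set ↥(D.group F)) := by
      ext σ
      simp only [Set.mem_ofPred_eq, Set.mem_empty_iff_false, iff_false, not_and]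
      rintro ⟨i, hi, hσ⟩ hσM
      have hpos := (upChk_all D hD1 i hi).1
      have hxU : (⟨xGL D hD' (D.simple i) 1, xGL_mem_group D hD' _ _⟩ : ↥(D.group F)) ∈
          Ug F D := by
        show _ ∈ (D.posUnipotent F).subgroupOf (D.group F)
        rw [Subgroup.mem_subgroupOf]
        exact Subgroup.subset_closure ⟨D.simple i, 1, hpos, xGL_val D hD' _ _⟩
      have h1 := (mem_Nm.1 hσM _).2 hxU
      exact n_conj_x_not_mem_posUnipotent D hD1 i hi (σ : GL D.Idx F) hσ _
        (xGL_val D hD' (D.simple i) 1) (Subgroup.mem_subgroupOf.1 h1)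
    rw [hemp, Cfsg.Agent.Lib.Helper8.parabolic_empty] at hpar
    exact hpar.le
  · exact hBM

/-- PB2 -/
theorem pieceB_syl [Finite F] (hD : D ∈ lst) (p : ℕ) [Fact p.Prime] [CharP F p] :
    ∃ P : Sylow p ↥(D.group F), ∀ g, g ∈ P ↔ g ∈ Ug F D := by
  have hD1 : D ∈ [chevG2, chevB2, chevD4, chevF4, chevE6, chevE7, chevE8] := hD
  have : Fintype F := Fintype.ofFinite F
  obtain ⟨P, hP⟩ := posUnipotent_sylow (F := F) p D hD1
  refine ⟨P, fun g => ?_⟩
  show g ∈ (P : Subgroup ↥(D.group F)) ↔ g ∈ (D.posUnipotent F).subgroupOf (D.group F)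
  rw [hP]

end Cfsg.Agent.Lib.Helper78.ChevDynP
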