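import Mathlib
import Cfsg.Agent.Lib.Helper52.QuadFin

/-!
# S2700, piece GT-SYM: invertible symmetric matrices over a finite field of odd order whose
determinants have a square product are congruent
-/

set_option autoImplicit false

namespace Cfsg.Agent.Lib.Helper78.GTSYM

open Matrix Module QuadraticMap

variable {F : Type*} [Field F] {n : ℕ}

/-- the quadratic form `v ↦ v ⬝ᵥ g *ᵥ v` -/
noncomputable def qf (g : Matrix (Fin n) (Fin n) F) : QuadraticForm F (Fin n → F) :=
  (Matrix.toBilin' g).toQuadraticMap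

theorem qf_apply (g : Matrix (Fin n) (Fin n) F) (v : Fin n → F) : qf g v = v ⬝ᵥ g *ᵥ v := by
  unfold qf
  rw [LinearMap.BilinMap.toQuadraticMap_apply, Matrix.toBilin'_apply']

theorem sym_bilin (g : Matrix (Fin n) (Fin n) F) (hg : gᵀ = g) (u v : Fin n → F) :
    u ⬝ᵥ g *ᵥ v = v ⬝ᵥ g *ᵥ u := by
  rw [Matrix.dotProduct_mulVec, ← Matrix.mulVec_transpose, hg, dotProduct_comm]

theorem polar_qf (g : Matrix (Fin n) (Fin n) F) (hg : gᵀ = g) (u v : Fin n → F) :
    polar (qf g) u v = 2 * (u ⬝ᵥ g *ᵥ v) := by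
  unfold qf
  rw [LinearMap.BilinMap.polar_toQuadraticMap, Matrix.toBilin'_apply', Matrix.toBilin'_apply',
    sym_bilin g hg v u]
  ring

theorem gram_qf (g : Matrix (Fin n) (Fin n) F) (hg : gᵀ = g) :
    Matrix.of (fun i j : Fin n =>
      polar (qf g) (Pi.basisFun F (Fin n) i) (Pi.basisFun F (Fin n) j)) = (2 : F) • g := by
  ext i j
  rw [Matrix.of_apply, polar_qf g hg, Pi.basisFun_apply, Pi.basisFun_apply, Matrix.smul_apply,
    smul_eq_mul, ← Matrix.toBilin'_apply', Matrix.toBilin'_single]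

theorem nondeg_qf (h2 : (2 : F) ≠ 0) (g : Matrix (Fin n) (Fin n) F) (hg : gᵀ = g)
    (hdet : g.det ≠ 0) : (polarBilin (qf g)).Nondegenerate := by
  have hleft : ∀ x : Fin n → F, (∀ y, polar (qf g) x y = 0) → x = 0 := by
    intro x hx
    have h1 : x ᵥ* g = 0 := by
      apply dotProduct_eq_zero
      intro w
      rw [← Matrix.dotProduct_mulVec]
      have h := hx w
      rw [polar_qf g hg] at h
      exact (mul_eq_zero.mp h).resolve_left h2
    exact Matrix.eq_zero_of_vecMul_eq_zero hdet h1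
  constructor
  · intro x hx
    apply hleft x
    intro y
    have h := hx y
    rwa [QuadraticMap.polarBilin_apply_apply] at h
  · intro y hy
    apply hleft y
    intro x
    have h := hy x
    rw [QuadraticMap.polarBilin_apply_apply] at h
    rw [QuadraticMap.polar_comm]
    exact h

/-- symmetric matrices with the same quadratic form are equal (`2 ≠ 0`) -/
theorem sym_eq_of_quad (h2 : (2 : F) ≠ 0) (A B : Matrix (Fin n) (Fin n) F) (hA : Aᵀ = A)
    (hB : Bᵀ = B) (h : ∀ v : Fin n → F, v ⬝ᵥ A *ᵥ v = v ⬝ᵥ B *ᵥ v) : A = B := by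
  ext i j
  have key : ∀ M : Matrix (Fin n) (Fin n) F,
      (Pi.single i 1 + Pi.single j 1 : Fin n → F) ⬝ᵥ M *ᵥ (Pi.single i 1 + Pi.single j 1) =
        M i i + M i j + M j i + M j j := by
    intro M
    rw [← Matrix.toBilin'_apply']
    simp only [map_add, LinearMap.add_apply, Matrix.toBilin'_single]
    ring
  have hi : ∀ (M : Matrix (Fin n) (Fin n) F) (k : Fin n),
      (Pi.single k 1 : Fin n → F) ⬝ᵥ M *ᵥ Pi.single k 1 = M k k := by
    intro M k
    rw [← Matrix.toBilin'_apply', Matrix.toBilin'_single]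
  have h1 := h (Pi.single i 1 + Pi.single j 1)
  rw [key, key] at h1
  have hii := h (Pi.single i 1)
  rw [hi, hi] at hii
  have hjj := h (Pi.single j 1)
  rw [hi, hi] at hjj
  have hAji : A j i = A i j := congrFun (congrFun hA i) j
  have hBji : B j i = B i j := congrFun (congrFun hB i) j
  have h3 : (2 : F) * (A i j - B i j) = 0 := by
    linear_combination h1 - hii - hjj - hAji + hBji
  exact sub_eq_zero.mp ((mul_eq_zero.mp h3).resolve_left h2)

/-- GT-SYM -/
theorem sym_congr {F : Type*} [Field F] [Fintype F] (h2 : (2 : F) ≠ 0) {n : ℕ}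
    (g g' : Matrix (Fin n) (Fin n) F) (hg : g.transpose = g) (hg' : g'.transpose = g')
    (hdet : g.det ≠ 0) (hdet' : g'.det ≠ 0) (hsq : IsSquare (g.det * g'.det)) :
    ∃ h : GL (Fin n) F, (h : Matrix (Fin n) (Fin n) F) * g *
      (h : Matrix (Fin n) (Fin n) F).transpose = g' := by
  have hE : (qf g').Equivalent (qf g) := by
    apply Cfsg.Agent.Lib.Helper52.equivalent_of_gram h2 (qf g') (qf g)
      (nondeg_qf h2 g' hg' hdet') (nondeg_qf h2 g hg hdet) rfl
      (Pi.basisFun F (Fin n)) (Pi.basisFun F (Fin n))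
    rw [gram_qf g' hg', gram_qf g hg, Matrix.det_smul, Matrix.det_smul, Fintype.card_fin]
    obtain ⟨r, hr⟩ := hsq
    refine ⟨2 ^ n * r, ?_⟩
    linear_combination (2 ^ n * 2 ^ n : F) * hr
  obtain ⟨e⟩ := hE
  obtain ⟨N, hN⟩ : ∃ N : Matrix (Fin n) (Fin n) F, N = LinearMap.toMatrix'
      (e.toLinearEquiv : (Fin n → F) →ₗ[F] (Fin n → F)) := ⟨_, rfl⟩
  have hNv : ∀ v : Fin n → F, N *ᵥ v = e v := by
    intro v
    rw [← Matrix.toLin'_apply, hN, Matrix.toLin'_toMatrix']
    rfl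
  have hquad : ∀ v : Fin n → F, v ⬝ᵥ (Nᵀ * g * N) *ᵥ v = v ⬝ᵥ g' *ᵥ v := by
    intro v
    have h1 := e.map_app v
    rw [qf_apply, qf_apply, ← hNv] at h1
    rw [← h1, ← Matrix.mulVec_mulVec, ← Matrix.mulVec_mulVec,
      Matrix.dotProduct_mulVec v Nᵀ (g *ᵥ (N *ᵥ v)), Matrix.vecMul_transpose]
  have hA : (Nᵀ * g * N)ᵀ = Nᵀ * g * N := by
    rw [Matrix.transpose_mul, Matrix.transpose_mul, Matrix.transpose_transpose, hg,
      Matrix.mul_assoc]
  have hEq : Nᵀ * g * N = g' := sym_eq_of_quad h2 _ _ hA hg' hquad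
  have hNdet : Nᵀ.det ≠ 0 := by
    intro h0
    apply hdet'
    rw [← hEq, Matrix.det_mul, Matrix.det_mul, h0, zero_mul, zero_mul]
  refine ⟨Matrix.GeneralLinearGroup.mkOfDetNeZero Nᵀ hNdet, ?_⟩
  show Nᵀ * g * Nᵀᵀ = g'
  rw [Matrix.transpose_transpose]
  exact hEq

end Cfsg.Agent.Lib.Helper78.GTSYM
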