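import Mathlib
import Cfsg.Agent.Lib.Helper45.MinIdxA

/-!
# Piece H5C of the S2140 project (helper45): complement analysis, rank ≥ 4, diagonal element
-/

set_option autoImplicit false

namespace Cfsg.Agent.Lib.Helper78.MinIdx

open Matrix Cfsg.Agent.Lib.Helper50 Cfsg.Agent.Lib.Helper45.MinIdx

/-! ### H5C -/
theorem compl_four_diag {ι : Type} [Fintype ι] [DecidableEq ι] {F : Type*} [Field F]
    (d : F) (hd0 : d ≠ 0) (hd1 : d ≠ 1) (hd2 : d * d ≠ 1)
    (f : Fin 4 ↪ ι) (H : Subgroup (Matrix.SpecialLinearGroup ι F))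
    (hfree : ∀ a φ : ι → F, a ≠ 0 → φ ⬝ᵥ a = 0 → tL a φ 1 ∈ H → φ = 0)
    (hcompl : ∀ g : Matrix.SpecialLinearGroup ι F, ∃ φ : ι → F,
      φ ⬝ᵥ (Pi.single (f 0) 1 : ι → F) = 0 ∧ tL (Pi.single (f 0) 1) φ 1 * g ∈ H) : False := by
  -- index facts
  have h01 : f 0 ≠ f 1 := fun h => absurd (f.injective h) (by decide)
  have h02 : f 0 ≠ f 2 := fun h => absurd (f.injective h) (by decide)
  have h03 : f 0 ≠ f 3 := fun h => absurd (f.injective h) (by decide)
  have h12 : f 1 ≠ f 2 := fun h => absurd (f.injective h) (by decide)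
  have h13 : f 1 ≠ f 3 := fun h => absurd (f.injective h) (by decide)
  have h23 : f 2 ≠ f 3 := fun h => absurd (f.injective h) (by decide)
  have he : (Pi.single (f 0) 1 : ι → F) ≠ 0 := by
    intro h
    have := congrFun h (f 0)
    rw [Pi.single_eq_same] at this
    exact one_ne_zero this
  -- the diagonal element
  obtain ⟨v, hvdef⟩ : ∃ v : ι → F,
      v = fun i : ι => (if i = f 0 then d⁻¹ else 1) * (if i = f 3 then d else 1) := ⟨_, rfl⟩
  obtain ⟨v', hv'def⟩ : ∃ v' : ι → F,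
      v' = fun i : ι => (if i = f 0 then d else 1) * (if i = f 3 then d⁻¹ else 1) := ⟨_, rfl⟩
  have hv0 : v (f 0) = d⁻¹ := by rw [hvdef]; simp [h03]
  have hv : ∀ i : ι, i ≠ f 0 → i ≠ f 3 → v i = 1 := by
    intro i h1 h2
    rw [hvdef]
    simp [h1, h2]
  have hv'3 : v' (f 3) = d⁻¹ := by rw [hv'def]; simp [h03.symm]
  have hv' : ∀ i : ι, i ≠ f 0 → i ≠ f 3 → v' i = 1 := by
    intro i h1 h2
    rw [hv'def]
    simp [h1, h2]
  have hvv' : ∀ i : ι, v i * v' i = 1 := by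
    intro i
    rw [hvdef, hv'def]
    by_cases h1 : i = f 0 <;> by_cases h2 : i = f 3 <;> simp [h1, h2, hd0]
  have hdet : (Matrix.diagonal v).det = 1 := by
    rw [hvdef, Matrix.det_diagonal, Finset.prod_mul_distrib]
    simp [hd0]
  have hdet' : (Matrix.diagonal v').det = 1 := by
    rw [hv'def, Matrix.det_diagonal, Finset.prod_mul_distrib]
    simp [hd0]
  obtain ⟨D, hD⟩ : ∃ D : Matrix.SpecialLinearGroup ι F, (D : Matrix ι ι F) = Matrix.diagonal v :=
    ⟨⟨_, hdet⟩, rfl⟩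
  obtain ⟨D', hD'⟩ : ∃ D' : Matrix.SpecialLinearGroup ι F,
      (D' : Matrix ι ι F) = Matrix.diagonal v' :=
    ⟨⟨_, hdet'⟩, rfl⟩
  have hDD' : D * D' = 1 := by
    apply sl_ext
    rw [Matrix.SpecialLinearGroup.coe_mul, hD, hD', Matrix.diagonal_mul_diagonal]
    have h1 : (fun i : ι => v i * v' i) = fun _ => (1 : F) := funext hvv'
    rw [h1, Matrix.diagonal_one]
    rfl
  have hDinv : D⁻¹ = D' := inv_eq_of_mul_eq_one_right hDD'
  -- the transvection
  have hε₂e : (Pi.single (f 2) 1 : ι → F) ⬝ᵥ (Pi.single (f 0) 1 : ι → F) = 0 := by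
    rw [single_dotProduct, one_mul, Pi.single_eq_of_ne h02.symm]
  have hε₂e₁ : (Pi.single (f 2) 1 : ι → F) ⬝ᵥ (Pi.single (f 1) 1 : ι → F) = 0 := by
    rw [single_dotProduct, one_mul, Pi.single_eq_of_ne h12.symm]
  have hDe : (D : Matrix ι ι F) *ᵥ (Pi.single (f 0) 1 : ι → F) =
      d⁻¹ • (Pi.single (f 0) 1 : ι → F) := by
    funext i
    rw [hD, Matrix.mulVec_diagonal, Pi.smul_apply, smul_eq_mul]
    by_cases hi : i = f 0
    · rw [hi, hv0]
    · rw [Pi.single_eq_of_ne hi, mul_zero, mul_zero]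
  have hDe₁ : (D : Matrix ι ι F) *ᵥ (Pi.single (f 1) 1 : ι → F) =
      (Pi.single (f 1) 1 : ι → F) := by
    funext i
    rw [hD, Matrix.mulVec_diagonal]
    by_cases hi : i = f 1
    · rw [hi, hv (f 1) h01.symm h13, one_mul]
    · rw [Pi.single_eq_of_ne hi, mul_zero]
  have hε₂D : (Pi.single (f 2) 1 : ι → F) ᵥ* (↑(D⁻¹) : Matrix ι ι F) =
      (Pi.single (f 2) 1 : ι → F) := by
    rw [hDinv]
    funext i
    rw [hD', Matrix.vecMul_diagonal]
    by_cases hi : i = f 2
    · rw [hi, hv' (f 2) h02.symm h23, mul_one]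
    · rw [Pi.single_eq_of_ne hi, zero_mul]
  have hconj : D * tL (Pi.single (f 1) 1 : ι → F) (Pi.single (f 2) 1) (1 : F) * D⁻¹ =
      tL (Pi.single (f 1) 1 : ι → F) (Pi.single (f 2) 1) (1 : F) := by
    rw [tL_conj hε₂e₁, hDe₁, hε₂D]
  have hcomm : tL (Pi.single (f 1) 1 : ι → F) (Pi.single (f 2) 1) (1 : F) * D =
      D * tL (Pi.single (f 1) 1 : ι → F) (Pi.single (f 2) 1) (1 : F) := by
    have h1 := hconj
    rw [mul_inv_eq_iff_eq_mul] at h1
    exact h1.symm
  have hτe : (tL (Pi.single (f 1) 1 : ι → F) (Pi.single (f 2) 1) (1 : F) : Matrix ι ι F) *ᵥ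
      (Pi.single (f 0) 1 : ι → F) = (1 : F) • (Pi.single (f 0) 1 : ι → F) := by
    rw [tL_mulVec hε₂e₁, hε₂e, mul_zero, zero_smul, add_zero, one_smul]
  obtain ⟨φ, hφe, hφH⟩ := hcompl (tL (Pi.single (f 1) 1 : ι → F) (Pi.single (f 2) 1) (1 : F))
  obtain ⟨φ', hφ'e, hφ'H⟩ := hcompl D
  have hrel := rel_of_comm H (Pi.single (f 0) 1 : ι → F) he
    (fun φ h1 h2 => hfree _ φ he h1 h2)
    (tL (Pi.single (f 1) 1 : ι → F) (Pi.single (f 2) 1) (1 : F)) D 1 d⁻¹ hτe hDe hcomm
    φ φ' hφe hφ'e hφH hφ'H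
  rw [tL_inv, tL_vecMul hε₂e₁, hDinv, one_smul] at hrel
  have hcoord : ∀ j : ι, φ j + (φ' j + (-1 * (φ' ⬝ᵥ (Pi.single (f 1) 1 : ι → F))) *
      (Pi.single (f 2) 1 : ι → F) j) =
      φ' j + d⁻¹ * (φ j * v' j) := by
    intro j
    have h1 := congrFun hrel j
    simp only [Pi.add_apply, Pi.smul_apply, smul_eq_mul] at h1
    rw [hD', Matrix.vecMul_diagonal] at h1
    exact h1
  have hφ0 : ∀ j : ι, j ≠ f 2 → φ j = 0 := by
    intro j hj
    have hc := hcoord j
    rw [Pi.single_eq_of_ne hj, mul_zero, add_zero] at hc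
    by_cases hj0 : j = f 0
    · rw [hj0]
      have h1 : φ ⬝ᵥ (Pi.single (f 0) 1 : ι → F) = φ (f 0) := by
        rw [dotProduct_single, mul_one]
      rw [← h1]
      exact hφe
    · by_cases hj3 : j = f 3
      · rw [hj3] at hc ⊢
        rw [hv'3] at hc
        have h2 : φ (f 3) = d⁻¹ * (φ (f 3) * d⁻¹) :=
          add_left_cancel (a := φ' (f 3)) (by rw [add_comm]; exact hc)
        have h3 : φ (f 3) * (d * d - 1) = 0 := by
          have h4 : φ (f 3) * (d * d) = φ (f 3) := by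
            conv_lhs => rw [h2]
            field_simp
          linear_combination h4
        rcases mul_eq_zero.1 h3 with h | h
        · exact h
        · exact absurd (sub_eq_zero.1 h) hd2
      · rw [hv' j hj0 hj3, mul_one] at hc
        have h2 : φ j = d⁻¹ * φ j :=
          add_left_cancel (a := φ' j) (by rw [add_comm]; exact hc)
        have h3 : φ j * (d - 1) = 0 := by
          have h4 : φ j * d = φ j := by
            conv_lhs => rw [h2]
            field_simp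
          linear_combination h4
        rcases mul_eq_zero.1 h3 with h | h
        · exact h
        · exact absurd (sub_eq_zero.1 h) hd1
  have hφeq : φ = φ (f 2) • (Pi.single (f 2) 1 : ι → F) := by
    funext j
    rw [Pi.smul_apply, smul_eq_mul]
    by_cases hj : j = f 2
    · rw [hj, Pi.single_eq_same, mul_one]
    · rw [hφ0 j hj, Pi.single_eq_of_ne hj, mul_zero]
  rw [hφeq] at hφH
  refine no_prop H (Pi.single (f 0) 1 : ι → F) hfree (Pi.single (f 1) 1 : ι → F)
    (Pi.single (f 2) 1 : ι → F) ?_ ?_ hε₂e hε₂e₁ (φ (f 2)) hφH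
  · intro c hc
    have h1 := congrFun hc (f 1)
    rw [Pi.single_eq_same, Pi.smul_apply, Pi.single_eq_of_ne h01.symm, smul_zero] at h1
    exact one_ne_zero h1
  · intro h
    have h1 := congrFun h (f 2)
    rw [Pi.single_eq_same] at h1
    exact one_ne_zero h1

end Cfsg.Agent.Lib.Helper78.MinIdx
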