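import Cfsg.Agent.Lib.Helper47.UniDefs

/-!
# S2676, piece COMBINE: a pre-frame on top and a frame of its orthogonal complement combine to a
frame of the whole space
-/

set_option autoImplicit false

namespace Cfsg.Agent.Lib.Helper78.Uni

open Cfsg.Agent.Lib.Helper47 Module

universe u

variable {F : Type u} [Field F]

/-- splitting the indices of size `j` of a sum family -/
def h78Split {ι₁ ι₂ : Type*} (d₁ : ι₁ → ℕ) (d₂ : ι₂ → ℕ) (j : ℕ) :
    {i : ι₁ // d₁ i = j} ⊕ {i : ι₂ // d₂ i = j} ≃ {s : ι₁ ⊕ ι₂ // Sum.elim d₁ d₂ s = j} where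
  toFun := Sum.elim (fun i => ⟨Sum.inl i.1, i.2⟩) (fun i => ⟨Sum.inr i.1, i.2⟩)
  invFun := fun s => match s with
    | ⟨Sum.inl i, h⟩ => Sum.inl ⟨i, h⟩
    | ⟨Sum.inr i, h⟩ => Sum.inr ⟨i, h⟩
  left_inv := by rintro (⟨i, h⟩ | ⟨i, h⟩) <;> rfl
  right_inv := by rintro ⟨(i | i), h⟩ <;> rfl

theorem h78Split_inl {ι₁ ι₂ : Type*} (d₁ : ι₁ → ℕ) (d₂ : ι₂ → ℕ) (j : ℕ)
    (i : {i : ι₁ // d₁ i = j}) :
    ((h78Split d₁ d₂ j (Sum.inl i) : {s : ι₁ ⊕ ι₂ // Sum.elim d₁ d₂ s = j}) : ι₁ ⊕ ι₂) =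
      Sum.inl i.1 := rfl

theorem h78Split_inr {ι₁ ι₂ : Type*} (d₁ : ι₁ → ℕ) (d₂ : ι₂ → ℕ) (j : ℕ)
    (i : {i : ι₂ // d₂ i = j}) :
    ((h78Split d₁ d₂ j (Sum.inr i) : {s : ι₁ ⊕ ι₂ // Sum.elim d₁ d₂ s = j}) : ι₁ ⊕ ι₂) =
      Sum.inr i.1 := rfl

theorem h78_sum_split {ι₁ ι₂ : Type*} [Fintype ι₁] [Fintype ι₂] (d₁ : ι₁ → ℕ) (d₂ : ι₂ → ℕ)
    (j : ℕ) {M : Type*} [AddCommMonoid M] (f : {s : ι₁ ⊕ ι₂ // Sum.elim d₁ d₂ s = j} → M) :
    ∑ s, f s = ∑ i, f (h78Split d₁ d₂ j (Sum.inl i)) + ∑ i, f (h78Split d₁ d₂ j (Sum.inr i)) := by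
  rw [← Equiv.sum_comp (h78Split d₁ d₂ j) f, Fintype.sum_sum_type]

/-- the layer form of a sum family is the orthogonal sum of the layer forms -/
theorem h78_layer_split {ι₁ ι₂ : Type*} [Fintype ι₁] [Fintype ι₂] (d₁ : ι₁ → ℕ) (d₂ : ι₂ → ℕ)
    (G₁ : ι₁ → ι₁ → F) (G₂ : ι₂ → ι₂ → F) (j : ℕ)
    (v w : {s : ι₁ ⊕ ι₂ // Sum.elim d₁ d₂ s = j} → F) :
    layerForm (Sum.elim d₁ d₂) (sumGram G₁ G₂) j v w =
      layerForm d₁ G₁ j (fun i => v (h78Split d₁ d₂ j (Sum.inl i)))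
        (fun i => w (h78Split d₁ d₂ j (Sum.inl i))) +
      layerForm d₂ G₂ j (fun i => v (h78Split d₁ d₂ j (Sum.inr i)))
        (fun i => w (h78Split d₁ d₂ j (Sum.inr i))) := by
  unfold layerForm gForm
  simp only [h78_sum_split, h78Split_inl, h78Split_inr, sumGram, mul_zero, zero_mul,
    Finset.sum_const_zero, add_zero, zero_add]

theorem h78_pow_restrict {V : Type*} [AddCommGroup V] [Module F V] {N : V →ₗ[F] V}
    {P : Submodule F V} (hNP : ∀ v ∈ P, N v ∈ P) (n : ℕ) (v : P) :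
    (((N.restrict hNP) ^ n) v : V) = (N ^ n) (v : V) := by
  induction n generalizing v with
  | zero => simp
  | succ n ih =>
    rw [pow_succ, pow_succ, Module.End.mul_apply, Module.End.mul_apply, ih]
    rfl

-- PIECE COMBINE
theorem frame_combine {V : Type*} [AddCommGroup V] [Module F V]
    [FiniteDimensional F V] {B : V → V → F} {N : V →ₗ[F] V}
    (hB : IsSForm (RingHom.id F) (-1) B)
    {ι₁ ι₂ : Type*} [Fintype ι₁] [Fintype ι₂] (d₁ : ι₁ → ℕ) (G₁ : ι₁ → ι₁ → F) (x₁ : ι₁ → V)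
    (hpos : ∀ i, 0 < d₁ i) (hkill : ∀ i, (N ^ d₁ i) (x₁ i) = 0)
    (hgram : ∀ i k a b, B ((N ^ a) (x₁ i)) ((N ^ b) (x₁ k))
      = if d₁ i = d₁ k ∧ a + b + 1 = d₁ i then (-1) ^ a * G₁ i k else 0)
    (hnd₁ : ∀ j, Nondeg (layerForm d₁ G₁ j))
    (P : Submodule F V) (hP : ∀ v, v ∈ P ↔ ∀ i a, B ((N ^ a) (x₁ i)) v = 0)
    (hNP : ∀ v ∈ P, N v ∈ P) (hcard : ∑ i, d₁ i + finrank F P = finrank F V)
    (d₂ : ι₂ → ℕ) (G₂ : ι₂ → ι₂ → F) (x₂ : ι₂ → P)
    (hx₂ : IsFrame (resForm B P) (N.restrict hNP) d₂ G₂ x₂) :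
    IsFrame B N (Sum.elim d₁ d₂) (sumGram G₁ G₂) (Sum.elim x₁ (fun i => (x₂ i : V))) := by
  have hres : ∀ (n : ℕ) (v : P), (((N.restrict hNP) ^ n) v : V) = (N ^ n) (v : V) :=
    h78_pow_restrict hNP
  refine ⟨?_, ?_, ?_, ?_, ?_⟩
  · rintro (i | i)
    · exact hpos i
    · exact hx₂.pos i
  · rintro (i | i)
    · exact hkill i
    · have h := hx₂.kill i
      have h2 := hres (d₂ i) (x₂ i)
      rw [h] at h2
      exact h2.symm
  · rintro (i | i) (k | k) a b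
    · exact hgram i k a b
    · have hmem : (N ^ b) ((x₂ k : P) : V) ∈ P := by
        rw [← hres]
        exact Subtype.mem _
      have h0 := (hP _).mp hmem i a
      show B ((N ^ a) (x₁ i)) ((N ^ b) (x₂ k : V)) = _
      rw [h0]
      simp [sumGram]
    · have hmem : (N ^ a) ((x₂ i : P) : V) ∈ P := by
        rw [← hres]
        exact Subtype.mem _
      have h0 := (hP _).mp hmem k b
      show B ((N ^ a) (x₂ i : V)) ((N ^ b) (x₁ k)) = _
      rw [hB.symm ((N ^ b) (x₁ k)) ((N ^ a) (x₂ i : V)), h0]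
      simp [sumGram]
    · have h := hx₂.gram i k a b
      rw [resForm_apply, hres, hres] at h
      exact h
  · intro j v hv
    have hv₁ : (fun i => v (h78Split d₁ d₂ j (Sum.inl i))) = 0 := by
      refine hnd₁ j _ (fun w₁ => ?_)
      have h := hv (fun s => Sum.elim w₁ (fun _ => 0) ((h78Split d₁ d₂ j).symm s))
      rw [h78_layer_split] at h
      simp only [Equiv.symm_apply_apply, Sum.elim_inl, Sum.elim_inr] at h
      have h0 : layerForm d₂ G₂ j (fun i => v (h78Split d₁ d₂ j (Sum.inr i))) (fun _ => 0) = 0 := by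
        unfold layerForm gForm
        simp
      rw [h0, add_zero] at h
      exact h
    have hv₂ : (fun i => v (h78Split d₁ d₂ j (Sum.inr i))) = 0 := by
      refine hx₂.nondeg j _ (fun w₂ => ?_)
      have h := hv (fun s => Sum.elim (fun _ => 0) w₂ ((h78Split d₁ d₂ j).symm s))
      rw [h78_layer_split] at h
      simp only [Equiv.symm_apply_apply, Sum.elim_inl, Sum.elim_inr] at h
      have h0 : layerForm d₁ G₁ j (fun i => v (h78Split d₁ d₂ j (Sum.inl i))) (fun _ => 0) = 0 := by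
        unfold layerForm gForm
        simp
      rw [h0, zero_add] at h
      exact h
    funext s
    obtain ⟨x, rfl⟩ := (h78Split d₁ d₂ j).surjective s
    cases x with
    | inl i => exact congrFun hv₁ i
    | inr i => exact congrFun hv₂ i
  · rw [Fintype.sum_sum_type]
    simp only [Sum.elim_inl, Sum.elim_inr]
    rw [hx₂.card, hcard]

end Cfsg.Agent.Lib.Helper78.Uni
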