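import Cfsg.Agent.Lib.Helper96.SpTI
import Cfsg.Agent.Lib.Helper96.SpElem

/-!
# S5955, piece R2-B: an isometry `T` with `T² = -1` over a field containing a square root `ι` of
`-1` stabilises totally isotropic subspaces of every dimension up to half: the eigenspaces of `T`
for `±ι` are totally isotropic of half dimension.
-/

set_option autoImplicit false

namespace Cfsg.Agent.Lib.Helper78.SpR2B

open Module Cfsg.Agent.Lib.Helper96.Sp

/-- subspaces of every dimension inside a given subspace -/
theorem exists_sub_finrank {F : Type*} [Field F] {V : Type*} [AddCommGroup V] [Module F V]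
    [FiniteDimensional F V] (K : Submodule F V) (w : ℕ) (hw : w ≤ finrank F K) :
    ∃ U : Submodule F V, U ≤ K ∧ finrank F U = w := by
  induction w with
  | zero => exact ⟨⊥, bot_le, finrank_bot F V⟩
  | succ w ih =>
    obtain ⟨U, hUK, hUw⟩ := ih (by omega)
    have h3 : U < K := by
      refine lt_of_le_of_ne hUK (fun h => ?_)
      rw [h] at hUw
      omega
    obtain ⟨v, hv, hvU⟩ := SetLike.exists_of_lt h3
    have hv0 : v ≠ 0 := fun h => hvU (h ▸ U.zero_mem)
    refine ⟨U ⊔ Submodule.span F {v}, sup_le hUK ?_, ?_⟩
    · rw [Submodule.span_singleton_le_iff_mem]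
      exact hv
    · have h4 := Submodule.finrank_sup_add_finrank_inf_eq U (Submodule.span F {v})
      have h5 : U ⊓ Submodule.span F {v} = ⊥ := by
        rw [eq_bot_iff]
        rintro x ⟨hx1, hx2⟩
        obtain ⟨a, rfl⟩ := Submodule.mem_span_singleton.mp hx2
        rw [Submodule.mem_bot]
        by_cases ha : a = 0
        · rw [ha, zero_smul]
        · exfalso
          apply hvU
          have := U.smul_mem a⁻¹ hx1
          rwa [smul_smul, inv_mul_cancel₀ ha, one_smul] at this
      rw [h5, finrank_bot, finrank_span_singleton hv0] at h4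
      omega

/-- R2-B. -/
theorem exists_ti_inv_of_sq_neg_of_sqrt {F : Type*} [Field F] {V : Type*} [AddCommGroup V]
    [Module F V] [FiniteDimensional F V] {B : LinearMap.BilinForm F V} (hA : B.IsAlt)
    (hN : ND B ⊤) (h2 : (2 : F) ≠ 0) (T : Module.End F V) (hT : Isom B T) (hsq : T * T = -1)
    (ι : F) (hι : ι * ι = -1) (m : ℕ) (hm : 2 * m ≤ finrank F V) :
    ∃ W : Submodule F V, W.map T ≤ W ∧ Orth B W W ∧ finrank F W = m := by
  have hTT : ∀ v, T (T v) = -v := by
    intro v
    have h := congrArg (fun f : Module.End F V => f v) hsq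
    simpa using h
  have hEp : ∀ u ∈ LinearMap.ker (T - ι • (1 : Module.End F V)), T u = ι • u := by
    intro u hu
    rw [LinearMap.mem_ker, LinearMap.sub_apply, LinearMap.smul_apply, Module.End.one_apply,
      sub_eq_zero] at hu
    exact hu
  have hEm : ∀ u ∈ LinearMap.ker (T + ι • (1 : Module.End F V)), T u = -(ι • u) := by
    intro u hu
    rw [LinearMap.mem_ker, LinearMap.add_apply, LinearMap.smul_apply,
      Module.End.one_apply] at hu
    exact eq_neg_of_add_eq_zero_left hu
  have hOp : Orth B (LinearMap.ker (T - ι • (1 : Module.End F V)))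
      (LinearMap.ker (T - ι • (1 : Module.End F V))) := by
    intro u hu v hv
    have h := hT u v
    rw [hEp u hu, hEp v hv] at h
    simp only [map_smul, LinearMap.smul_apply, smul_eq_mul] at h
    have h3 : (2 : F) * B u v = 0 := by linear_combination (-1 : F) * h + B u v * hι
    exact (mul_eq_zero.mp h3).resolve_left h2
  have hOm : Orth B (LinearMap.ker (T + ι • (1 : Module.End F V)))
      (LinearMap.ker (T + ι • (1 : Module.End F V))) := by
    intro u hu v hv
    have h := hT u v
    rw [hEm u hu, hEm v hv] at h
    simp only [map_neg, LinearMap.neg_apply, map_smul, LinearMap.smul_apply,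
      smul_eq_mul] at h
    have h3 : (2 : F) * B u v = 0 := by linear_combination (-1 : F) * h + B u v * hι
    exact (mul_eq_zero.mp h3).resolve_left h2
  have hsup : LinearMap.ker (T - ι • (1 : Module.End F V)) ⊔
      LinearMap.ker (T + ι • (1 : Module.End F V)) = ⊤ := by
    rw [eq_top_iff]
    intro v _
    have h1 : v - ι • T v ∈ LinearMap.ker (T - ι • (1 : Module.End F V)) := by
      rw [LinearMap.mem_ker, LinearMap.sub_apply, LinearMap.smul_apply, Module.End.one_apply,
        map_sub, map_smul, hTT, smul_sub, smul_smul, hι]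
      module
    have h1' : v + ι • T v ∈ LinearMap.ker (T + ι • (1 : Module.End F V)) := by
      rw [LinearMap.mem_ker, LinearMap.add_apply, LinearMap.smul_apply, Module.End.one_apply,
        map_add, map_smul, hTT, smul_add, smul_smul, hι]
      module
    have h3 : v = (2 : F)⁻¹ • (v - ι • T v) + (2 : F)⁻¹ • (v + ι • T v) := by
      have h4 : v - ι • T v + (v + ι • T v) = (2 : F) • v := by
        rw [two_smul]
        abel
      rw [← smul_add, h4, smul_smul, inv_mul_cancel₀ h2, one_smul]
    rw [h3]
    exact Submodule.add_mem _ (Submodule.mem_sup_left (Submodule.smul_mem _ _ h1))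
      (Submodule.mem_sup_right (Submodule.smul_mem _ _ h1'))
  have hp := ti_le_half hA hN hN le_top hOp
  have hm' := ti_le_half hA hN hN le_top hOm
  rw [finrank_top] at hp hm'
  have hle := Submodule.finrank_add_le_finrank_add_finrank
    (LinearMap.ker (T - ι • (1 : Module.End F V))) (LinearMap.ker (T + ι • (1 : Module.End F V)))
  rw [hsup, finrank_top] at hle
  obtain ⟨W, hWE, hWm⟩ := exists_sub_finrank
    (LinearMap.ker (T - ι • (1 : Module.End F V))) m (by omega)
  refine ⟨W, ?_, fun u hu v hv => hOp u (hWE hu) v (hWE hv), hWm⟩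
  rintro _ ⟨w, hw, rfl⟩
  rw [hEp w (hWE hw)]
  exact W.smul_mem ι hw

end Cfsg.Agent.Lib.Helper78.SpR2B
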