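import Mathlib

set_option autoImplicit false

namespace Cfsg.Agent.Lib.Helper78.TD

open Finset

/-- Fixed points of a self-map of order dividing `p` on an invariant part of a finite type,
counted modulo `p`. -/
theorem card_filter_fixed {α : Type*} [Fintype α] [DecidableEq α] {p : ℕ} [Fact p.Prime]
    (φ : α → α) (hφ : φ^[p] = id) (P : α → Prop) [DecidablePred P] (hP : ∀ x, P x → P (φ x)) :
    (((univ.filter P).card : ℕ) : ZMod p)
      = (((univ.filter (fun x => P x ∧ φ x = x)).card : ℕ) : ZMod p) := by
  classical
  let f : Function.End {x // P x} := fun x => ⟨φ x.1, hP x.1 x.2⟩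
  have hiter : ∀ (n : ℕ) (x : {x // P x}), ((f ^ n) x).1 = φ^[n] x.1 := by
    intro n
    induction n with
    | zero => intro x; rfl
    | succ n ih =>
      intro x
      rw [pow_succ]
      change ((f ^ n) (f x)).1 = _
      rw [ih, Function.iterate_succ_apply]
  have hf : f ^ p ^ 1 = 1 := by
    funext x
    apply Subtype.ext
    rw [pow_one, hiter, hφ]
    rfl
  have h1 := Equiv.Perm.card_fixedPoints_modEq (f := f) (p := p) (n := 1) hf
  have h2 : Fintype.card {x // P x} = (univ.filter P).card := Fintype.card_subtype P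
  have h3 : Fintype.card (Function.fixedPoints f)
      = (univ.filter (fun x => P x ∧ φ x = x)).card := by
    rw [← Fintype.card_subtype]
    apply Fintype.card_congr
    exact
      { toFun := fun y => ⟨y.1.1, y.1.2, congrArg Subtype.val y.2⟩
        invFun := fun z => ⟨⟨z.1, z.2.1⟩, Subtype.ext z.2.2⟩
        left_inv := fun y => rfl
        right_inv := fun z => rfl }
  rw [h2, h3] at h1
  exact (ZMod.natCast_eq_natCast_iff _ _ _).mpr h1

/-- Weighted version: a sum of an invariant weight over an invariant part is congruent modulo `p`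
to the sum over the fixed points. -/
theorem sum_filter_fixed {α : Type*} [Fintype α] [DecidableEq α] {p : ℕ} [Fact p.Prime]
    (φ : α → α) (hφ : φ^[p] = id) (P : α → Prop) [DecidablePred P] (hP : ∀ x, P x → P (φ x))
    (w : α → ℕ) (hw : ∀ x, w (φ x) = w x) :
    ((∑ x ∈ univ.filter P, w x : ℕ) : ZMod p)
      = ((∑ x ∈ univ.filter (fun x => P x ∧ φ x = x), w x : ℕ) : ZMod p) := by
  classical
  have key : ∀ (Q : α → Prop) [DecidablePred Q],
      (∑ x ∈ univ.filter Q, w x)
        = ∑ c ∈ univ.image w, c * (univ.filter (fun x => Q x ∧ w x = c)).card := by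
    intro Q _
    rw [← Finset.sum_fiberwise_of_maps_to (g := w) (t := univ.image w)
      (fun x _ => Finset.mem_image_of_mem w (Finset.mem_univ x))]
    apply Finset.sum_congr rfl
    intro c _
    rw [Finset.filter_filter]
    rw [Finset.sum_congr rfl (fun x hx => (Finset.mem_filter.mp hx).2.2), Finset.sum_const,
      smul_eq_mul, mul_comm]
  rw [key P, key (fun x => P x ∧ φ x = x)]
  push_cast
  apply Finset.sum_congr rfl
  intro c _
  congr 1
  have h := card_filter_fixed φ hφ (fun x => P x ∧ w x = c)
    (fun x hx => ⟨hP x hx.1, (hw x).trans hx.2⟩)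
  rw [h]
  congr 2
  apply Finset.filter_congr
  intro x _
  tauto

end Cfsg.Agent.Lib.Helper78.TD
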