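import Mathlib
import Cfsg.Prelude.Def_Transfer
import Cfsg.Agent.Lib.Helper78.VL3

set_option autoImplicit false

namespace Cfsg.Agent.Lib.Helper78.TD

open Cfsg

universe u

variable {G : Type u} [Group G]

theorem pResidual_normal (p : ℕ) : (pResidual p G).Normal := by
  refine ⟨fun n hn g => ?_⟩
  have hle : pResidual p G ≤ (pResidual p G).comap (MulAut.conj g).toMonoidHom := by
    unfold pResidual
    rw [Subgroup.closure_le]
    intro s hs
    rw [SetLike.mem_coe, Subgroup.mem_comap]
    apply Subgroup.subset_closure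
    change Nat.Coprime (orderOf (MulAut.conj g s)) p
    rw [MulEquiv.orderOf_eq]
    exact hs
  have h := hle hn
  rw [Subgroup.mem_comap] at h
  simpa [MulAut.conj_apply] using h

theorem mem_pResidual_of_coprime (p : ℕ) {g : G} (h : Nat.Coprime (orderOf g) p) :
    g ∈ pResidual p G :=
  Subgroup.subset_closure h

theorem isPGroup_quotient_pResidual [Finite G] (p : ℕ) [hp : Fact p.Prime]
    [(pResidual p G).Normal] : IsPGroup p (G ⧸ pResidual p G) := by
  intro x
  obtain ⟨g, rfl⟩ := QuotientGroup.mk_surjective x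
  have hpos : 0 < orderOf g := orderOf_pos g
  obtain ⟨a, m, hm, hn⟩ := Nat.exists_eq_pow_mul_and_not_dvd hpos.ne' p hp.out.ne_one
  refine ⟨a, ?_⟩
  rw [← QuotientGroup.mk_pow, QuotientGroup.eq_one_iff]
  apply mem_pResidual_of_coprime
  have hdvd : orderOf (g ^ p ^ a) ∣ m := by
    apply orderOf_dvd_of_pow_eq_one
    rw [← pow_mul, ← hn, pow_orderOf_eq_one]
  exact Nat.Coprime.coprime_dvd_left hdvd
    ((Nat.Prime.coprime_iff_not_dvd hp.out).mpr hm).symm

theorem exists_normal_index_p [Finite G] (p : ℕ) [hp : Fact p.Prime]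
    (h : pResidual p G ≠ ⊤) :
    ∃ M : Subgroup G, M.Normal ∧ M.index = p ∧ pResidual p G ≤ M := by
  have : (pResidual p G).Normal := pResidual_normal p
  have hQ : IsPGroup p (G ⧸ pResidual p G) := isPGroup_quotient_pResidual p
  have hbot : (⊥ : Subgroup (G ⧸ pResidual p G)) ≠ ⊤ := by
    intro hbt
    apply h
    apply QuotientGroup.subgroup_eq_top_of_subsingleton
    constructor
    intro a b
    have ha : a ∈ (⊥ : Subgroup (G ⧸ pResidual p G)) := hbt ▸ Subgroup.mem_top a
    have hb : b ∈ (⊥ : Subgroup (G ⧸ pResidual p G)) := hbt ▸ Subgroup.mem_top b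
    rw [Subgroup.mem_bot] at ha hb
    rw [ha, hb]
  obtain ⟨K, -, hK, hKn⟩ := VL.exists_index_p_ge hQ ⊥ hbot
  refine ⟨K.comap (QuotientGroup.mk' (pResidual p G)), hKn.comap _, ?_, ?_⟩
  · rw [Subgroup.index_comap_of_surjective _ (QuotientGroup.mk'_surjective _), hK]
  · intro x hx
    rw [Subgroup.mem_comap]
    have : (QuotientGroup.mk' (pResidual p G)) x = 1 := (QuotientGroup.eq_one_iff x).mpr hx
    rw [this]
    exact K.one_mem

theorem map_pResidual_subgroup (p : ℕ) (M : Subgroup G) (h : pResidual p G ≤ M) :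
    (pResidual p M).map M.subtype = pResidual p G := by
  unfold pResidual
  rw [MonoidHom.map_closure]
  congr 1
  ext g
  constructor
  · rintro ⟨y, hy, rfl⟩
    change Nat.Coprime (orderOf (y : G)) p
    rw [Subgroup.orderOf_coe]
    exact hy
  · intro hg
    have hgM : g ∈ M := h (mem_pResidual_of_coprime p hg)
    refine ⟨⟨g, hgM⟩, ?_, rfl⟩
    change Nat.Coprime (orderOf (⟨g, hgM⟩ : M)) p
    rw [← Subgroup.orderOf_coe]
    exact hg

theorem card_pResidual_subgroup (p : ℕ) (M : Subgroup G) (h : pResidual p G ≤ M) :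
    Nat.card (pResidual p M) = Nat.card (pResidual p G) := by
  rw [← map_pResidual_subgroup p M h]
  exact (Subgroup.card_map_of_injective M.subtype_injective).symm

end Cfsg.Agent.Lib.Helper78.TD
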