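import Mathlib
import Cfsg.Prelude.Def_CharExt
import Cfsg.Prelude.Def_Blocks
import Cfsg.Prelude.Def_Transfer
import Cfsg.Agent.S0862
import Cfsg.Agent.S0865
import Cfsg.Agent.S0887
import Cfsg.Agent.Lib.Helper20.ExtPrime
import Cfsg.Agent.Lib.Helper20.Clifford
import Cfsg.Agent.Lib.Helper78.VL6
import Cfsg.Agent.Lib.Helper78.TD1
import Cfsg.Agent.Lib.Helper78.TD2

set_option autoImplicit false

namespace Cfsg.Agent.Lib.Helper78.TD

open Cfsg Cfsg.Agent.Lib

universe u

/-- The irreducible characters of degree prime to `p` and determinantal order prime to `p`. -/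
def SSet (p : ℕ) (G : Type u) [Group G] : Set (IrrCharacter G) :=
  {χ | ¬ p ∣ charDegree (χ : G → ℂ) ∧ ¬ p ∣ detOrder (χ : G → ℂ)}

variable {G : Type u} [Group G]

theorem charDegree_spec (χ : G → ℂ) (hχ : IsCharacter G χ) : χ 1 = (charDegree χ : ℂ) := by
  obtain ⟨n, ρ, rfl⟩ := hχ
  have hfin : Module.finrank ℂ (Fin n → ℂ) = n := by simp
  unfold charDegree
  rw [Representation.char_one, hfin]
  simp

theorem charDegree_res (M : Subgroup G) (χ : G → ℂ) :
    charDegree (fun m : M => χ m) = charDegree χ := by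
  unfold charDegree
  change ⌊(χ ((1 : M) : G)).re⌋₊ = ⌊(χ 1).re⌋₊
  rw [Subgroup.coe_one]

omit [Group G] in
/-- The order of the restriction of a function divides the order of the function. -/
theorem orderOf_comp_dvd {A : Type*} (f : A → G) (δ : G → ℂ) :
    orderOf (fun a => δ (f a)) ∣ orderOf δ := by
  apply orderOf_dvd_of_pow_eq_one
  funext a
  have h : δ ^ orderOf δ = 1 := pow_orderOf_eq_one δ
  have h2 := congrFun h (f a)
  simpa using h2

theorem detOrder_res_dvd [Finite G] (M : Subgroup G) {χ : G → ℂ} (hχ : IsCharacter G χ) :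
    detOrder (fun m : M => χ m) ∣ detOrder χ := by
  unfold detOrder
  have h : detChar (fun m : M => χ m) = fun m : M => detChar χ m := by
    funext m
    exact Helper20.detChar_res M hχ m
  rw [h]
  exact orderOf_comp_dvd (fun m : M => (m : G)) (detChar χ)

/-- A character of degree prime to `p` restricts irreducibly to a normal subgroup of index `p`. -/
theorem res_irr_of_not_dvd [Finite G] {p : ℕ} (hp : p.Prime) (M : Subgroup G) [hMn : M.Normal]
    (hM : M.index = p) (χ : G → ℂ) (hχ : IsIrrCharacter G χ) (hdeg : ¬ p ∣ charDegree χ) :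
    IsIrrCharacter M (fun m : M => χ m) := by
  classical
  let _ : Fintype G := Fintype.ofFinite G
  let _ : Fintype M := Fintype.ofFinite M
  have hχc : IsCharacter G χ := Helper35.isChar_of_irr hχ
  have hψ : IsCharacter M (fun m : M => χ m) := Helper4.isCharacter_restrict M χ hχc
  have hc : χ 1 = (charDegree χ : ℂ) := charDegree_spec χ hχc
  have hc0 : charDegree χ ≠ 0 := fun h0 => hdeg (h0 ▸ dvd_zero p)
  have hψ1 : (fun m : M => χ m) 1 ≠ 0 := by
    change χ ((1 : M) : G) ≠ 0
    rw [Subgroup.coe_one, hc]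
    exact_mod_cast hc0
  obtain ⟨ϑ, hϑ, hcon⟩ := Helper20.exists_constituent_of_char hψ hψ1
  have hd : ϑ 1 = (charDegree ϑ : ℂ) := charDegree_spec ϑ (Helper35.isChar_of_irr hϑ)
  obtain ⟨h1, h2⟩ := Cfsg.Agent.S0887.result M χ hχ ϑ hϑ hcon _ _ hc hd
  rw [hM] at h2
  have hq : charDegree χ / charDegree ϑ = 1 := by
    rcases (Nat.dvd_prime hp).mp h2 with h | h
    · exact h
    · exfalso
      apply hdeg
      have := Nat.div_mul_cancel h1
      rw [h] at this
      exact Dvd.intro _ this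
  have hcd : charDegree χ = charDegree ϑ := by
    have := Nat.div_mul_cancel h1
    rw [hq, one_mul] at this
    exact this.symm
  -- Clifford
  have hT : ∀ g : G, g ∈ Helper20.inertia M ϑ ↔ Helper20.conjFun M ϑ g = ϑ :=
    fun g => Helper20.mem_inertia M ϑ g
  have hdegree := Helper20.clifford_degree M hϑ hχ hcon (Helper20.inertia M ϑ) hT
  obtain ⟨k, hk⟩ := Helper35.classInner_char_nat hψ (Helper35.isChar_of_irr hϑ)
  rw [hk, hc, hd, hcd] at hdegree
  have hd0 : (charDegree ϑ : ℂ) ≠ 0 := by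
    rw [← hcd]; exact_mod_cast hc0
  have hkT : k * (Helper20.inertia M ϑ).index = 1 := by
    have h3 : ((k * (Helper20.inertia M ϑ).index : ℕ) : ℂ) * (charDegree ϑ : ℂ)
        = 1 * (charDegree ϑ : ℂ) := by
      rw [one_mul]; push_cast; exact hdegree.symm
    have h4 := mul_right_cancel₀ hd0 h3
    exact_mod_cast h4
  have hk1 : k = 1 := Nat.eq_one_of_mul_eq_one_right hkT
  have hT1 : (Helper20.inertia M ϑ).index = 1 := Nat.eq_one_of_mul_eq_one_left hkT
  have hTtop : Helper20.inertia M ϑ = ⊤ := Subgroup.index_eq_one.mp hT1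
  have hres : (fun m : M => χ m) = ϑ := by
    funext m
    have h5 := Helper20.clifford_res M hϑ hχ hcon (Helper20.inertia M ϑ) hT m
    rw [h5, hk, hk1, hTtop]
    have h6 : ∀ x : G, Helper20.conjFun M ϑ x m = ϑ m := by
      intro x
      have : x ∈ Helper20.inertia M ϑ := hTtop ▸ Subgroup.mem_top x
      rw [(hT x).mp this]
    rw [Finset.sum_congr rfl (fun x _ => h6 x), Finset.sum_const, Finset.card_univ,
      Subgroup.card_top, Nat.card_eq_fintype_card]
    have hG0 : (Fintype.card G : ℂ) ≠ 0 := by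
      exact_mod_cast Fintype.card_ne_zero
    rw [nsmul_eq_mul]
    push_cast
    field_simp
  rw [hres]
  exact hϑ

/-- The `G`-invariant irreducible characters of a normal subgroup. -/
def InvSet (M : Subgroup G) [M.Normal] : Set (IrrCharacter M) :=
  {θ | ∀ x : G, Helper20.conjFun M (θ : M → ℂ) x = (θ : M → ℂ)}

theorem commutator_le_of_index_prime {p : ℕ} [hp : Fact p.Prime] (M : Subgroup G) [M.Normal]
    (hM : M.index = p) : commutator G ≤ M := by
  obtain ⟨x, hx⟩ := VL.exists_not_mem_of_ne_top (VL.ne_top_of_index_prime hp.out hM)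
  obtain ⟨f, hf, -⟩ := VL.exists_hom_zmod M hM hx
  rw [← hf]
  exact Abelianization.commutator_subset_ker f

theorem detChar_conjFun [Finite G] (M : Subgroup G) [hMn : M.Normal] {θ : M → ℂ}
    (hθ : IsCharacter M θ) (g : G) (m : M) :
    detChar (Helper20.conjFun M θ g) m
      = detChar θ ⟨g * m * g⁻¹, hMn.conj_mem (m : G) m.2 g⟩ := by
  rw [Helper20.conjFun_eq_comp]
  have h := Helper20.detChar_comp (MulAut.conjNormal g : M ≃* M).toMonoidHom hθ m
  have e : (MulAut.conjNormal g : M ≃* M) m = ⟨g * m * g⁻¹, hMn.conj_mem (m : G) m.2 g⟩ :=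
    Subtype.ext (MulAut.conjNormal_apply g m)
  rw [← e]
  exact h

theorem charDegree_conjFun (M : Subgroup G) [hMn : M.Normal] (g : G) (θ : M → ℂ) :
    charDegree (Helper20.conjFun M θ g) = charDegree θ := by
  unfold charDegree
  rw [Helper20.conjFun_apply]
  have e : (⟨g * ((1 : M) : G) * g⁻¹, hMn.conj_mem ((1 : M) : G) (1 : M).2 g⟩ : M) = 1 := by
    apply Subtype.ext
    simp
  rw [e]

theorem detOrder_conjFun_dvd [Finite G] (M : Subgroup G) [hMn : M.Normal] (g : G) {θ : M → ℂ}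
    (hθ : IsCharacter M θ) : detOrder (Helper20.conjFun M θ g) ∣ detOrder θ := by
  unfold detOrder
  have h : detChar (Helper20.conjFun M θ g)
      = fun m : M => detChar θ ⟨g * m * g⁻¹, hMn.conj_mem (m : G) m.2 g⟩ :=
    funext (detChar_conjFun M hθ g)
  rw [h]
  exact orderOf_comp_dvd (fun m : M => (⟨g * m * g⁻¹, hMn.conj_mem (m : G) m.2 g⟩ : M))
    (detChar θ)

/-- An invariant member of `SSet p M` has exactly one extension in `SSet p G`. -/
theorem exists_unique_ext [Finite G] {p : ℕ} [hp : Fact p.Prime] (M : Subgroup G)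
    [hMn : M.Normal] (hM : M.index = p) (θ : IrrCharacter M) (hθS : θ ∈ SSet p M)
    (hθI : θ ∈ InvSet M) :
    ∃! χ : IrrCharacter G, χ ∈ SSet p G ∧ (fun m : M => (χ : G → ℂ) m) = (θ : M → ℂ) := by
  classical
  let _ : Fintype G := Fintype.ofFinite G
  obtain ⟨hθd, hθo⟩ := hθS
  have hθc : IsCharacter M (θ : M → ℂ) := Helper35.isChar_of_irr θ.2
  have hinvθ : ∀ (g : G) (m : M),
      (θ : M → ℂ) ⟨g * m * g⁻¹, hMn.conj_mem (m : G) m.2 g⟩ = (θ : M → ℂ) m := by
    intro g m
    have := congrFun (hθI g) m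
    rwa [Helper20.conjFun_apply] at this
  have hlamc : IsCharacter M (detChar (θ : M → ℂ)) ∧ detChar (θ : M → ℂ) 1 = 1 :=
    Helper20.detChar_isCharacter _
  have hlaminv : ∀ (g : G) (n : M),
      detChar (θ : M → ℂ) ⟨g * n * g⁻¹, hMn.conj_mem (n : G) n.2 g⟩
        = detChar (θ : M → ℂ) n := by
    intro g n
    rw [← detChar_conjFun M hθc g n, hθI g]
  have hcop : Nat.Coprime M.index (orderOf (detChar (θ : M → ℂ))) := by
    rw [hM]
    exact (Nat.Prime.coprime_iff_not_dvd hp.out).mpr hθo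
  obtain ⟨μ, ⟨hμc, hμ1, hμN, hμord⟩, hμuniq⟩ :=
    Cfsg.Agent.S0865.result M (detChar (θ : M → ℂ)) hlamc hlaminv hcop
  have hext := Helper20.extends_of_prime_index M p hp.out hM
    (commutator_le_of_index_prime M hM) (θ : M → ℂ) θ.2 hinvθ
  have hd : (θ : M → ℂ) 1 = (charDegree (θ : M → ℂ) : ℂ) := charDegree_spec _ hθc
  have hcop' : Nat.Coprime M.index (charDegree (θ : M → ℂ)) := by
    rw [hM]
    exact (Nat.Prime.coprime_iff_not_dvd hp.out).mpr hθd
  obtain ⟨χ₀, ⟨hχ₀, hχ₀N, hχ₀det⟩, hχ₀uniq⟩ :=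
    Cfsg.Agent.S0862.result M (θ : M → ℂ) θ.2 _ hd hcop' hext μ ⟨hμc, hμ1⟩ hμN
  refine ⟨⟨χ₀, hχ₀⟩, ⟨⟨?_, ?_⟩, funext hχ₀N⟩, ?_⟩
  · show ¬ p ∣ charDegree χ₀
    have : charDegree χ₀ = charDegree (θ : M → ℂ) := by
      rw [← charDegree_res M χ₀]
      congr 1
      exact funext hχ₀N
    rw [this]; exact hθd
  · show ¬ p ∣ detOrder χ₀
    unfold detOrder
    rw [hχ₀det, hμord]
    exact hθo
  · rintro ⟨χ', hχ'⟩ ⟨⟨hχ'd, hχ'o⟩, hχ'N⟩
    apply Subtype.ext
    show χ' = χ₀
    apply hχ₀uniq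
    refine ⟨hχ', fun n => congrFun hχ'N n, ?_⟩
    apply hμuniq (detChar χ') (Helper20.detChar_isCharacter χ')
    · intro n
      have h1 := Helper20.detChar_res M (Helper35.isChar_of_irr hχ') n
      rw [← h1]
      congr 1
    · rw [hM]
      exact (Nat.Prime.coprime_iff_not_dvd hp.out).mpr hχ'o

/-- Conjugation by `g` on the irreducible characters of a normal subgroup. -/
noncomputable def conjIrr (M : Subgroup G) [M.Normal] (g : G) (θ : IrrCharacter M) :
    IrrCharacter M :=
  ⟨Helper20.conjFun M (θ : M → ℂ) g, Helper20.conjFun_irr M θ.2 g⟩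

theorem conjIrr_iterate (M : Subgroup G) [M.Normal] (g : G) (n : ℕ) (θ : IrrCharacter M) :
    (((conjIrr M g)^[n] θ : IrrCharacter M) : M → ℂ)
      = Helper20.conjFun M (θ : M → ℂ) (g ^ n) := by
  induction n generalizing θ with
  | zero =>
    rw [pow_zero, Helper20.conjFun_one]
    rfl
  | succ n ih =>
    rw [Function.iterate_succ_apply, ih, pow_succ']
    exact Helper20.conjFun_conjFun M _ g (g ^ n)

theorem conjIrr_iterate_index {p : ℕ} (M : Subgroup G) [M.Normal] (hM : M.index = p) (g : G) :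
    (conjIrr M g)^[p] = id := by
  funext θ
  apply Subtype.ext
  rw [conjIrr_iterate]
  have hmem : g ^ p ∈ M := hM ▸ M.pow_index_mem g
  have hcf : IsClassFunction M (θ : M → ℂ) :=
    Helper35.isClassFunction_of_isCharacter (Helper35.isChar_of_irr θ.2)
  exact (Helper20.mem_inertia M _ _).mp (Helper20.le_inertia M hcf hmem)

theorem conjIrr_mem_SSet [Finite G] {p : ℕ} (M : Subgroup G) [M.Normal] (g : G)
    (θ : IrrCharacter M) (h : θ ∈ SSet p M) : conjIrr M g θ ∈ SSet p M := by
  obtain ⟨h1, h2⟩ := h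
  refine ⟨?_, ?_⟩
  · show ¬ p ∣ charDegree (Helper20.conjFun M (θ : M → ℂ) g)
    rw [charDegree_conjFun]; exact h1
  · intro hdvd
    apply h2
    exact dvd_trans hdvd (detOrder_conjFun_dvd M g (Helper35.isChar_of_irr θ.2))

theorem conjIrr_fixed_iff {p : ℕ} (hp : p.Prime) (M : Subgroup G) [M.Normal] (hM : M.index = p)
    {g : G} (hg : g ∉ M) (θ : IrrCharacter M) :
    conjIrr M g θ = θ ↔ θ ∈ InvSet M := by
  constructor
  · intro h x
    have hcf : IsClassFunction M (θ : M → ℂ) :=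
      Helper35.isClassFunction_of_isCharacter (Helper35.isChar_of_irr θ.2)
    have hle : M ≤ Helper20.inertia M (θ : M → ℂ) := Helper20.le_inertia M hcf
    have hgT : g ∈ Helper20.inertia M (θ : M → ℂ) :=
      (Helper20.mem_inertia M _ g).mpr (congrArg Subtype.val h)
    have htop := VL.eq_top_of_index_prime hp hM hle hgT hg
    exact (Helper20.mem_inertia M _ x).mp (htop ▸ Subgroup.mem_top x)
  · intro h
    exact Subtype.ext (h g)

end Cfsg.Agent.Lib.Helper78.TD
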