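import Mathlib
import Cfsg.Agent.Lib.Helper78.TD3
import Cfsg.Agent.Lib.Helper83.Ortho

set_option autoImplicit false

namespace Cfsg.Agent.Lib.Helper78.TD

open Cfsg Cfsg.Agent.Lib

universe u

/-- The sum of the squares of the degrees over `SSet p G`. -/
noncomputable def sdeg (p : ℕ) (G : Type u) [Group G] : ℕ :=
  ∑ᶠ χ ∈ SSet p G, charDegree (χ : G → ℂ) ^ 2

theorem finsum_mem_eq_sum_filter_univ {α : Type*} [Fintype α] {A : Type*} [AddCommMonoid A]
    (S : Set α) [DecidablePred (· ∈ S)] (f : α → A) :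
    ∑ᶠ x ∈ S, f x = ∑ x ∈ Finset.univ.filter (· ∈ S), f x := by
  rw [finsum_mem_eq_finite_toFinset_sum f (Set.toFinite S)]
  apply Finset.sum_congr _ (fun _ _ => rfl)
  ext x
  simp

variable {G : Type u} [Group G]

theorem res_mem [Finite G] {p : ℕ} (hp : p.Prime) (M : Subgroup G) [hMn : M.Normal]
    (hM : M.index = p) (χ : IrrCharacter G) (hχ : χ ∈ SSet p G) :
    (⟨fun m : M => (χ : G → ℂ) m, res_irr_of_not_dvd hp M hM _ χ.2 hχ.1⟩ : IrrCharacter M)
      ∈ SSet p M ∩ InvSet M := by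
  refine ⟨⟨?_, ?_⟩, ?_⟩
  · show ¬ p ∣ charDegree (fun m : M => (χ : G → ℂ) m)
    rw [charDegree_res]; exact hχ.1
  · intro hdvd
    exact hχ.2 (dvd_trans hdvd (detOrder_res_dvd M (Helper35.isChar_of_irr χ.2)))
  · intro x
    exact Helper20.conjFun_res M
      (Helper35.isClassFunction_of_isCharacter (Helper35.isChar_of_irr χ.2)) x

/-- Restriction is a degree-preserving bijection from `SSet p G` onto the invariant part of
`SSet p M`. -/
theorem sdeg_eq_inv [Finite G] {p : ℕ} [hp : Fact p.Prime] (M : Subgroup G) [hMn : M.Normal]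
    (hM : M.index = p) :
    sdeg p G = ∑ᶠ θ ∈ SSet p M ∩ InvSet M, charDegree (θ : M → ℂ) ^ 2 := by
  unfold sdeg
  rw [← finsum_set_coe_eq_finsum_mem, ← finsum_set_coe_eq_finsum_mem]
  let e : ↥(SSet p G) → ↥(SSet p M ∩ InvSet M) := fun χ =>
    ⟨⟨fun m : M => (χ.1 : G → ℂ) m, res_irr_of_not_dvd hp.out M hM _ χ.1.2 χ.2.1⟩,
      res_mem hp.out M hM χ.1 χ.2⟩
  apply finsum_eq_of_bijective e
  · constructor
    · intro χ χ' h
      have hθ := (e χ).2
      obtain ⟨χ₀, -, huniq⟩ := exists_unique_ext M hM (e χ).1 hθ.1 hθ.2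
      have h1 : χ.1 = χ₀ := huniq χ.1 ⟨χ.2, rfl⟩
      have h2 : χ'.1 = χ₀ := by
        apply huniq χ'.1 ⟨χ'.2, ?_⟩
        have := congrArg (fun t : ↥(SSet p M ∩ InvSet M) => (t.1 : M → ℂ)) h
        exact this.symm
      exact Subtype.ext (h1.trans h2.symm)
    · rintro ⟨θ, hθ⟩
      obtain ⟨χ₀, ⟨hχ₀, hres⟩, -⟩ := exists_unique_ext M hM θ hθ.1 hθ.2
      refine ⟨⟨χ₀, hχ₀⟩, ?_⟩
      apply Subtype.ext
      apply Subtype.ext
      exact hres
  · intro χ
    show charDegree (χ.1 : G → ℂ) ^ 2 = charDegree (fun m : M => (χ.1 : G → ℂ) m) ^ 2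
    rw [charDegree_res]

/-- Modulo `p` only the invariant characters of `M` count. -/
theorem sdeg_inv_modEq [Finite G] {p : ℕ} [hp : Fact p.Prime] (M : Subgroup G) [hMn : M.Normal]
    (hM : M.index = p) :
    ((sdeg p M : ℕ) : ZMod p)
      = ((∑ᶠ θ ∈ SSet p M ∩ InvSet M, charDegree (θ : M → ℂ) ^ 2 : ℕ) : ZMod p) := by
  classical
  let _ : Fintype M := Fintype.ofFinite M
  have hfin : Finite (IrrCharacter M) := Helper4.irr_finite
  let _ : Fintype (IrrCharacter M) := Fintype.ofFinite _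
  obtain ⟨g, hg⟩ := VL.exists_not_mem_of_ne_top (VL.ne_top_of_index_prime hp.out hM)
  have key := sum_filter_fixed (p := p) (conjIrr M g) (conjIrr_iterate_index M hM g)
    (fun θ => θ ∈ SSet p M) (fun θ h => conjIrr_mem_SSet M g θ h)
    (fun θ => charDegree (θ : M → ℂ) ^ 2)
    (fun θ => by
      show charDegree (Helper20.conjFun M (θ : M → ℂ) g) ^ 2 = _
      rw [charDegree_conjFun])
  unfold sdeg
  rw [finsum_mem_eq_sum_filter_univ, finsum_mem_eq_sum_filter_univ, key]
  congr 2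
  apply Finset.filter_congr
  intro θ _
  rw [conjIrr_fixed_iff hp.out M hM hg θ]
  rfl

theorem detOrder_not_dvd_of_pResidual_top [Finite G] {p : ℕ} [hp : Fact p.Prime]
    (h : pResidual p G = ⊤) (χ : G → ℂ) : ¬ p ∣ detOrder χ := by
  obtain ⟨f, hf⟩ := Helper20.exists_detHom χ
  set N := Nat.card G / p ^ (Nat.card G).factorization p with hN
  have hNp : ¬ p ∣ N := Nat.not_dvd_ordCompl hp.out Nat.card_pos.ne'
  have hcard : p ^ (Nat.card G).factorization p * N = Nat.card G :=
    Nat.ordProj_mul_ordCompl_eq_self (Nat.card G) p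
  let φ : G →* ℂˣ := (powMonoidHom N).comp f
  have hle : pResidual p G ≤ φ.ker := by
    unfold pResidual
    rw [Subgroup.closure_le]
    intro g hg
    rw [SetLike.mem_coe, MonoidHom.mem_ker]
    change f g ^ N = 1
    have hdvd : orderOf g ∣ N := by
      have h1 : orderOf g ∣ p ^ (Nat.card G).factorization p * N := by
        rw [hcard]; exact orderOf_dvd_natCard g
      have h2 : Nat.Coprime (orderOf g) (p ^ (Nat.card G).factorization p) :=
        Nat.Coprime.pow_right _ hg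
      exact h2.dvd_of_dvd_mul_left h1
    rw [← map_pow, orderOf_dvd_iff_pow_eq_one.mp hdvd, map_one]
  have hall : ∀ g : G, f g ^ N = 1 := by
    intro g
    have hg : g ∈ φ.ker := hle (h ▸ Subgroup.mem_top g)
    exact MonoidHom.mem_ker.mp hg
  have hpow : detChar χ ^ N = 1 := by
    funext g
    rw [Pi.pow_apply, ← hf g, ← Units.val_pow_eq_pow_val, hall g]
    rfl
  intro hdvd
  apply hNp
  exact dvd_trans hdvd (orderOf_dvd_of_pow_eq_one hpow)

theorem base_case [Finite G] {p : ℕ} [hp : Fact p.Prime] (h : pResidual p G = ⊤) :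
    ((Nat.card (pResidual p G) : ℕ) : ZMod p) = ((sdeg p G : ℕ) : ZMod p) := by
  classical
  let _ : Fintype G := Fintype.ofFinite G
  have hfin : Finite (IrrCharacter G) := Helper4.irr_finite
  let _ : Fintype (IrrCharacter G) := Fintype.ofFinite _
  rw [h, Subgroup.card_top]
  have hsum : Nat.card G = ∑ χ : IrrCharacter G, charDegree (χ : G → ℂ) ^ 2 := by
    have h1 := Helper83.sum_degree_sq (G := G)
    have h2 : ∑ χ : IrrCharacter G, ((χ : G → ℂ) 1) ^ 2
        = ∑ χ : IrrCharacter G, ((charDegree (χ : G → ℂ) : ℂ)) ^ 2 := by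
      apply Finset.sum_congr rfl
      intro χ _
      rw [← charDegree_spec _ (Helper35.isChar_of_irr χ.2)]
    rw [h2] at h1
    exact_mod_cast h1.symm
  unfold sdeg
  rw [finsum_mem_eq_sum_filter_univ, hsum, Finset.sum_filter]
  push_cast
  apply Finset.sum_congr rfl
  intro χ _
  by_cases hχ : χ ∈ SSet p G
  · rw [if_pos hχ]
  · rw [if_neg hχ]
    have hdvd : p ∣ charDegree (χ : G → ℂ) := by
      by_contra hnd
      exact hχ ⟨hnd, detOrder_not_dvd_of_pResidual_top h _⟩
    have : ((charDegree (χ : G → ℂ) : ℕ) : ZMod p) = 0 :=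
      (ZMod.natCast_eq_zero_iff _ _).mpr hdvd
    rw [this]
    exact zero_pow two_ne_zero

/-- `|O^p(G)| ≡ ∑ χ(1)^2` over the irreducible characters of degree and determinantal order
prime to `p`. -/
theorem main (p : ℕ) [hp : Fact p.Prime] : ∀ n : ℕ, ∀ (G : Type u) [Group G] [Finite G],
    Nat.card G = n →
    ((Nat.card (pResidual p G) : ℕ) : ZMod p) = ((sdeg p G : ℕ) : ZMod p) := by
  intro n
  induction n using Nat.strong_induction_on with
  | _ n ih =>
  intro G _ _ hn
  by_cases h : pResidual p G = ⊤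
  · exact base_case h
  · obtain ⟨M, hMn, hM, hle⟩ := exists_normal_index_p p h
    have hlt : Nat.card M < n := hn ▸ VL.card_lt_of_index_prime hp.out hM
    have ihM := ih (Nat.card M) hlt M rfl
    rw [card_pResidual_subgroup p M hle] at ihM
    rw [ihM, sdeg_inv_modEq M hM, ← sdeg_eq_inv M hM]

end Cfsg.Agent.Lib.Helper78.TD
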