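import Mathlib
import Cfsg.Agent.Lib.Helper78.TD4
import Cfsg.Agent.Lib.Helper83.Linear

set_option autoImplicit false

namespace Cfsg.Agent.Lib.Helper78.TD

open Cfsg Cfsg.Agent.Lib

universe u

variable {G : Type u} [Group G]

/-- Homomorphisms to `ℂˣ` as complex valued functions. -/
noncomputable def homFun : (G →* ℂˣ) →* (G → ℂ) where
  toFun f := fun g => ((f g : ℂˣ) : ℂ)
  map_one' := by
    funext g
    simp
  map_mul' := by
    intro a b
    funext g
    simp

theorem homFun_apply (f : G →* ℂˣ) (g : G) : homFun f g = ((f g : ℂˣ) : ℂ) := rfl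

theorem homFun_injective : Function.Injective (homFun (G := G)) := by
  intro a b h
  ext g
  have := congrFun h g
  simpa [homFun_apply] using this

/-- The determinantal character of a character of degree one is the character itself. -/
theorem detChar_homFun [Finite G] (f : G →* ℂˣ) : detChar (homFun f) = homFun f := by
  obtain ⟨n, ρ, hρ⟩ := (Helper20.isCharacter_of_hom f).1
  have hn : n = 1 := by
    have h1 := congrFun hρ 1
    rw [Representation.char_one] at h1
    have hfin : Module.finrank ℂ (Fin n → ℂ) = n := by simp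
    rw [hfin] at h1
    simp only [map_one, Units.val_one] at h1
    exact_mod_cast h1
  subst hn
  have hρ' : ρ.character = homFun f := hρ
  rw [← hρ']
  funext g
  rw [Helper20.detChar_eq]
  change LinearMap.det (ρ g) = LinearMap.trace ℂ (Fin 1 → ℂ) (ρ g)
  rw [← LinearMap.det_toMatrix', LinearMap.trace_eq_matrix_trace ℂ (Pi.basisFun ℂ (Fin 1)),
    LinearMap.toMatrix_eq_toMatrix', Matrix.det_fin_one, Matrix.trace_fin_one]

theorem detOrder_homFun [Finite G] (f : G →* ℂˣ) : detOrder (homFun f) = orderOf f := by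
  unfold detOrder
  rw [detChar_homFun]
  exact orderOf_injective homFun homFun_injective f

theorem charDegree_homFun (f : G →* ℂˣ) : charDegree (homFun f) = 1 := by
  unfold charDegree
  rw [homFun_apply]
  simp

/-- The homomorphisms of order prime to `p`. -/
def primeToP (p : ℕ) (hp : p.Prime) (G : Type u) [Group G] : Subgroup (G →* ℂˣ) where
  carrier := {f | ¬ p ∣ orderOf f}
  one_mem' := by
    change ¬ p ∣ orderOf (1 : G →* ℂˣ)
    rw [orderOf_one]
    exact hp.one_lt.ne' ∘ Nat.dvd_one.mp
  mul_mem' := by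
    intro a b ha hb
    change ¬ p ∣ orderOf (a * b)
    intro h
    have h1 : orderOf (a * b) ∣ Nat.lcm (orderOf a) (orderOf b) :=
      (Commute.all a b).orderOf_mul_dvd_lcm
    have h2 : p ∣ orderOf a * orderOf b :=
      dvd_trans (dvd_trans h h1) (Nat.lcm_dvd_mul _ _)
    rcases (Nat.Prime.dvd_mul hp).mp h2 with h3 | h3
    · exact ha h3
    · exact hb h3
  inv_mem' := by
    intro a ha
    change ¬ p ∣ orderOf a⁻¹
    intro h
    have e : orderOf a⁻¹ = orderOf a := orderOf_inv a
    exact ha (Eq.mp (congrArg (fun n => p ∣ n) e) h)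

/-- The irreducible character attached to a homomorphism to `ℂˣ`. -/
noncomputable def homIrr (f : G →* ℂˣ) : IrrCharacter G :=
  ⟨homFun f, Helper83.isIrr_of_hom f⟩

theorem homIrr_injective : Function.Injective (homIrr (G := G)) := by
  intro a b h
  exact homFun_injective (congrArg Subtype.val h)

theorem finite_hom [Finite G] : Finite (G →* ℂˣ) := by
  classical
  let _ : Fintype G := Fintype.ofFinite G
  have hfin : Finite (IrrCharacter G) := Helper4.irr_finite
  exact Finite.of_injective homIrr homIrr_injective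

theorem not_dvd_card_primeToP [Finite G] (p : ℕ) (hp : p.Prime) :
    ¬ p ∣ Nat.card (primeToP p hp G) := by
  have : Fact p.Prime := ⟨hp⟩
  have hfin : Finite (G →* ℂˣ) := finite_hom
  intro h
  obtain ⟨a, ha⟩ := exists_prime_orderOf_dvd_card' p h
  have h1 : orderOf (a : G →* ℂˣ) = p := by rw [Subgroup.orderOf_coe, ha]
  have h2 : p ∣ orderOf (a : G →* ℂˣ) := by rw [h1]
  exact (show ¬ p ∣ orderOf (a : G →* ℂˣ) from a.2) h2

/-- Under Thompson's hypothesis, the sum over `SSet p G` counts the homomorphisms of order prime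
to `p`. -/
theorem sdeg_eq_card_primeToP [Finite G] (p : ℕ) (hp : p.Prime)
    (hdeg : ∀ χ : IrrCharacter G, charDegree (χ : G → ℂ) ≠ 1 → p ∣ charDegree (χ : G → ℂ)) :
    sdeg p G = Nat.card (primeToP p hp G) := by
  classical
  let _ : Fintype G := Fintype.ofFinite G
  have hfin : Finite (IrrCharacter G) := Helper4.irr_finite
  let _ : Fintype (IrrCharacter G) := Fintype.ofFinite _
  have hdeg1 : ∀ χ ∈ SSet p G, charDegree (χ : G → ℂ) = 1 := by
    intro χ hχ
    by_contra h
    exact hχ.1 (hdeg χ h)
  unfold sdeg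
  rw [finsum_mem_congr rfl (fun χ hχ => by rw [hdeg1 χ hχ, one_pow])]
  rw [finsum_mem_eq_sum_filter_univ, Finset.sum_const, smul_eq_mul, mul_one,
    ← Fintype.card_subtype, ← Nat.card_eq_fintype_card]
  symm
  apply Nat.card_congr
  refine Equiv.ofBijective (fun f => ⟨homIrr f.1, ?_, ?_⟩) ⟨?_, ?_⟩
  · show ¬ p ∣ charDegree (homFun f.1)
    rw [charDegree_homFun]
    exact hp.one_lt.ne' ∘ Nat.dvd_one.mp
  · show ¬ p ∣ detOrder (homFun f.1)
    rw [detOrder_homFun]
    exact f.2
  · intro a b h
    apply Subtype.ext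
    apply homIrr_injective
    exact congrArg Subtype.val h
  · rintro ⟨χ, hχ⟩
    have h1 : charDegree (χ : G → ℂ) = 1 := hdeg1 χ hχ
    have hχc : IsCharacter G (χ : G → ℂ) := Helper35.isChar_of_irr χ.2
    have h2 : (χ : G → ℂ) 1 = 1 := by
      rw [charDegree_spec _ hχc, h1]; simp
    obtain ⟨f, hf⟩ := Helper20.exists_hom_of_linear (χ : G → ℂ) hχc h2
    have hfχ : homFun f = (χ : G → ℂ) := funext hf
    have hfmem : f ∈ primeToP p hp G := by
      change ¬ p ∣ orderOf f
      rw [← detOrder_homFun, hfχ]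
      exact hχ.2
    refine ⟨⟨f, hfmem⟩, ?_⟩
    apply Subtype.ext
    apply Subtype.ext
    exact hfχ

/-- Thompson: if `p` divides the degree of every nonlinear irreducible character then `O^p(G)`
has order prime to `p`. -/
theorem thompson_not_dvd [Finite G] (p : ℕ) (hp : p.Prime)
    (hdeg : ∀ χ : IrrCharacter G, charDegree (χ : G → ℂ) ≠ 1 → p ∣ charDegree (χ : G → ℂ)) :
    ¬ p ∣ Nat.card (pResidual p G) := by
  have : Fact p.Prime := ⟨hp⟩
  have hmain := main p (Nat.card G) G rfl
  rw [sdeg_eq_card_primeToP p hp hdeg] at hmain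
  intro h
  have h0 : ((Nat.card (pResidual p G) : ℕ) : ZMod p) = 0 := (ZMod.natCast_eq_zero_iff _ _).mpr h
  rw [hmain] at h0
  exact not_dvd_card_primeToP p hp ((ZMod.natCast_eq_zero_iff _ _).mp h0)

end Cfsg.Agent.Lib.Helper78.TD
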