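import Cfsg.Agent.Lib.Helper70.D11Defs

set_option autoImplicit false

/-!
# S0679 piece ALT (helper78, for helper70): the even part of a nonsolvable group is nonsolvable
-/

namespace Cfsg.Agent.Lib.Helper78.D11

open Equiv Cfsg.Agent.Lib.Helper70.D11

theorem not_solvable_inf_alt (G : Subgroup P11) (hns : ¬ Group.IsSolvable G) :
    ¬ Group.IsSolvable ↥(G ⊓ alternatingGroup (Fin 11)) := by
  intro hsol
  apply hns
  have hker : ((Perm.sign : P11 →* ℤˣ).comp G.subtype).ker ≤
      (Subgroup.inclusion (inf_le_left : G ⊓ alternatingGroup (Fin 11) ≤ G)).range := by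
    intro x hx
    have hx1 : Perm.sign (x : P11) = 1 := by
      simpa [MonoidHom.mem_ker] using hx
    have hxA : (x : P11) ∈ alternatingGroup (Fin 11) := Perm.mem_alternatingGroup.mpr hx1
    refine ⟨⟨(x : P11), Subgroup.mem_inf.mpr ⟨x.2, hxA⟩⟩, ?_⟩
    exact Subtype.ext rfl
  exact Group.isSolvable_of_ker_le_range
    (Subgroup.inclusion (inf_le_left : G ⊓ alternatingGroup (Fin 11) ≤ G))
    ((Perm.sign : P11 →* ℤˣ).comp G.subtype) hker

end Cfsg.Agent.Lib.Helper78.D11
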