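import Mathlib

set_option autoImplicit false

namespace Cfsg.Agent.Lib.Helper78.E4

section NL
variable {F : Type*} [Group F]

/-- Neumann, step 1: `x` commutes with the twisted image. -/
theorem nl_comm_twist (α : F →* F)
    (hN : ∀ g x : F, x * (g * α x * g⁻¹) * (g * α (g * α x * g⁻¹) * g⁻¹) = 1)
    (g x : F) : Commute x (g * α x * g⁻¹) := by
  have h1 := hN g x
  have h2 := hN g x⁻¹
  set y := g * α x * g⁻¹ with hy
  set w := g * α y * g⁻¹ with hw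
  have e1 : g * α x⁻¹ * g⁻¹ = y⁻¹ := by rw [hy, map_inv]; group
  rw [e1] at h2
  have e2 : g * α y⁻¹ * g⁻¹ = w⁻¹ := by rw [hw, map_inv]; group
  rw [e2] at h2
  -- h1 : x * y * w = 1, h2 : x⁻¹ * y⁻¹ * w⁻¹ = 1
  have h3 : w = (x * y)⁻¹ := by
    rw [eq_inv_iff_mul_eq_one, mul_eq_one_iff_eq_inv.mp h1]
    group
  have h4 : w = (y * x)⁻¹ := by
    have : w⁻¹ = (x⁻¹ * y⁻¹)⁻¹ := by
      rw [eq_inv_iff_mul_eq_one, mul_eq_one_iff_eq_inv.mp h2]
      group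
    rw [← inv_inv w, this]
    group
  have h5 : x * y = y * x := by
    have := h3.symm.trans h4
    exact inv_injective this
  exact h5

/-- Neumann: a group with a "splitting" automorphism of order `3` (in all twisted forms)
is 2-Engel: every element commutes with all its conjugates. -/
theorem nl_engel (α : F →* F) (h3 : ∀ x, α (α (α x)) = x)
    (hN : ∀ g x : F, x * (g * α x * g⁻¹) * (g * α (g * α x * g⁻¹) * g⁻¹) = 1)
    (x g : F) : Commute x (g * x * g⁻¹) := by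
  have hB := nl_comm_twist α hN
  -- x commutes with conjugates of α x
  have hB1 : ∀ k : F, Commute x (k * α x * k⁻¹) := fun k => hB k x
  -- x commutes with conjugates of α (α x)
  have hB2 : ∀ k : F, Commute x (k * α (α x) * k⁻¹) := by
    intro k
    have h := hB k⁻¹ (α (α x))
    rw [h3] at h
    -- h : Commute (α (α x)) (k⁻¹ * x * k⁻¹⁻¹)
    have h' : k * α (α x) * k⁻¹ * x = x * (k * α (α x) * k⁻¹) := by
      have e := h.eq
      calc k * α (α x) * k⁻¹ * x = k * (α (α x) * (k⁻¹ * x * k⁻¹⁻¹)) * k⁻¹ := by group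
        _ = k * ((k⁻¹ * x * k⁻¹⁻¹) * α (α x)) * k⁻¹ := by rw [e]
        _ = x * (k * α (α x) * k⁻¹) := by group
    exact h'.symm
  have hN1 : x⁻¹ = α x * α (α x) := by
    have h := hN 1 x
    simp only [one_mul, inv_one, mul_one] at h
    rw [inv_eq_iff_mul_eq_one, ← mul_assoc]
    exact h
  have e : g * x⁻¹ * g⁻¹ = (g * α x * g⁻¹) * (g * α (α x) * g⁻¹) := by
    rw [hN1]; group
  have h5 : Commute x (g * x⁻¹ * g⁻¹) := by
    rw [e]
    exact (hB1 g).mul_right (hB2 g)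
  have e2 : g * x * g⁻¹ = (g * x⁻¹ * g⁻¹)⁻¹ := by group
  rw [e2]
  exact h5.inv_right

end NL

section Levi
open scoped commutatorElement
variable {F : Type*} [Group F]

theorem levi_ncl_comm (hC : ∀ x g : F, Commute x (g * x * g⁻¹)) (w : F) :
    ∀ a ∈ Subgroup.normalClosure ({w} : Set F), ∀ b ∈ Subgroup.normalClosure ({w} : Set F),
      Commute a b := by
  have hS : ∀ s ∈ Group.conjugatesOfSet ({w} : Set F), ∀ t ∈ Group.conjugatesOfSet ({w} : Set F),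
      s * t = t * s := by
    intro s hs t ht
    rw [Group.mem_conjugatesOfSet_iff] at hs ht
    obtain ⟨x, hx, hxs⟩ := hs
    obtain ⟨y, hy, hyt⟩ := ht
    rw [Set.mem_singleton_iff] at hx hy
    rw [hx] at hxs
    rw [hy] at hyt
    obtain ⟨c, rfl⟩ := isConj_iff.mp hxs
    obtain ⟨d, rfl⟩ := isConj_iff.mp hyt
    have h := (hC w (c⁻¹ * d)).eq
    calc c * w * c⁻¹ * (d * w * d⁻¹) = c * (w * ((c⁻¹ * d) * w * (c⁻¹ * d)⁻¹)) * c⁻¹ := by group
      _ = c * (((c⁻¹ * d) * w * (c⁻¹ * d)⁻¹) * w) * c⁻¹ := by rw [h]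
      _ = d * w * d⁻¹ * (c * w * c⁻¹) := by group
  have h1 : ∀ s ∈ Group.conjugatesOfSet ({w} : Set F),
      ∀ b ∈ Subgroup.normalClosure ({w} : Set F), s * b = b * s := by
    intro s hs b hb
    have hle : Subgroup.normalClosure ({w} : Set F) ≤ Subgroup.centralizer ({s} : Set F) := by
      rw [Subgroup.normalClosure, Subgroup.closure_le]
      intro t ht
      rw [SetLike.mem_coe, Subgroup.mem_centralizer_iff]
      intro u hu
      rw [Set.mem_singleton_iff] at hu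
      subst hu
      exact hS u hs t ht
    have := Subgroup.mem_centralizer_iff.mp (hle hb) s rfl
    exact this
  intro a ha b hb
  have hle : Subgroup.normalClosure ({w} : Set F) ≤ Subgroup.centralizer ({b} : Set F) := by
    rw [Subgroup.normalClosure, Subgroup.closure_le]
    intro t ht
    rw [SetLike.mem_coe, Subgroup.mem_centralizer_iff]
    intro u hu
    rw [Set.mem_singleton_iff] at hu
    subst hu
    exact (h1 t ht u hb).symm
  have := Subgroup.mem_centralizer_iff.mp (hle ha) b rfl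
  exact this.symm

theorem comm_mem_of_mem_left {N : Subgroup F} [N.Normal] {c : F} (hc : c ∈ N) (h : F) :
    ⁅c, h⁆ ∈ N := by
  have e : ⁅c, h⁆ = c * (h * c⁻¹ * h⁻¹) := by simp only [commutatorElement_def]; group
  rw [e]
  exact N.mul_mem hc (Subgroup.Normal.conj_mem inferInstance _ (N.inv_mem hc) h)

theorem comm_mem_of_mem_right {N : Subgroup F} [N.Normal] {c : F} (hc : c ∈ N) (h : F) :
    ⁅h, c⁆ ∈ N := by
  have e : ⁅h, c⁆ = (h * c * h⁻¹) * c⁻¹ := by simp only [commutatorElement_def]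
  rw [e]
  exact N.mul_mem (Subgroup.Normal.conj_mem inferInstance _ hc h) (N.inv_mem hc)

/-- Levi: in a 2-Engel group, triple commutators have order dividing `3`. -/
theorem levi_cube (hC : ∀ x g : F, Commute x (g * x * g⁻¹)) (x y z : F) :
    ⁅⁅x, y⁆, z⁆ ^ 3 = 1 := by
  have hcomm := levi_ncl_comm hC
  have hself : ∀ w : F, w ∈ Subgroup.normalClosure ({w} : Set F) := fun w =>
    Subgroup.subset_normalClosure (Set.mem_singleton w)
  have k1l : ∀ x g : F, ⁅x, g⁆ ∈ Subgroup.normalClosure ({x} : Set F) := fun x g =>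
    comm_mem_of_mem_left (hself x) g
  have k1r : ∀ x g : F, ⁅x, g⁆ ∈ Subgroup.normalClosure ({g} : Set F) := fun x g =>
    comm_mem_of_mem_right (hself g) x
  -- ⁅x, g⁻¹⁆ = ⁅x, g⁆⁻¹
  have k2 : ∀ x g : F, ⁅x, g⁻¹⁆ = ⁅x, g⁆⁻¹ := by
    intro x g
    have e : ⁅x, g⁻¹⁆ = g⁻¹ * ⁅x, g⁆⁻¹ * g := by simp only [commutatorElement_def]; group
    have c : Commute g ⁅x, g⁆ := hcomm g g (hself g) _ (k1r x g)
    rw [e, (c.inv_left.inv_right).eq]
    group
  have k2' : ∀ x g : F, ⁅x⁻¹, g⁆ = ⁅x, g⁆⁻¹ := by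
    intro x g
    have e : ⁅x⁻¹, g⁆ = x⁻¹ * ⁅x, g⁆⁻¹ * x := by simp only [commutatorElement_def]; group
    have c : Commute x ⁅x, g⁆ := hcomm x x (hself x) _ (k1l x g)
    rw [e, (c.inv_left.inv_right).eq]
    group
  -- antisymmetry in the last two arguments
  have k5 : ∀ x g h : F, ⁅⁅x, h⁆, g⁆ = ⁅⁅x, g⁆, h⁆⁻¹ := by
    intro x g h
    set a := ⁅x, g⁆ with ha
    set b := ⁅x, h⁆ with hb
    have e0 : ⁅x, g * h⁆ = a * (g * b * g⁻¹) := by
      simp only [ha, hb, commutatorElement_def]; group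
    have c0 : Commute (g * h) ⁅x, g * h⁆ := hcomm (g * h) _ (hself _) _ (k1r x (g * h))
    have cag : Commute g a := hcomm g g (hself g) _ (k1r x g)
    have cbh : Commute h b := hcomm h h (hself h) _ (k1r x h)
    have hbh : b ∈ Subgroup.normalClosure ({h} : Set F) := k1r x h
    have hq : ⁅g, b⁆ ∈ Subgroup.normalClosure ({h} : Set F) := comm_mem_of_mem_right hbh g
    have cqh : Commute h ⁅g, b⁆ := hcomm h h (hself h) _ hq
    have hax : a ∈ Subgroup.normalClosure ({x} : Set F) := k1l x g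
    have hbx : b ∈ Subgroup.normalClosure ({x} : Set F) := k1l x h
    have hqx : ⁅g, b⁆ ∈ Subgroup.normalClosure ({x} : Set F) := comm_mem_of_mem_right hbx g
    have caq : Commute a ⁅g, b⁆ := hcomm x a hax _ hqx
    -- h * E * h⁻¹ = g⁻¹ * E * g
    have e1 : h * ⁅x, g * h⁆ * h⁻¹ = g⁻¹ * ⁅x, g * h⁆ * g := by
      have := c0.eq
      calc h * ⁅x, g * h⁆ * h⁻¹ = g⁻¹ * (g * h * ⁅x, g * h⁆) * h⁻¹ := by group
        _ = g⁻¹ * (⁅x, g * h⁆ * (g * h)) * h⁻¹ := by rw [this]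
        _ = g⁻¹ * ⁅x, g * h⁆ * g := by group
    rw [e0] at e1
    have e2 : h * (a * (g * b * g⁻¹)) * h⁻¹ = ⁅h, a⁆ * a * ⁅g, b⁆ * b := by
      have t1 : h * a * h⁻¹ = ⁅h, a⁆ * a := by simp only [commutatorElement_def]; group
      have t2 : g * b * g⁻¹ = ⁅g, b⁆ * b := by simp only [commutatorElement_def]; group
      have t3 : h * ⁅g, b⁆ * h⁻¹ = ⁅g, b⁆ := by rw [cqh.eq]; group
      have t4 : h * b * h⁻¹ = b := by rw [cbh.eq]; group
      calc h * (a * (g * b * g⁻¹)) * h⁻¹ = (h * a * h⁻¹) * (h * (g * b * g⁻¹) * h⁻¹) := by group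
        _ = (⁅h, a⁆ * a) * (h * (⁅g, b⁆ * b) * h⁻¹) := by rw [t1, t2]
        _ = (⁅h, a⁆ * a) * ((h * ⁅g, b⁆ * h⁻¹) * (h * b * h⁻¹)) := by group
        _ = ⁅h, a⁆ * a * ⁅g, b⁆ * b := by rw [t3, t4]; group
    have e3 : g⁻¹ * (a * (g * b * g⁻¹)) * g = a * b := by
      have t : g⁻¹ * a * g = a := by
        have := cag.eq
        calc g⁻¹ * a * g = g⁻¹ * (a * g) := by group
          _ = g⁻¹ * (g * a) := by rw [this]
          _ = a := by group
      calc g⁻¹ * (a * (g * b * g⁻¹)) * g = (g⁻¹ * a * g) * b := by group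
        _ = a * b := by rw [t]
    rw [e2, e3] at e1
    -- ⁅h,a⁆ * a * ⁅g,b⁆ * b = a * b
    have e4 : ⁅h, a⁆ * ⁅g, b⁆ = 1 := by
      have e5 : ⁅h, a⁆ * ⁅g, b⁆ * (a * b) = a * b := by
        calc ⁅h, a⁆ * ⁅g, b⁆ * (a * b) = ⁅h, a⁆ * (⁅g, b⁆ * a) * b := by group
          _ = ⁅h, a⁆ * (a * ⁅g, b⁆) * b := by rw [caq.eq]
          _ = ⁅h, a⁆ * a * ⁅g, b⁆ * b := by group
          _ = a * b := e1
      exact mul_eq_right.mp e5
    -- ⁅b, g⁆ = ⁅g,b⁆⁻¹ = ⁅h,a⁆ = ⁅a,h⁆⁻¹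
    have e6 : ⁅g, b⁆ = ⁅h, a⁆⁻¹ := by
      rw [eq_inv_iff_mul_eq_one]
      have c2 : Commute ⁅g, b⁆ ⁅h, a⁆ := by
        have hpx : ⁅h, a⁆ ∈ Subgroup.normalClosure ({x} : Set F) := comm_mem_of_mem_right hax h
        exact hcomm x _ hqx _ hpx
      rw [c2.eq]; exact e4
    rw [← commutatorElement_inv g b, e6, inv_inv, commutatorElement_inv]
  have k4 : ∀ x g h : F, ⁅⁅g, x⁆, h⁆ = ⁅⁅x, g⁆, h⁆⁻¹ := by
    intro x g h
    rw [← commutatorElement_inv x g, k2']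
  -- T(a,c,b) := ⁅⁅a,c⁆,b⁆
  have ha1 : ⁅y, ⁅x⁻¹, z⁆⁆ = ⁅⁅x, z⁆, y⁆ := by
    rw [← commutatorElement_inv, k2', k2', inv_inv]
  have ha2 : ⁅x, ⁅z⁻¹, y⁆⁆ = ⁅⁅x, z⁆, y⁆ := by
    rw [← commutatorElement_inv, k2', k2', inv_inv]
    -- ⁅⁅z,y⁆,x⁆ = ⁅⁅x,z⁆,y⁆
    rw [k5 z x y, k4 z x y]
  have ha3 : ⁅z, ⁅y⁻¹, x⁆⁆ = ⁅⁅x, z⁆, y⁆ := by
    rw [← commutatorElement_inv, k2', k2', inv_inv]
    -- ⁅⁅y,x⁆,z⁆ = ⁅⁅x,z⁆,y⁆
    rw [k4 x y z, k5 x z y, inv_inv]
  have hw := show (x * ⁅y, ⁅x⁻¹, z⁆⁆ * x⁻¹) * (z * ⁅x, ⁅z⁻¹, y⁆⁆ * z⁻¹) * (y * ⁅z, ⁅y⁻¹, x⁆⁆ * y⁻¹) = 1 by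
    simp only [commutatorElement_def]
    group
  rw [ha1, ha2, ha3] at hw
  set T := ⁅⁅x, z⁆, y⁆ with hT
  have hTx : T ∈ Subgroup.normalClosure ({x} : Set F) := comm_mem_of_mem_left (k1l x z) y
  have hTz : T ∈ Subgroup.normalClosure ({z} : Set F) := comm_mem_of_mem_left (k1r x z) y
  have hTy : T ∈ Subgroup.normalClosure ({y} : Set F) := k1r _ y
  have cx : x * T * x⁻¹ = T := by
    rw [(hcomm x x (hself x) T hTx).eq]; group
  have cz : z * T * z⁻¹ = T := by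
    rw [(hcomm z z (hself z) T hTz).eq]; group
  have cy : y * T * y⁻¹ = T := by
    rw [(hcomm y y (hself y) T hTy).eq]; group
  rw [cx, cz, cy] at hw
  have hT3 : T ^ 3 = 1 := by
    rw [pow_succ, pow_two]; exact hw
  -- ⁅⁅x,y⁆,z⁆ = T⁻¹
  have : ⁅⁅x, y⁆, z⁆ = T⁻¹ := by rw [hT]; exact k5 x z y
  rw [this, inv_pow, hT3, inv_one]

end Levi

end Cfsg.Agent.Lib.Helper78.E4
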