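import Mathlib
import Cfsg.Agent.Lib.Helper78.E4a

set_option autoImplicit false
set_option linter.style.haveILetI false

namespace Cfsg.Agent.Lib.Helper78.E4

/-- Additive core of the `S₃`-module argument. -/
theorem s3_core {F : Type*} [Group F] {Z : Type*} [AddCommGroup Z]
    (B : F → F → Z) (Q : F → Z) (A R : Z →+ Z) (α ρ : F →* F)
    (hB1 : ∀ f g h, B (f * g) h = B f h + B g h)
    (hB2 : ∀ f g h, B f (g * h) = B f g + B f h)
    (hBs : ∀ f g, B g f = B f g)
    (h2 : ∀ z : Z, z + z = 0)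
    (hAB : ∀ f g, A (B f g) = B (α f) (α g))
    (hQ : ∀ f g, Q (f * g) = Q f + Q g + B f g)
    (hdag : ∀ f, B f (ρ f) = Q f + R (Q f))
    (hN1 : ∀ z : Z, z + A z + A (A z) = 0)
    (hComm : ∀ f, B f (α f) = 0)
    (hNF : ∀ f g, B f (α (α g)) = B f g + B f (α g))
    (hρα : ∀ g, ρ (α g) = α (α (ρ g)))
    (hRA : ∀ z : Z, R (A (A z)) = A (R z))
    (f g : F) : B g (ρ f) = B f g := by
  have neg : ∀ z : Z, -z = z := fun z => neg_eq_of_add_eq_zero_left (h2 z)
  -- (L1)
  have L1 : ∀ f g, B f (α g) = B (α f) g := by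
    intro f g
    have h := hComm (f * g)
    rw [map_mul, hB1, hB2, hB2, hComm, hComm, zero_add, add_zero] at h
    have h' : B f (α g) = -B g (α f) := eq_neg_of_add_eq_zero_left h
    rw [h', neg, hBs]
  -- (L2)
  have L2 : ∀ f g, B f (α (α g)) = A (B f g) := by
    intro f g
    rw [L1 f (α g), hAB]
  -- (L3)
  have L3 : ∀ f g, B f (α g) = A (A (B f g)) := by
    intro f g
    have h := hNF f g
    rw [L2] at h
    have n1 := hN1 (B f g)
    -- h : A U = U + B f (α g); n1 : U + A U + A (A U) = 0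
    calc B f (α g) = A (B f g) - B f g := by rw [h]; abel
      _ = (A (B f g) - B f g) - (A (B f g) + A (B f g)) := by rw [h2 (A (B f g)), sub_zero]
      _ = -(B f g + A (B f g)) := by abel
      _ = A (A (B f g)) := (eq_neg_of_add_eq_zero_right n1).symm
  -- (L4)
  have L4 : ∀ f g, B f (ρ g) + B g (ρ f) = B f g + R (B f g) := by
    intro f g
    have h := hdag (f * g)
    rw [map_mul, hB1, hB2, hB2, hQ, map_add, map_add, hdag f, hdag g] at h
    -- h : Qf + RQf + B f ρg + (B g ρf + (Qg + RQg)) = Qf + Qg + Bfg + (RQf + RQg + R Bfg)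
    have : B f (ρ g) + B g (ρ f) + (Q f + R (Q f) + (Q g + R (Q g))) =
        B f g + R (B f g) + (Q f + R (Q f) + (Q g + R (Q g))) := by
      calc B f (ρ g) + B g (ρ f) + (Q f + R (Q f) + (Q g + R (Q g)))
          = Q f + R (Q f) + B f (ρ g) + (B g (ρ f) + (Q g + R (Q g))) := by abel
        _ = Q f + Q g + B f g + (R (Q f) + R (Q g) + R (B f g)) := h
        _ = B f g + R (B f g) + (Q f + R (Q f) + (Q g + R (Q g))) := by abel
    exact add_right_cancel this
  -- (L5)
  have h1 := L4 f g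
  have h2' := L4 f (α g)
  rw [hρα, L2, hBs (ρ f) (α g), L3 (ρ f) g, hBs g (ρ f), L3 f g, hRA] at h2'
  -- h2' : A X + A (A Y) = A (A U) + A W
  have ah1 : A (B f (ρ g)) + A (B g (ρ f)) = A (B f g) + A (R (B f g)) := by
    rw [← map_add, h1, map_add]
  have nY := hN1 (B g (ρ f))
  have nU := hN1 (B f g)
  have tY := h2 (A (B g (ρ f)))
  have tU := h2 (A (B f g))
  -- A(A Y) - A Y = A (A U) - A U
  have d : A (A (B g (ρ f))) - A (B g (ρ f)) = A (A (B f g)) - A (B f g) := by
    have e : A (A (B g (ρ f))) - A (B g (ρ f))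
        = (A (B f (ρ g)) + A (A (B g (ρ f)))) - (A (B f (ρ g)) + A (B g (ρ f))) := by abel
    rw [e, h2', ah1]; abel
  have : B g (ρ f) = B f g := by
    have e1 : B g (ρ f) = (B g (ρ f) + A (B g (ρ f)) + A (A (B g (ρ f))))
        - (A (A (B g (ρ f))) - A (B g (ρ f))) - (A (B g (ρ f)) + A (B g (ρ f))) := by abel
    have e2 : B f g = (B f g + A (B f g) + A (A (B f g)))
        - (A (A (B f g)) - A (B f g)) - (A (B f g) + A (B f g)) := by abel
    rw [e1, e2, nY, nU, d, tY, tU]
  exact this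

section S3
open scoped commutatorElement
variable {F : Type*} [Group F]

theorem map_mem_center (τ : F ≃* F) {z : F} (hz : z ∈ Subgroup.center F) :
    τ z ∈ Subgroup.center F := by
  rw [Subgroup.mem_center_iff]
  intro g
  obtain ⟨g', rfl⟩ := τ.surjective g
  rw [← map_mul, ← map_mul, Subgroup.mem_center_iff.mp hz g']

/-- A group with a splitting automorphism of order `3` and exponent `4` has class at most `2`. -/
theorem nl_class_two (α : F →* F) (h3 : ∀ x, α (α (α x)) = x)
    (hN : ∀ g x : F, x * (g * α x * g⁻¹) * (g * α (g * α x * g⁻¹) * g⁻¹) = 1)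
    (h4 : ∀ f : F, f ^ 4 = 1) (x y z : F) : ⁅⁅x, y⁆, z⁆ = 1 := by
  have h3' := levi_cube (nl_engel α h3 hN) x y z
  have h4' := h4 ⁅⁅x, y⁆, z⁆
  calc ⁅⁅x, y⁆, z⁆ = ⁅⁅x, y⁆, z⁆ ^ 4 * (⁅⁅x, y⁆, z⁆ ^ 3)⁻¹ := by group
    _ = 1 := by rw [h3', h4']; group

/-- The `S₃`-module lemma: if moreover an involutory automorphism `ρ` inverting `α` satisfies
`(f ρ(f))² = 1`, the group is elementary abelian. -/
theorem s3mod (α ρ : F ≃* F)
    (h4 : ∀ f : F, f ^ 4 = 1)
    (hα3 : ∀ f, α (α (α f)) = f)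
    (hρ2 : ∀ f, ρ (ρ f) = f)
    (hρα : ∀ f, ρ (α (ρ f)) = α (α f))
    (hN : ∀ g x : F, x * (g * α x * g⁻¹) * (g * α (g * α x * g⁻¹) * g⁻¹) = 1)
    (hρ : ∀ f, (f * ρ f) ^ 2 = 1) :
    (∀ f g : F, f * g = g * f) ∧ ∀ f : F, f ^ 2 = 1 := by
  have hc2 : ∀ x y z : F, ⁅⁅x, y⁆, z⁆ = 1 := nl_class_two α.toMonoidHom hα3 hN h4
  have hcz : ∀ x y : F, ⁅x, y⁆ ∈ Subgroup.center F := by
    intro x y
    rw [Subgroup.mem_center_iff]
    intro g
    exact (commutatorElement_eq_one_iff_commute.mp (hc2 x y g)).eq.symm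
  have hcc : ∀ x y g : F, g * ⁅x, y⁆ = ⁅x, y⁆ * g := fun x y g =>
    Subgroup.mem_center_iff.mp (hcz x y) g
  have hComm : ∀ f : F, f * α f = α f * f := by
    intro f
    have := (nl_comm_twist α.toMonoidHom hN 1 f).eq
    simpa using this
  have N1 : ∀ f : F, f * α f * α (α f) = 1 := by
    intro f
    have := hN 1 f
    simpa using this
  have fpf : ∀ c : F, α c = c → c = 1 := by
    intro c hc
    have h := N1 c
    rw [hc, hc] at h
    have h4' := h4 c
    calc c = c ^ 4 * (c * c * c)⁻¹ := by group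
      _ = 1 := by rw [h, h4']; group
  -- facts on ρ' = α ρ α⁻¹
  have e1 : ∀ f : F, α (ρ f) = ρ (α (α f)) := by
    intro f
    rw [← hρα f, hρ2]
  have hρ'ρ : ∀ f : F, α (ρ (α (α (ρ f)))) = α (α f) := by
    intro f
    have k1 : ρ (α (α (ρ f))) = α f := by
      rw [e1, hρα, hα3]
    rw [k1]
  have hρ'sq : ∀ f : F, (f * α (ρ (α (α f)))) ^ 2 = 1 := by
    intro f
    have e : f * α (ρ (α (α f))) = α (α (α f) * ρ (α (α f))) := by
      rw [map_mul, hα3]
    rw [e, ← map_pow, hρ, map_one]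
  -- central elements square to one
  have hZ2 : ∀ z ∈ Subgroup.center F, z ^ 2 = 1 := by
    intro z hz
    have hzc : ∀ g : F, g * z = z * g := Subgroup.mem_center_iff.mp hz
    have h1 : z ^ 2 * ρ (z ^ 2) = 1 := by
      have c : Commute z (ρ z) := (hzc (ρ z)).symm
      have := hρ z
      rw [c.mul_pow] at this
      rw [map_pow]; exact this
    have h2 : z ^ 2 * α (ρ (α (α (z ^ 2)))) = 1 := by
      have c : Commute z (α (ρ (α (α z)))) := (hzc _).symm
      have := hρ'sq z
      rw [c.mul_pow] at this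
      rw [map_pow, map_pow, map_pow, map_pow]; exact this
    set w := z ^ 2 with hw
    have r1 : ρ w = w⁻¹ := eq_inv_of_mul_eq_one_right h1
    have r2 : α (ρ (α (α w))) = w⁻¹ := eq_inv_of_mul_eq_one_right h2
    have r3 : α (α w) = w := by
      rw [← hρ'ρ w, r1, map_inv, map_inv, map_inv, map_inv, r2, inv_inv]
    have r4 : α w = w := by
      have := congrArg α r3
      rw [hα3] at this
      exact this.symm
    exact fpf w r4
  have hcs : ∀ x y : F, ⁅x, y⁆⁻¹ = ⁅x, y⁆ := by
    intro x y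
    have := hZ2 _ (hcz x y)
    rw [inv_eq_iff_mul_eq_one, ← sq]; exact this
  have comm_symm : ∀ f g : F, ⁅g, f⁆ = ⁅f, g⁆ := by
    intro f g
    rw [← commutatorElement_inv, hcs]
  have comm_mul_left : ∀ f g h : F, ⁅f * g, h⁆ = ⁅f, h⁆ * ⁅g, h⁆ := by
    intro f g h
    have e : ⁅f * g, h⁆ = f * ⁅g, h⁆ * f⁻¹ * ⁅f, h⁆ := by
      simp only [commutatorElement_def]; group
    rw [e, hcc g h f]
    have := hcc g h ⁅f, h⁆
    calc ⁅g, h⁆ * f * f⁻¹ * ⁅f, h⁆ = ⁅g, h⁆ * ⁅f, h⁆ := by group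
      _ = ⁅f, h⁆ * ⁅g, h⁆ := (hcc g h _).symm
  have comm_mul_right : ∀ f g h : F, ⁅f, g * h⁆ = ⁅f, g⁆ * ⁅f, h⁆ := by
    intro f g h
    have e : ⁅f, g * h⁆ = ⁅f, g⁆ * (g * ⁅f, h⁆ * g⁻¹) := by
      simp only [commutatorElement_def]; group
    rw [e, hcc f h g]
    group
  have comm_inv_right : ∀ f g : F, ⁅f, g⁻¹⁆ = ⁅f, g⁆ := by
    intro f g
    have e : ⁅f, g⁻¹⁆ = g⁻¹ * ⁅f, g⁆⁻¹ * g := by
      simp only [commutatorElement_def]; group
    rw [e, hcs, hcc f g g⁻¹]
    group
  have sq_mul : ∀ f g : F, (f * g) ^ 2 = f ^ 2 * g ^ 2 * ⁅f, g⁆ := by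
    intro f g
    have e0 : g * f = ⁅g, f⁆ * (f * g) := by simp only [commutatorElement_def]; group
    calc (f * g) ^ 2 = f * (g * f) * g := by rw [sq]; group
      _ = f * (⁅g, f⁆ * (f * g)) * g := by rw [e0]
      _ = (f * ⁅g, f⁆) * (f * g * g) := by group
      _ = (⁅g, f⁆ * f) * (f * g * g) := by rw [hcc g f f]
      _ = ⁅g, f⁆ * (f * f * g * g) := by group
      _ = (f * f * g * g) * ⁅g, f⁆ := (hcc g f _).symm
      _ = f ^ 2 * g ^ 2 * ⁅f, g⁆ := by rw [comm_symm f g, sq, sq]; group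
  have hsq : ∀ f : F, f ^ 2 ∈ Subgroup.center F := by
    intro f
    rw [Subgroup.mem_center_iff]
    intro g
    have e : g * f = ⁅g, f⁆ * (f * g) := by simp only [commutatorElement_def]; group
    have s2 : ⁅g, f⁆ * ⁅g, f⁆ = 1 := by
      have := hZ2 _ (hcz g f)
      rwa [sq] at this
    calc g * f ^ 2 = (g * f) * f := by rw [sq, mul_assoc]
      _ = ⁅g, f⁆ * (f * g) * f := by rw [e]
      _ = ⁅g, f⁆ * f * (g * f) := by group
      _ = ⁅g, f⁆ * f * (⁅g, f⁆ * (f * g)) := by rw [← e]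
      _ = ⁅g, f⁆ * (f * ⁅g, f⁆) * (f * g) := by group
      _ = ⁅g, f⁆ * (⁅g, f⁆ * f) * (f * g) := by rw [hcc g f f]
      _ = (⁅g, f⁆ * ⁅g, f⁆) * f * (f * g) := by group
      _ = f ^ 2 * g := by rw [s2, one_mul, sq, mul_assoc]
  -- the core
  letI : CommGroup (Subgroup.center F) :=
    { (inferInstance : Group (Subgroup.center F)) with
      mul_comm := fun a b => Subtype.ext (Subgroup.mem_center_iff.mp b.2 a.1) }
  let αc : Subgroup.center F →* Subgroup.center F :=
    (α.toMonoidHom.comp (Subgroup.center F).subtype).codRestrict (Subgroup.center F)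
      (fun z => map_mem_center α z.2)
  let ρc : Subgroup.center F →* Subgroup.center F :=
    (ρ.toMonoidHom.comp (Subgroup.center F).subtype).codRestrict (Subgroup.center F)
      (fun z => map_mem_center ρ z.2)
  have key : ∀ f g : F, ⁅g, ρ f⁆ = ⁅f, g⁆ := by
    intro f g
    have := s3_core (Z := Additive (Subgroup.center F))
      (fun f g => Additive.ofMul (⟨⁅f, g⁆, hcz f g⟩ : Subgroup.center F))
      (fun f => Additive.ofMul (⟨f ^ 2, hsq f⟩ : Subgroup.center F))
      (MonoidHom.toAdditive αc) (MonoidHom.toAdditive ρc) α.toMonoidHom ρ.toMonoidHom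
      (fun f g h => congrArg Additive.ofMul (Subtype.ext (comm_mul_left f g h)))
      (fun f g h => congrArg Additive.ofMul (Subtype.ext (comm_mul_right f g h)))
      (fun f g => congrArg Additive.ofMul (Subtype.ext (comm_symm f g)))
      (fun z => congrArg Additive.ofMul (Subtype.ext (by
        have := hZ2 _ (Additive.toMul z).2
        rwa [sq] at this)))
      (fun f g => congrArg Additive.ofMul (Subtype.ext (map_commutatorElement α f g)))
      (fun f g => congrArg Additive.ofMul (Subtype.ext (sq_mul f g)))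
      (fun f => congrArg Additive.ofMul (Subtype.ext (by
        show ⁅f, ρ f⁆ = f ^ 2 * ρ (f ^ 2)
        have h := hρ f
        rw [sq_mul] at h
        have hcen : f ^ 2 * (ρ f) ^ 2 ∈ Subgroup.center F :=
          (Subgroup.center F).mul_mem (hsq f) (hsq (ρ f))
        have h5 := hZ2 _ hcen
        have h6 : ⁅f, ρ f⁆ = (f ^ 2 * (ρ f) ^ 2)⁻¹ := eq_inv_of_mul_eq_one_right h
        rw [h6, map_pow, inv_eq_iff_mul_eq_one, ← sq]
        exact h5)))
      (fun z => congrArg Additive.ofMul (Subtype.ext (N1 (Additive.toMul z).1)))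
      (fun f => congrArg Additive.ofMul (Subtype.ext
        (commutatorElement_eq_one_iff_commute.mpr (hComm f))))
      (fun f g => congrArg Additive.ofMul (Subtype.ext (by
        show ⁅f, α (α g)⁆ = ⁅f, g⁆ * ⁅f, α g⁆
        have e : α (α g) = (g * α g)⁻¹ := by
          rw [eq_inv_iff_mul_eq_one]
          have c1 := hComm g
          have c2 := hComm (α g)
          calc α (α g) * (g * α g) = g⁻¹ * (g * (α (α g) * α g)) * g := by
                rw [c1]; group
            _ = g⁻¹ * (g * (α g * α (α g))) * g := by rw [c2]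
            _ = g⁻¹ * (g * α g * α (α g)) * g := by group
            _ = 1 := by rw [N1 g]; group
        rw [e, comm_inv_right, comm_mul_right])))
      (fun g => by
        show ρ (α g) = α (α (ρ g))
        have := hρα (ρ g)
        rw [hρ2] at this
        exact this)
      (fun z => congrArg Additive.ofMul (Subtype.ext (e1 (Additive.toMul z).1).symm))
      f g
    have h' := congrArg (fun z => ((Additive.toMul z : Subgroup.center F) : F)) this
    exact h'
  have pc : ∀ f : F, f⁻¹ * ρ f ∈ Subgroup.center F := by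
    intro f
    rw [Subgroup.mem_center_iff]
    intro g
    have h : ⁅g, f⁻¹ * ρ f⁆ = 1 := by
      rw [comm_mul_right, comm_inv_right, key f g, comm_symm f g, ← sq]
      exact hZ2 _ (hcz f g)
    exact (commutatorElement_eq_one_iff_commute.mp h).eq
  have pc' : ∀ f : F, f⁻¹ * α (ρ (α (α f))) ∈ Subgroup.center F := by
    intro f
    have := map_mem_center α (pc (α (α f)))
    rw [map_mul, map_inv, hα3] at this
    exact this
  have p2 : ∀ f : F, f⁻¹ * α (α f) ∈ Subgroup.center F := by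
    intro f
    have h1 := pc f
    have h2 := pc' (ρ f)
    rw [hρ'ρ] at h2
    have := (Subgroup.center F).mul_mem h1 h2
    have e : f⁻¹ * ρ f * ((ρ f)⁻¹ * α (α f)) = f⁻¹ * α (α f) := by group
    rwa [e] at this
  have p1 : ∀ f : F, f⁻¹ * α f ∈ Subgroup.center F := by
    intro f
    have h := p2 (α f)
    rw [hα3] at h
    have := (Subgroup.center F).inv_mem h
    have e : ((α f)⁻¹ * f)⁻¹ = f⁻¹ * α f := by group
    rwa [e] at this
  have hall : ∀ f : F, f ∈ Subgroup.center F := by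
    intro f
    have z1 := p1 f
    have z2 := p2 f
    have c1 : ∀ g : F, g * (f⁻¹ * α f) = (f⁻¹ * α f) * g := Subgroup.mem_center_iff.mp z1
    have h := N1 f
    have h3 : f * f * f * ((f⁻¹ * α f) * (f⁻¹ * α (α f))) = 1 := by
      calc f * f * f * ((f⁻¹ * α f) * (f⁻¹ * α (α f)))
          = f * f * (f * (f⁻¹ * α f)) * (f⁻¹ * α (α f)) := by group
        _ = f * f * ((f⁻¹ * α f) * f) * (f⁻¹ * α (α f)) := by rw [c1 f]
        _ = f * α f * α (α f) := by group
        _ = 1 := h
    have h3c : f * f * f ∈ Subgroup.center F := by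
      have : f * f * f = ((f⁻¹ * α f) * (f⁻¹ * α (α f)))⁻¹ := eq_inv_of_mul_eq_one_left h3
      rw [this]
      exact (Subgroup.center F).inv_mem ((Subgroup.center F).mul_mem z1 z2)
    have : f = (f * f * f) * (f ^ 2)⁻¹ := by rw [sq]; group
    rw [this]
    exact (Subgroup.center F).mul_mem h3c ((Subgroup.center F).inv_mem (hsq f))
  exact ⟨fun f g => Subgroup.mem_center_iff.mp (hall g) f, fun f => hZ2 f (hall f)⟩

end S3

end Cfsg.Agent.Lib.Helper78.E4
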