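import Mathlib
import Cfsg.Agent.Lib.Helper78.E4b
import Cfsg.Agent.S0041
import Cfsg.Prelude.Def_Transfer

set_option autoImplicit false
set_option linter.style.haveILetI false
set_option linter.unusedSectionVars false

namespace Cfsg.Agent.Lib.Helper78.E4

section Basic
variable {G : Type*} [Group G]

theorem eq_one_of_pow43 {g : G} (h4 : g ^ 4 = 1) (h3 : g ^ 3 = 1) : g = 1 := by
  calc g = g ^ 4 * (g ^ 3)⁻¹ := by group
    _ = 1 := by rw [h4, h3]; group

theorem no6 (ho : ∀ g : G, g ^ 4 = 1 ∨ g ^ 3 = 1) {u v : G} (hu : u ≠ 1) (hu4 : u ^ 4 = 1)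
    (hv : v ≠ 1) (hv3 : v ^ 3 = 1) (hc : Commute u v) : False := by
  rcases ho (u * v) with h | h
  · rw [hc.mul_pow, hu4, one_mul] at h
    exact hv (eq_one_of_pow43 h hv3)
  · rw [hc.mul_pow, hv3, mul_one] at h
    exact hu (eq_one_of_pow43 hu4 h)

theorem isMulCommutative_closure_pair {z x : G} (hc : Commute z x) :
    IsMulCommutative (Subgroup.closure ({z, x} : Set G)) := by
  rw [← Subgroup.le_centralizer_iff_isMulCommutative]
  have key : ∀ s ∈ ({z, x} : Set G), ∀ t ∈ ({z, x} : Set G), t * s = s * t := by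
    intro s hs t ht
    rcases hs with rfl | rfl <;> rcases ht with rfl | rfl
    · rfl
    · exact hc.eq.symm
    · exact hc.eq
    · rfl
  rw [Subgroup.closure_le]
  intro s hs
  rw [SetLike.mem_coe, Subgroup.mem_centralizer_iff]
  intro h hh
  have hle : Subgroup.closure ({z, x} : Set G) ≤ Subgroup.centralizer ({s} : Set G) := by
    rw [Subgroup.closure_le]
    intro t ht
    rw [SetLike.mem_coe, Subgroup.mem_centralizer_iff]
    intro u hu
    rw [Set.mem_singleton_iff] at hu
    rw [hu]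
    exact (key s hs t ht).symm
  exact (Subgroup.mem_centralizer_iff.mp (hle hh) s rfl).symm

/-- `(t * a)^n ≡ a^n` modulo a normal subgroup containing `t`. -/
theorem mul_pow_mem_normal {N : Subgroup G} [N.Normal] {t : G} (ht : t ∈ N) (a : G) (n : ℕ) :
    (t * a) ^ n * (a ^ n)⁻¹ ∈ N := by
  have h1 : ((t * a : G) : G ⧸ N) = (a : G ⧸ N) := by
    rw [QuotientGroup.mk_mul, (QuotientGroup.eq_one_iff t).mpr ht, one_mul]
  have h2 : (((t * a) ^ n * (a ^ n)⁻¹ : G) : G ⧸ N) = 1 := by
    rw [QuotientGroup.mk_mul, QuotientGroup.mk_pow, QuotientGroup.mk_inv, QuotientGroup.mk_pow,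
      h1, mul_inv_cancel]
  exact (QuotientGroup.eq_one_iff _).mp h2

end Basic

section CaseA
variable {G : Type*} [Group G] [Finite G]

theorem sylow3_eq_zpowers (ho : ∀ g : G, g ^ 4 = 1 ∨ g ^ 3 = 1)
    (A : Subgroup G) [A.Normal] [IsMulCommutative A] (hA : A ≠ ⊥) (hA4 : ∀ x ∈ A, x ^ 4 = 1)
    (P : Sylow 3 G) (hP : (P : Subgroup G) ≠ ⊥) :
    ∃ a : G, a ≠ 1 ∧ a ^ 3 = 1 ∧ (P : Subgroup G) = Subgroup.zpowers a := by
  have : Fact (Nat.Prime 3) := ⟨by norm_num⟩
  have hP3 : ∀ x ∈ (P : Subgroup G), x ^ 3 = 1 := by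
    intro x hx
    rcases ho x with h | h
    · obtain ⟨k, hk⟩ := P.2 ⟨x, hx⟩
      have hk' : x ^ (3 ^ k) = 1 := by
        have := congrArg Subtype.val hk
        simpa using this
      have h1 : orderOf x ∣ 4 := orderOf_dvd_of_pow_eq_one h
      have h2 : orderOf x ∣ 3 ^ k := orderOf_dvd_of_pow_eq_one hk'
      have h3 : orderOf x ∣ Nat.gcd 4 (3 ^ k) := Nat.dvd_gcd h1 h2
      have h4 : Nat.gcd 4 (3 ^ k) = 1 := by
        apply Nat.Coprime.pow_right; norm_num
      rw [h4, Nat.dvd_one, orderOf_eq_one_iff] at h3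
      rw [h3, one_pow]
    · exact h
  have hnt : Nontrivial (P : Subgroup G) := (Subgroup.nontrivial_iff_ne_bot _).mpr hP
  have hcn := IsPGroup.center_nontrivial P.2
  obtain ⟨z', hz'⟩ := exists_ne (1 : Subgroup.center (P : Subgroup G))
  set z : G := ((z' : (P : Subgroup G)) : G) with hz
  have hzP : z ∈ (P : Subgroup G) := (z' : (P : Subgroup G)).2
  have hz1 : z ≠ 1 := by
    intro h
    apply hz'
    apply Subtype.ext; apply Subtype.ext; exact h
  have hz3 : z ^ 3 = 1 := hP3 z hzP
  have hzc : ∀ x ∈ (P : Subgroup G), Commute z x := by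
    intro x hx
    have := Subgroup.mem_center_iff.mp z'.2 ⟨x, hx⟩
    have h' := congrArg Subtype.val this
    exact h'.symm
  have hoz : orderOf z = 3 := by
    have h1 : orderOf z ∣ 3 := orderOf_dvd_of_pow_eq_one hz3
    rcases (Nat.dvd_prime (by norm_num : Nat.Prime 3)).mp h1 with h | h
    · exact absurd (orderOf_eq_one_iff.mp h) hz1
    · exact h
  refine ⟨z, hz1, hz3, ?_⟩
  apply le_antisymm
  · intro x hx
    set D := Subgroup.closure ({z, x} : Set G) with hD
    have hDP : D ≤ (P : Subgroup G) := by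
      rw [hD, Subgroup.closure_le]
      intro y hy
      rcases hy with rfl | rfl
      · exact hzP
      · exact hx
    haveI : IsMulCommutative D := isMulCommutative_closure_pair (hzc x hx)
    have hfpf : ∀ d ∈ D, d ≠ 1 → A ⊓ Subgroup.centralizer {d} = ⊥ := by
      intro d hd hd1
      rw [eq_bot_iff]
      intro v hv
      rw [Subgroup.mem_inf, Subgroup.mem_centralizer_iff] at hv
      rw [Subgroup.mem_bot]
      by_contra hv1
      have hc : Commute v d := (hv.2 d rfl).symm
      exact no6 ho hv1 (hA4 v hv.1) hd1 (hP3 d (hDP hd)) hc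
    have hcyc : IsCyclic D := Cfsg.Agent.S0041.result D A hA
      (by rw [Subgroup.normalizer_eq_top]; exact le_top) hfpf (Or.inl inferInstance)
    obtain ⟨d, hd⟩ := hcyc.exists_generator
    have hd3 : d ^ 3 = 1 := Subtype.ext (by simpa using hP3 d (hDP d.2))
    have hcard : Nat.card D ≤ 3 := by
      rw [← orderOf_eq_card_of_forall_mem_zpowers hd]
      exact Nat.le_of_dvd (by norm_num) (orderOf_dvd_of_pow_eq_one hd3)
    have hzD : z ∈ D := Subgroup.subset_closure (by simp)
    have hxD : x ∈ D := Subgroup.subset_closure (by simp)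
    have hle : Subgroup.zpowers z ≤ D := Subgroup.zpowers_le.mpr hzD
    have heq : Subgroup.zpowers z = D := by
      apply Subgroup.eq_of_le_of_card_ge hle
      rw [Nat.card_zpowers, hoz]; exact hcard
    rw [heq]; exact hxD
  · exact Subgroup.zpowers_le.mpr hzP

theorem sylow2_index (ho : ∀ g : G, g ^ 4 = 1 ∨ g ^ 3 = 1) (P : Sylow 3 G) (a : G)
    (ha1 : a ≠ 1) (ha3 : a ^ 3 = 1) (hPa : (P : Subgroup G) = Subgroup.zpowers a)
    (T : Sylow 2 G) : (T : Subgroup G).index = 3 := by
  have : Fact (Nat.Prime 3) := ⟨by norm_num⟩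
  have : Fact (Nat.Prime 2) := ⟨by norm_num⟩
  have hoa : orderOf a = 3 := by
    have h1 : orderOf a ∣ 3 := orderOf_dvd_of_pow_eq_one ha3
    rcases (Nat.dvd_prime (by norm_num : Nat.Prime 3)).mp h1 with h | h
    · exact absurd (orderOf_eq_one_iff.mp h) ha1
    · exact h
  have hcP : Nat.card (P : Subgroup G) = 3 := by rw [hPa, Nat.card_zpowers, hoa]
  have hidx0 : (P : Subgroup G).index ≠ 0 := Subgroup.index_ne_zero_of_finite
  have hprime : ∀ {q : ℕ}, q.Prime → q ∣ (P : Subgroup G).index → q = 2 := by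
    intro q hq hqd
    have hqG : q ∣ Nat.card G := hqd.trans (Subgroup.index_dvd_card _)
    haveI := Fact.mk hq
    obtain ⟨g, hg⟩ := exists_prime_orderOf_dvd_card' q hqG
    rcases ho g with h | h
    · have h1 : q ∣ 4 := hg ▸ orderOf_dvd_of_pow_eq_one h
      have h2 : q ∣ 2 := by
        have : (4 : ℕ) = 2 ^ 2 := by norm_num
        rw [this] at h1
        exact hq.dvd_of_dvd_pow h1
      exact (Nat.prime_dvd_prime_iff_eq hq Nat.prime_two).mp h2
    · have h1 : q ∣ 3 := hg ▸ orderOf_dvd_of_pow_eq_one h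
      have h2 : q = 3 := (Nat.prime_dvd_prime_iff_eq hq (by norm_num)).mp h1
      exfalso
      rw [h2] at hqd
      exact P.not_dvd_index hqd
  have hpow := Nat.eq_prime_pow_of_unique_prime_dvd hidx0 hprime
  set k := (P : Subgroup G).index.primeFactorsList.length with hk
  have hG : Nat.card G = 3 * 2 ^ k := by
    rw [← (P : Subgroup G).card_mul_index, hcP, hpow]
  obtain ⟨m, hm⟩ := IsPGroup.iff_card.mp T.2
  have hT := (T : Subgroup G).card_mul_index
  rw [hm, hG] at hT
  have hodd : ¬ 2 ∣ (T : Subgroup G).index := T.not_dvd_index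
  set i := (T : Subgroup G).index with hi
  have hcop : Nat.Coprime 2 i := (Nat.Prime.coprime_iff_not_dvd Nat.prime_two).mpr hodd
  have h1 : 2 ^ k ∣ 2 ^ m := by
    have : 2 ^ k ∣ 2 ^ m * i := by rw [hT]; exact Dvd.intro_left 3 rfl
    exact (Nat.Coprime.pow_left k hcop).dvd_of_dvd_mul_right this
  have h2 : 2 ^ m ∣ 2 ^ k := by
    have : 2 ^ m ∣ 3 * 2 ^ k := by rw [← hT]; exact Dvd.intro _ rfl
    exact (Nat.Coprime.pow_left m (by norm_num : Nat.Coprime 2 3)).dvd_of_dvd_mul_left this
  have hkm : k = m := by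
    have a1 := (Nat.pow_dvd_pow_iff_le_right (by norm_num : 1 < 2)).mp h1
    have a2 := (Nat.pow_dvd_pow_iff_le_right (by norm_num : 1 < 2)).mp h2
    omega
  rw [← hkm, mul_comm 3 (2 ^ k)] at hT
  exact Nat.eq_of_mul_eq_mul_left (by positivity) hT

/-- Elements of a Sylow `2`-subgroup have fourth power one. -/
theorem sylow2_pow4 (ho : ∀ g : G, g ^ 4 = 1 ∨ g ^ 3 = 1) (T : Sylow 2 G) :
    ∀ t ∈ (T : Subgroup G), t ^ 4 = 1 := by
  intro t ht
  rcases ho t with h | h
  · exact h
  · obtain ⟨k, hk⟩ := T.2 ⟨t, ht⟩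
    have hk' : t ^ (2 ^ k) = 1 := by
      have := congrArg Subtype.val hk
      simpa using this
    have h1 : orderOf t ∣ 3 := orderOf_dvd_of_pow_eq_one h
    have h2 : orderOf t ∣ 2 ^ k := orderOf_dvd_of_pow_eq_one hk'
    have h3 : orderOf t ∣ Nat.gcd 3 (2 ^ k) := Nat.dvd_gcd h1 h2
    have h4 : Nat.gcd 3 (2 ^ k) = 1 := by
      apply Nat.Coprime.pow_right; norm_num
    rw [h4, Nat.dvd_one, orderOf_eq_one_iff] at h3
    rw [h3, one_pow]

/-- Twisted cube identity. -/
theorem twist_cube {x g a : G} (h1 : (g * a) ^ 3 = 1) (h2 : (x * g * a) ^ 3 = 1) :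
    x * (g * (a * x * a⁻¹) * g⁻¹) * (g * (a * (g * (a * x * a⁻¹) * g⁻¹) * a⁻¹) * g⁻¹) = 1 := by
  have h1' : (g * a) * (g * a) * (g * a) = 1 := by rw [← h1, pow_succ, pow_two]
  have h2' : (x * g * a) * (x * g * a) * (x * g * a) = 1 := by rw [← h2, pow_succ, pow_two]
  calc x * (g * (a * x * a⁻¹) * g⁻¹) * (g * (a * (g * (a * x * a⁻¹) * g⁻¹) * a⁻¹) * g⁻¹)
      = ((x * g * a) * (x * g * a) * (x * g * a)) * ((g * a) * (g * a) * (g * a))⁻¹ := by group
    _ = 1 := by rw [h1', h2']; group

open scoped commutatorElement in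
theorem caseA_normal (ho : ∀ g : G, g ^ 4 = 1 ∨ g ^ 3 = 1) (x4 : G) (hx4 : orderOf x4 = 4)
    (a : G) (ha1 : a ≠ 1) (ha3 : a ^ 3 = 1)
    (T : Sylow 2 G) (hTn : (T : Subgroup G).Normal) (hidx : (T : Subgroup G).index = 3) :
    IsPGroup 2 (T : Subgroup G) ∧ Monoid.exponent (T : Subgroup G) = 4 ∧
      Group.nilpotencyClass (T : Subgroup G) ≤ 2 ∧ (T : Subgroup G).index = 3 := by
  have : Fact (Nat.Prime 2) := ⟨by norm_num⟩
  haveI := hTn
  have hT4 := sylow2_pow4 ho T
  have hmem : ∀ g : G, g ^ 4 = 1 → g ∈ (T : Subgroup G) := by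
    intro g hg
    have hp : IsPGroup 2 (Subgroup.zpowers g) := by
      intro y
      refine ⟨2, ?_⟩
      obtain ⟨k, hk⟩ := Subgroup.mem_zpowers_iff.mp y.2
      apply Subtype.ext
      show (y : G) ^ (2 ^ 2) = 1
      rw [← hk, ← zpow_natCast, ← zpow_mul, mul_comm, zpow_mul, zpow_natCast]
      norm_num [hg]
    obtain ⟨Q, hQ⟩ := hp.exists_le_sylow
    have hQT : Q = T := by
      obtain ⟨c, hc⟩ := MulAction.exists_smul_eq G T Q
      rw [← hc, Sylow.smul_eq_of_normal]
    rw [← hQT]
    exact hQ (Subgroup.mem_zpowers g)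
  have hexp : Monoid.exponent (T : Subgroup G) = 4 := by
    apply Nat.dvd_antisymm
    · apply Monoid.exponent_dvd_of_forall_pow_eq_one
      intro t
      exact Subtype.ext (by simpa using hT4 t t.2)
    · have hx4T : x4 ∈ (T : Subgroup G) := hmem x4 (by rw [← hx4]; exact pow_orderOf_eq_one x4)
      have : orderOf (⟨x4, hx4T⟩ : (T : Subgroup G)) = 4 := by
        rw [← hx4]; exact Subgroup.orderOf_mk x4 hx4T
      rw [← this]
      exact Monoid.order_dvd_exponent _
  have hta : ∀ t ∈ (T : Subgroup G), (t * a) ^ 3 = 1 := by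
    intro t ht
    rcases ho (t * a) with h | h
    · exfalso
      have h1 := hmem _ h
      have h2 : a ∈ (T : Subgroup G) := by
        have := (T : Subgroup G).mul_mem ((T : Subgroup G).inv_mem ht) h1
        simpa using this
      exact ha1 (eq_one_of_pow43 (hT4 a h2) ha3)
    · exact h
  obtain ⟨α, hαv⟩ : ∃ α : (T : Subgroup G) ≃* (T : Subgroup G),
      ∀ x : (T : Subgroup G), ((α x : (T : Subgroup G)) : G) = a * x * a⁻¹ :=
    ⟨MulAut.conjNormal a, fun x => MulAut.conjNormal_apply a x⟩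
  have haaa : a * a * a = 1 := by rw [← ha3, pow_succ, pow_two]
  have h3 : ∀ x : (T : Subgroup G), α (α (α x)) = x := by
    intro x
    apply Subtype.ext
    rw [hαv, hαv, hαv]
    calc a * (a * (a * (x : G) * a⁻¹) * a⁻¹) * a⁻¹ = (a * a * a) * x * (a * a * a)⁻¹ := by group
      _ = x := by rw [haaa]; group
  have hN : ∀ g x : (T : Subgroup G),
      x * (g * α x * g⁻¹) * (g * α (g * α x * g⁻¹) * g⁻¹) = 1 := by
    intro g x
    apply Subtype.ext
    simp only [Subgroup.coe_mul, Subgroup.coe_inv, Subgroup.coe_one, hαv]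
    exact twist_cube (hta g g.2) (hta (x * g) ((T : Subgroup G).mul_mem x.2 g.2))
  have h4 : ∀ f : (T : Subgroup G), f ^ 4 = 1 := fun f =>
    Subtype.ext (by simpa using hT4 f f.2)
  have hc2 : ∀ x y z : (T : Subgroup G), ⁅⁅x, y⁆, z⁆ = 1 :=
    nl_class_two α.toMonoidHom h3 hN h4
  have hnil : Group.nilpotencyClass (T : Subgroup G) ≤ 2 := by
    haveI : Group.IsNilpotent (T : Subgroup G) := T.2.isNilpotent
    rw [← Subgroup.upperCentralSeries_eq_top_iff_nilpotencyClass_le, eq_top_iff]
    intro x _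
    rw [Subgroup.mem_upperCentralSeries_succ_iff]
    intro y
    rw [Subgroup.upperCentralSeries_one, Subgroup.mem_center_iff]
    intro z
    exact (commutatorElement_eq_one_iff_commute.mp (hc2 x y z)).eq.symm
  exact ⟨T.2, hexp, hnil, hidx⟩

theorem caseA_s3 (ho : ∀ g : G, g ^ 4 = 1 ∨ g ^ 3 = 1)
    (a : G) (ha1 : a ≠ 1) (ha3 : a ^ 3 = 1) (P : Sylow 3 G)
    (hPa : (P : Subgroup G) = Subgroup.zpowers a)
    (T : Sylow 2 G) (hTn : ¬ (T : Subgroup G).Normal)
    (hidx : ∀ T' : Sylow 2 G, (T' : Subgroup G).index = 3) :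
    ∃ (N : Subgroup G) (_ : N.Normal),
      Cfsg.IsElementaryAbelian 2 N ∧ Nonempty (G ⧸ N ≃* Equiv.Perm (Fin 3)) := by
  have : Fact (Nat.Prime 2) := ⟨by norm_num⟩
  have : Fact (Nat.Prime 3) := ⟨by norm_num⟩
  have haaa : a * a * a = 1 := by rw [← ha3, pow_succ, pow_two]
  have hoa : orderOf a = 3 := by
    have h1 : orderOf a ∣ 3 := orderOf_dvd_of_pow_eq_one ha3
    rcases (Nat.dvd_prime (by norm_num : Nat.Prime 3)).mp h1 with h | h
    · exact absurd (orderOf_eq_one_iff.mp h) ha1
    · exact h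
  -- (i) three Sylow 2-subgroups
  have hcard : Nat.card (Sylow 2 G) = 3 := by
    have h1 := Sylow.card_dvd_index T
    rw [hidx T] at h1
    rcases (Nat.dvd_prime (by norm_num : Nat.Prime 3)).mp h1 with h | h
    · exfalso
      apply hTn
      rw [Sylow.card_eq_index_normalizer T, Subgroup.index_eq_one] at h
      exact Subgroup.normalizer_eq_top_iff.mp h
    · exact h
  -- (ii) self-normalizing
  have hNT : ∀ T' : Sylow 2 G, Subgroup.normalizer ((T' : Subgroup G) : Set G) = T' := by
    intro T'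
    have h1 : (Subgroup.normalizer ((T' : Subgroup G) : Set G)).index = 3 := by
      have := Sylow.card_eq_index_normalizer T'
      rw [hcard] at this
      exact this.symm
    have h2 := (Subgroup.normalizer ((T' : Subgroup G) : Set G)).card_mul_index
    have h3 := (T' : Subgroup G).card_mul_index
    rw [h1] at h2
    rw [hidx T'] at h3
    symm
    apply Subgroup.eq_of_le_of_card_ge Subgroup.le_normalizer
    have : Nat.card (Subgroup.normalizer ((T' : Subgroup G) : Set G)) * 3
        = Nat.card (T' : Subgroup G) * 3 := h2.trans h3.symm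
    exact le_of_eq (Nat.eq_of_mul_eq_mul_right (by norm_num) this)
  -- (iii) the kernel
  set φ : G →* Equiv.Perm (Sylow 2 G) := MulAction.toPermHom G (Sylow 2 G) with hφ
  set F : Subgroup G := φ.ker with hFdef
  have hFmem : ∀ g ∈ F, ∀ T' : Sylow 2 G, g ∈ (T' : Subgroup G) := by
    intro g hg T'
    have h1 : φ g = 1 := MonoidHom.mem_ker.mp hg
    have h2 : g • T' = T' := by
      have := congrArg (fun σ : Equiv.Perm (Sylow 2 G) => σ T') h1
      simpa [hφ] using this
    have h3 : g ∈ Subgroup.normalizer ((T' : Subgroup G) : Set G) :=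
      Sylow.smul_eq_iff_mem_normalizer.mp h2
    rw [hNT T'] at h3
    exact h3
  have hFT : F ≤ (T : Subgroup G) := fun g hg => hFmem g hg T
  have hT4 := sylow2_pow4 ho T
  have hF4 : ∀ f ∈ F, f ^ 4 = 1 := fun f hf => hT4 f (hFT hf)
  have hFne : F ≠ (T : Subgroup G) := by
    intro h
    apply hTn
    rw [← h]
    infer_instance
  -- (iv) index six
  have hFidx : F.index = 6 := by
    have h1 : F.index = Nat.card φ.range := Subgroup.index_ker φ
    have h2 : Nat.card φ.range ∣ Nat.card (Equiv.Perm (Sylow 2 G)) :=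
      Subgroup.card_subgroup_dvd_card _
    rw [Nat.card_perm, hcard] at h2
    have h3 := Subgroup.relIndex_mul_index hFT
    rw [hidx T] at h3
    have h4 : F.relIndex (T : Subgroup G) ≠ 1 := by
      intro h
      rw [Subgroup.relIndex_eq_one] at h
      exact hFne (le_antisymm hFT h)
    have h5 : F.index ≠ 0 := Subgroup.index_ne_zero_of_finite
    have h6 : F.index ∣ 6 := by rw [h1]; exact h2
    have h7 : F.index ≤ 6 := Nat.le_of_dvd (by norm_num) h6
    have h8 : F.relIndex (T : Subgroup G) ≠ 0 := by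
      intro h
      rw [h, zero_mul] at h3
      exact h5 h3.symm
    have h9 : F.relIndex (T : Subgroup G) = 2 := by omega
    rw [← h3, h9]
  -- (v) the quotient
  have hsurj : Function.Surjective φ := by
    rw [← MonoidHom.range_eq_top]
    apply Subgroup.eq_top_of_card_eq
    rw [← Subgroup.index_ker φ, Nat.card_perm, hcard]
    exact hFidx
  have hquot : Nonempty (G ⧸ F ≃* Equiv.Perm (Fin 3)) := by
    have e1 : G ⧸ F ≃* Equiv.Perm (Sylow 2 G) := QuotientGroup.quotientKerEquivOfSurjective φ hsurj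
    have e2 : Sylow 2 G ≃ Fin 3 := Finite.equivFinOfCardEq hcard
    exact ⟨e1.trans (Equiv.permCongrHom e2)⟩
  -- (vi) an involution inverting `a`
  have hs : ∃ s : G, s * s = 1 ∧ s * a * s⁻¹ = a⁻¹ := by
    by_cases hNC : Subgroup.normalizer ((P : Subgroup G) : Set G) ≤
        Subgroup.centralizer ((P : Subgroup G) : Set G)
    · exfalso
      have hc := MonoidHom.ker_transferSylow_isComplement' P hNC
      set K := (MonoidHom.transferSylow P hNC).ker with hK
      have hKn : K.Normal := inferInstance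
      have h1 := hc.card_mul_card
      have hcP : Nat.card (P : Subgroup G) = 3 := by rw [hPa, Nat.card_zpowers, hoa]
      have h3 := (T : Subgroup G).card_mul_index
      rw [hidx T] at h3
      rw [hcP, ← h3] at h1
      have hKc : Nat.card K = Nat.card (T : Subgroup G) :=
        Nat.eq_of_mul_eq_mul_right (by norm_num) h1
      obtain ⟨m, hm⟩ := IsPGroup.iff_card.mp T.2
      have hKp : IsPGroup 2 K := IsPGroup.of_card (hKc.trans hm)
      obtain ⟨Q, hQ⟩ := hKp.exists_le_sylow
      have hQc : Nat.card (Q : Subgroup G) = Nat.card (T : Subgroup G) := by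
        have h4 := (Q : Subgroup G).card_mul_index
        rw [hidx Q, ← h3] at h4
        exact Nat.eq_of_mul_eq_mul_right (by norm_num) h4
      have hKQ : K = (Q : Subgroup G) :=
        Subgroup.eq_of_le_of_card_ge hQ (by rw [hQc, hKc])
      have hQn : (Q : Subgroup G).Normal := hKQ ▸ hKn
      obtain ⟨c, hc'⟩ := MulAction.exists_smul_eq G Q T
      apply hTn
      rw [← hc', Sylow.smul_eq_of_normal]
      exact hQn
    · rw [SetLike.not_le_iff_exists] at hNC
      obtain ⟨s, hsN, hsC⟩ := hNC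
      have hnc : ¬ Commute s a := by
        intro hc
        apply hsC
        rw [Subgroup.mem_centralizer_iff]
        intro y hy
        rw [SetLike.mem_coe, hPa] at hy
        obtain ⟨k, rfl⟩ := Subgroup.mem_zpowers_iff.mp hy
        exact ((hc.zpow_right k).eq).symm
      have hmem : s * a * s⁻¹ ∈ Subgroup.zpowers a := by
        have := (Subgroup.mem_normalizer_iff.mp hsN a).mp
          (by rw [hPa]; exact Subgroup.mem_zpowers a)
        rw [hPa] at this
        exact this
      obtain ⟨k, hk⟩ := Subgroup.mem_zpowers_iff.mp hmem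
      have hk' : a ^ (k % 3) = s * a * s⁻¹ := by
        rw [← hk]
        have := zpow_mod_orderOf a k
        rw [hoa] at this
        exact this
      have hsas : s * a * s⁻¹ = a⁻¹ := by
        have hcases : k % 3 = 0 ∨ k % 3 = 1 ∨ k % 3 = 2 := by omega
        rcases hcases with h | h | h
        · exfalso
          rw [h, zpow_zero] at hk'
          apply ha1
          have e : a = s⁻¹ * (s * a * s⁻¹) * s := by group
          rw [e, ← hk']; group
        · exfalso
          rw [h, zpow_one] at hk'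
          apply hnc
          have e : s * a = (s * a * s⁻¹) * s := by group
          show s * a = a * s
          rw [e, ← hk']
        · rw [h] at hk'
          rw [← hk']
          have e : a ^ (2 : ℤ) = a * a := by
            rw [show (2 : ℤ) = ((2 : ℕ) : ℤ) from rfl, zpow_natCast, pow_two]
          rw [e]
          exact eq_inv_of_mul_eq_one_left haaa
      have hsas' : s * a⁻¹ * s⁻¹ = a := by
        have e : s * a⁻¹ * s⁻¹ = (s * a * s⁻¹)⁻¹ := by group
        rw [e, hsas, inv_inv]
      have s2c : Commute (s * s) a := by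
        show s * s * a = a * (s * s)
        calc s * s * a = s * (s * a * s⁻¹) * s := by group
          _ = s * a⁻¹ * s := by rw [hsas]
          _ = (s * a⁻¹ * s⁻¹) * (s * s) := by group
          _ = a * (s * s) := by rw [hsas']
      have hs2 : s * s = 1 := by
        rcases ho s with h4 | h3
        · by_contra hne
          have h8 : (s * s) ^ 4 = 1 := by
            have e : (s * s) ^ 4 = (s ^ 4) ^ 2 := by
              rw [← pow_two, ← pow_mul, ← pow_mul]
            rw [e, h4, one_pow]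
          exact no6 ho hne h8 ha1 ha3 s2c
        · exfalso
          apply hnc
          have e : s = (s * s) * (s * s) * (s ^ 3)⁻¹ := by
            rw [pow_succ, pow_two]; group
          rw [h3, inv_one, mul_one] at e
          rw [e]
          exact s2c.mul_left s2c
      exact ⟨s, hs2, hsas⟩
  obtain ⟨s, hs2, hsas⟩ := hs
  have hsi : s⁻¹ = s := inv_eq_of_mul_eq_one_left hs2
  have haF : a ∉ F := fun h => ha1 (eq_one_of_pow43 (hF4 a h) ha3)
  have hFn : F.Normal := inferInstance
  have hsF : s ∉ F := by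
    intro h
    apply haF
    have h1 : a * s⁻¹ * a⁻¹ ∈ F := hFn.conj_mem _ (F.inv_mem h) a
    have h2 := F.mul_mem h h1
    have e : s * (a * s⁻¹ * a⁻¹) = (s * a * s⁻¹) * a⁻¹ := by group
    rw [e, hsas] at h2
    have e2 : a⁻¹ * a⁻¹ = a := by
      have : a * a = a⁻¹ := eq_inv_of_mul_eq_one_left haaa
      calc a⁻¹ * a⁻¹ = (a * a)⁻¹ := by group
        _ = a := by rw [this, inv_inv]
    rwa [e2] at h2
  -- (vii) the S₃-module lemma
  have hta : ∀ t ∈ F, (t * a) ^ 3 = 1 := by
    intro t ht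
    rcases ho (t * a) with h | h
    · exfalso
      have h1 := mul_pow_mem_normal ht a 4
      rw [h, one_mul] at h1
      have h2 : a ^ 4 ∈ F := by simpa using F.inv_mem h1
      have e : a ^ 4 = a := by rw [pow_succ, ha3, one_mul]
      rw [e] at h2
      exact haF h2
    · exact h
  have hts : ∀ t ∈ F, (t * s) ^ 4 = 1 := by
    intro t ht
    rcases ho (t * s) with h | h
    · exact h
    · exfalso
      have h1 := mul_pow_mem_normal ht s 3
      rw [h, one_mul] at h1
      have h2 : s ^ 3 ∈ F := by simpa using F.inv_mem h1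
      have e : s ^ 3 = s := by rw [pow_succ, pow_two, hs2, one_mul]
      rw [e] at h2
      exact hsF h2
  obtain ⟨α, hαv⟩ : ∃ α : F ≃* F, ∀ x : F, ((α x : F) : G) = a * x * a⁻¹ :=
    ⟨MulAut.conjNormal a, fun x => MulAut.conjNormal_apply a x⟩
  obtain ⟨ρ, hρv⟩ : ∃ ρ : F ≃* F, ∀ x : F, ((ρ x : F) : G) = s * x * s⁻¹ :=
    ⟨MulAut.conjNormal s, fun x => MulAut.conjNormal_apply s x⟩
  have haa : a * a = a⁻¹ := eq_inv_of_mul_eq_one_left haaa
  have key := s3mod α ρ
    (fun f => Subtype.ext (by simpa using hF4 f f.2))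
    (by
      intro x
      apply Subtype.ext
      rw [hαv, hαv, hαv]
      calc a * (a * (a * (x : G) * a⁻¹) * a⁻¹) * a⁻¹ = (a * a * a) * x * (a * a * a)⁻¹ := by group
        _ = x := by rw [haaa]; group)
    (by
      intro x
      apply Subtype.ext
      rw [hρv, hρv]
      calc s * (s * (x : G) * s⁻¹) * s⁻¹ = (s * s) * x * (s * s)⁻¹ := by group
        _ = x := by rw [hs2]; group)
    (by
      intro x
      apply Subtype.ext
      rw [hρv, hαv, hρv, hαv, hαv]
      calc s * (a * (s * (x : G) * s⁻¹) * a⁻¹) * s⁻¹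
          = (s * a * s⁻¹) * ((s * s) * x * (s * s)⁻¹) * (s * a * s⁻¹)⁻¹ := by group
        _ = a⁻¹ * x * a := by rw [hsas, hs2]; group
        _ = (a * a) * x * (a * a)⁻¹ := by rw [haa]; group
        _ = a * (a * (x : G) * a⁻¹) * a⁻¹ := by group)
    (by
      intro g x
      apply Subtype.ext
      simp only [Subgroup.coe_mul, Subgroup.coe_inv, Subgroup.coe_one, hαv]
      exact twist_cube (hta g g.2) (hta (x * g) (F.mul_mem x.2 g.2)))
    (by
      intro f
      apply Subtype.ext
      simp only [Subgroup.coe_pow, Subgroup.coe_mul, Subgroup.coe_one, hρv]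
      have e : (f : G) * (s * f * s⁻¹) = (f * s) * (f * s) * (s * s)⁻¹ := by group
      rw [e, hs2, inv_one, mul_one, ← pow_two, ← pow_mul]
      exact hts f f.2)
  refine ⟨F, hFn, ⟨⟨⟨fun x y => key.1 x y⟩⟩, ?_⟩, hquot⟩
  intro x hx
  have := key.2 ⟨x, hx⟩
  exact congrArg Subtype.val this

end CaseA

end Cfsg.Agent.Lib.Helper78.E4
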