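import Mathlib
import Cfsg.Agent.Lib.Helper78.E4c
import Cfsg.Agent.S0016

set_option autoImplicit false
set_option linter.style.haveILetI false
set_option linter.unusedSectionVars false

namespace Cfsg.Agent.Lib.Helper78.E4

section CaseB
variable {G : Type*} [Group G] [Finite G]

theorem caseB (ho : ∀ g : G, g ^ 4 = 1 ∨ g ^ 3 = 1) (x4 : G) (hx4 : orderOf x4 = 4)
    (A : Subgroup G) [A.Normal] [IsMulCommutative A] (hA : A ≠ ⊥) (hA3 : ∀ x ∈ A, x ^ 3 = 1) :
    ∃ (N : Subgroup G) (_ : N.Normal), Cfsg.IsElementaryAbelian 3 N ∧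
      ((IsCyclic (G ⧸ N) ∧ N.index = 4) ∨ Nonempty (G ⧸ N ≃* QuaternionGroup 2)) := by
  classical
  have : Fact (Nat.Prime 2) := ⟨by norm_num⟩
  obtain ⟨v0, hv0A, hv01⟩ : ∃ v ∈ A, v ≠ 1 := by
    by_contra hcon
    push Not at hcon
    apply hA
    rw [eq_bot_iff]
    intro v hv
    rw [Subgroup.mem_bot]
    exact hcon v hv
  have hAc : ∀ v ∈ A, ∀ w ∈ A, v * w = w * v := by
    intro v hv w hw
    have := IsMulCommutative.is_comm.comm (⟨v, hv⟩ : A) ⟨w, hw⟩
    exact congrArg Subtype.val this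
  have hx44 : x4 ^ 4 = 1 := by rw [← hx4]; exact pow_orderOf_eq_one x4
  set z : G := x4 ^ 2 with hzdef
  have hz2 : z * z = 1 := by
    rw [hzdef, ← pow_add]; exact hx44
  have hz1 : z ≠ 1 := by
    rw [hzdef]
    exact pow_ne_one_of_lt_orderOf (by norm_num) (by rw [hx4]; norm_num)
  have hz4 : z ^ 4 = 1 := by
    have e : z ^ 4 = (z * z) * (z * z) := by
      rw [show (4 : ℕ) = 2 + 2 from rfl, pow_add, pow_two]
    rw [e, hz2, one_mul]
  have hzi : z⁻¹ = z := inv_eq_of_mul_eq_one_left hz2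
  set C : Subgroup G := Subgroup.centralizer (A : Set G) with hCdef
  have hCn : C.Normal := inferInstance
  have hCmem : ∀ c ∈ C, ∀ v ∈ A, v * c = c * v := by
    intro c hc v hv
    exact Subgroup.mem_centralizer_iff.mp hc v hv
  have hC3 : ∀ c ∈ C, c ^ 3 = 1 := by
    intro c hc
    rcases ho c with h | h
    · by_cases hc1 : c = 1
      · rw [hc1, one_pow]
      · exfalso
        have hcomm : Commute c v0 := (hCmem c hc v0 hv0A).symm
        exact no6 ho hc1 h hv01 (hA3 v0 hv0A) hcomm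
    · exact h
  -- involutions invert A
  have hinv : ∀ u : G, u ≠ 1 → u * u = 1 → ∀ v ∈ A, u * v * u⁻¹ = v⁻¹ := by
    intro u hu1 hu2 v hv
    have hconj : u * v * u⁻¹ ∈ A := ‹A.Normal›.conj_mem v hv u
    have hwA : v * (u * v * u⁻¹) ∈ A := A.mul_mem hv hconj
    have hcomm : Commute u (v * (u * v * u⁻¹)) := by
      show u * (v * (u * v * u⁻¹)) = v * (u * v * u⁻¹) * u
      calc u * (v * (u * v * u⁻¹)) = (u * v * u⁻¹) * ((u * u) * v * (u * u)⁻¹) * u := by group
        _ = (u * v * u⁻¹) * v * u := by rw [hu2]; group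
        _ = v * (u * v * u⁻¹) * u := by rw [hAc _ hconj v hv]
    have hu4 : u ^ 4 = 1 := by
      have e : u ^ 4 = (u * u) * (u * u) := by
        rw [show (4 : ℕ) = 2 + 2 from rfl, pow_add, pow_two]
      rw [e, hu2, one_mul]
    have hw1 : v * (u * v * u⁻¹) = 1 := by
      by_contra hne
      exact no6 ho hu1 hu4 hne (hA3 _ hwA) hcomm
    exact eq_inv_of_mul_eq_one_right hw1
  have hprod : ∀ u u' : G, u ≠ 1 → u * u = 1 → u' ≠ 1 → u' * u' = 1 → u * u' ∈ C := by
    intro u u' hu1 hu2 hu1' hu2'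
    rw [hCdef, Subgroup.mem_centralizer_iff]
    intro v hv
    have h1 := hinv u' hu1' hu2' v hv
    have h2 := hinv u hu1 hu2 v⁻¹ (A.inv_mem hv)
    rw [inv_inv] at h2
    have h3 : (u * u') * v * (u * u')⁻¹ = v := by
      calc (u * u') * v * (u * u')⁻¹ = u * (u' * v * u'⁻¹) * u⁻¹ := by group
        _ = v := by rw [h1, h2]
    calc v * (u * u') = ((u * u') * v * (u * u')⁻¹) * (u * u') := by rw [h3]
      _ = u * u' * v := by group
  -- z inverts C
  have hzC : ∀ c ∈ C, z * c * z⁻¹ = c⁻¹ := by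
    intro c hc
    have hconj : z * c * z⁻¹ ∈ C := hCn.conj_mem c hc z
    rcases ho (z * c) with h | h
    · have he : (z * c * z⁻¹) * c ∈ C := C.mul_mem hconj hc
      have e2 : (z * c) * (z * c) = (z * c * z⁻¹) * (z * z) * c := by group
      rw [hz2, mul_one] at e2
      have e4 : ((z * c * z⁻¹) * c) ^ 4 = 1 := by
        rw [← e2, ← pow_two, ← pow_mul, mul_comm 2 4, pow_mul, h, one_pow]
      have e1 := eq_one_of_pow43 e4 (hC3 _ he)
      exact eq_inv_of_mul_eq_one_left e1
    · exfalso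
      have e : z * c = (z * c * z⁻¹) * z := by group
      rw [e] at h
      have h1 := mul_pow_mem_normal hconj z 3
      rw [h, one_mul] at h1
      have h2 : z ^ 3 ∈ C := by simpa using C.inv_mem h1
      have e3 : z ^ 3 = z := by rw [pow_succ, pow_two, hz2, one_mul]
      rw [e3] at h2
      exact hz1 (eq_one_of_pow43 hz4 (hC3 z h2))
  have hCcomm : ∀ c ∈ C, ∀ d ∈ C, c * d = d * c := by
    intro c hc d hd
    have h1 := hzC (c * d) (C.mul_mem hc hd)
    have h2 : z * (c * d) * z⁻¹ = (z * c * z⁻¹) * (z * d * z⁻¹) := by group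
    rw [h2, hzC c hc, hzC d hd] at h1
    -- c⁻¹ * d⁻¹ = (c * d)⁻¹
    have h3 : (d * c)⁻¹ = (c * d)⁻¹ := by
      rw [mul_inv_rev]; exact h1
    exact (inv_injective h3).symm
  set Q : Subgroup G := Subgroup.centralizer ({z} : Set G) with hQdef
  have hQmem : ∀ q ∈ Q, z * q = q * z := by
    intro q hq
    exact Subgroup.mem_centralizer_iff.mp hq z rfl
  have hQ4 : ∀ q ∈ Q, q ^ 4 = 1 := by
    intro q hq
    rcases ho q with h | h
    · exact h
    · by_cases hq1 : q = 1
      · rw [hq1, one_pow]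
      · exfalso
        exact no6 ho hz1 hz4 hq1 h (hQmem q hq)
  have hdecomp : ∀ g : G, ∃ c ∈ C, ∃ q ∈ Q, g = c * q := by
    intro g
    have hu1 : g * z * g⁻¹ ≠ 1 := by
      intro h
      apply hz1
      have e : z = g⁻¹ * (g * z * g⁻¹) * g := by group
      rw [e, h]; group
    have hu2 : (g * z * g⁻¹) * (g * z * g⁻¹) = 1 := by
      calc (g * z * g⁻¹) * (g * z * g⁻¹) = g * (z * z) * g⁻¹ := by group
        _ = 1 := by rw [hz2]; group
    have hc : z * (g * z * g⁻¹) ∈ C := hprod z _ hz1 hz2 hu1 hu2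
    set c := z * (g * z * g⁻¹) with hcdef
    have hc3 := hC3 c hc
    have hcc : c * c = c⁻¹ := by
      have : c * c * c = 1 := by rw [← hc3, pow_succ, pow_two]
      exact eq_inv_of_mul_eq_one_left this
    have h1 := hzC c hc
    have h1' : z * c⁻¹ * z⁻¹ = c := by
      have e : z * c⁻¹ * z⁻¹ = (z * c * z⁻¹)⁻¹ := by group
      rw [e, h1, inv_inv]
    have hkey : c * z * c⁻¹ = g * z * g⁻¹ := by
      calc c * z * c⁻¹ = c * (z * c⁻¹ * z⁻¹) * z := by group
        _ = c * c * z := by rw [h1']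
        _ = c⁻¹ * z := by rw [hcc]
        _ = (z * c * z⁻¹)⁻¹⁻¹ * z := by rw [h1, inv_inv]
        _ = z * c := by group
        _ = (z * z) * (g * z * g⁻¹) := by rw [hcdef]; group
        _ = g * z * g⁻¹ := by rw [hz2, one_mul]
    refine ⟨c, hc, c⁻¹ * g, ?_, by group⟩
    rw [hQdef, Subgroup.mem_centralizer_iff]
    intro y hy
    rw [Set.mem_singleton_iff] at hy
    rw [hy]
    calc z * (c⁻¹ * g) = c⁻¹ * (c * z * c⁻¹) * (c * c⁻¹) * g := by group
      _ = c⁻¹ * (g * z * g⁻¹) * (c * c⁻¹) * g := by rw [hkey]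
      _ = c⁻¹ * g * z := by group
  -- the quotient
  let ψ : Q →* G ⧸ C := (QuotientGroup.mk' C).comp Q.subtype
  have hψinj : Function.Injective ψ := by
    rw [injective_iff_map_eq_one]
    intro q hq
    have h1 : (q : G) ∈ C := (QuotientGroup.eq_one_iff (q : G)).mp hq
    exact Subtype.ext (eq_one_of_pow43 (hQ4 q q.2) (hC3 q h1))
  have hψsurj : Function.Surjective ψ := by
    intro y
    obtain ⟨g, rfl⟩ := QuotientGroup.mk_surjective y
    obtain ⟨c, hc, q, hq, rfl⟩ := hdecomp g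
    refine ⟨⟨q, hq⟩, ?_⟩
    show ((q : G) : G ⧸ C) = ((c * q : G) : G ⧸ C)
    rw [QuotientGroup.mk_mul, (QuotientGroup.eq_one_iff c).mpr hc, one_mul]
  let e : Q ≃* G ⧸ C := MulEquiv.ofBijective ψ ⟨hψinj, hψsurj⟩
  have hQp : IsPGroup 2 Q := fun q => ⟨2, Subtype.ext (by simpa using hQ4 q q.2)⟩
  have hzQ : z ∈ Q := by
    rw [hQdef, Subgroup.mem_centralizer_iff]
    intro y hy
    rw [Set.mem_singleton_iff] at hy
    rw [hy]
  have hnormA : Subgroup.normalizer (A : Set G) = ⊤ := Subgroup.normalizer_eq_top A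
  -- unique involution
  have hinvQ : ∀ t ∈ Q, t ≠ 1 → t * t = 1 → t = z := by
    intro t ht ht1 ht2
    set D := Subgroup.closure ({z, t} : Set G) with hD
    have hDQ : D ≤ Q := by
      rw [hD, Subgroup.closure_le]
      intro y hy
      rcases hy with rfl | rfl
      · exact hzQ
      · exact ht
    haveI : IsMulCommutative D := isMulCommutative_closure_pair (hQmem t ht)
    have hfpf : ∀ d ∈ D, d ≠ 1 → A ⊓ Subgroup.centralizer {d} = ⊥ := by
      intro d hd hd1
      rw [eq_bot_iff]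
      intro v hv
      rw [Subgroup.mem_inf, Subgroup.mem_centralizer_iff] at hv
      rw [Subgroup.mem_bot]
      by_contra hv1
      have hc : Commute d v := (hv.2 d rfl)
      exact no6 ho hd1 (hQ4 d (hDQ hd)) hv1 (hA3 v hv.1) hc
    have hcyc : IsCyclic D := Cfsg.Agent.S0041.result D A hA
      (by rw [hnormA]; exact le_top) hfpf (Or.inl inferInstance)
    have hzD : z ∈ D := Subgroup.subset_closure (by simp)
    have htD : t ∈ D := Subgroup.subset_closure (by simp)
    by_contra hne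
    haveI : Fintype D := Fintype.ofFinite D
    have hle := IsCyclic.card_pow_eq_one_le (α := D) (n := 2) (by norm_num)
    have hsub : ({1, ⟨z, hzD⟩, ⟨t, htD⟩} : Finset D) ⊆
        Finset.univ.filter (fun a : D => a ^ 2 = 1) := by
      intro y hy
      rw [Finset.mem_filter]
      refine ⟨Finset.mem_univ _, ?_⟩
      simp only [Finset.mem_insert, Finset.mem_singleton] at hy
      rcases hy with rfl | rfl | rfl
      · exact one_pow 2
      · exact Subtype.ext (by simp [pow_two, hz2])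
      · exact Subtype.ext (by simp [pow_two, ht2])
    have hc3 : ({1, ⟨z, hzD⟩, ⟨t, htD⟩} : Finset D).card = 3 := by
      rw [Finset.card_eq_three]
      refine ⟨1, ⟨z, hzD⟩, ⟨t, htD⟩, ?_, ?_, ?_, rfl⟩
      · intro h; exact hz1 (congrArg Subtype.val h).symm
      · intro h; exact ht1 (congrArg Subtype.val h).symm
      · intro h; exact hne (congrArg Subtype.val h).symm
    have := Finset.card_le_card hsub
    omega
  have hoz : orderOf (⟨z, hzQ⟩ : Q) = 2 := by
    apply orderOf_eq_prime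
    · exact Subtype.ext (by simp [pow_two, hz2])
    · intro h; exact hz1 (congrArg Subtype.val h)
  have huniq : ∀ H K : Subgroup Q, Nat.card H = 2 → Nat.card K = 2 → H = K := by
    have hone : ∀ H : Subgroup Q, Nat.card H = 2 → Subgroup.zpowers (⟨z, hzQ⟩ : Q) = H := by
      intro H hH
      have hnt : Nontrivial H := by
        rw [← Finite.one_lt_card_iff_nontrivial, hH]; norm_num
      obtain ⟨t, ht⟩ := exists_ne (1 : H)
      have ht2 : t ^ 2 = 1 := by rw [← hH]; exact pow_card_eq_one'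
      have ht2' : ((t : Q) : G) * ((t : Q) : G) = 1 := by
        have := congrArg (fun x : H => ((x : Q) : G)) ht2
        simpa [pow_two] using this
      have ht1' : ((t : Q) : G) ≠ 1 := by
        intro h
        apply ht
        apply Subtype.ext; apply Subtype.ext; exact h
      have h3 := hinvQ _ (t : Q).2 ht1' ht2'
      have hzH : (⟨z, hzQ⟩ : Q) ∈ H := by
        have : (⟨z, hzQ⟩ : Q) = (t : Q) := Subtype.ext h3.symm
        rw [this]; exact t.2
      apply Subgroup.eq_of_le_of_card_ge (Subgroup.zpowers_le.mpr hzH)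
      rw [Nat.card_zpowers, hoz, hH]
    intro H K hH hK
    rw [← hone H hH, ← hone K hK]
  have hx4Q : x4 ∈ Q := by
    rw [hQdef, Subgroup.mem_centralizer_iff]
    intro y hy
    rw [Set.mem_singleton_iff] at hy
    rw [hy, hzdef, ← pow_succ, ← pow_succ']
  have hox4 : orderOf (⟨x4, hx4Q⟩ : Q) = 4 := by
    rw [← hx4]; exact Subgroup.orderOf_mk x4 hx4Q
  have hcyc_case : IsCyclic Q → (IsCyclic (G ⧸ C) ∧ C.index = 4) := by
    intro hc
    refine ⟨isCyclic_of_surjective e e.surjective, ?_⟩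
    rw [Subgroup.index_eq_card, ← Nat.card_congr e.toEquiv]
    obtain ⟨d, hd⟩ := hc.exists_generator
    have hd4 : d ^ 4 = 1 := Subtype.ext (by simpa using hQ4 d d.2)
    have h1 : Nat.card Q ∣ 4 := by
      rw [← orderOf_eq_card_of_forall_mem_zpowers hd]
      exact orderOf_dvd_of_pow_eq_one hd4
    have h2 : 4 ∣ Nat.card Q := by
      rw [← hox4]; exact orderOf_dvd_natCard _
    exact Nat.dvd_antisymm h1 h2
  have hCelem : Cfsg.IsElementaryAbelian 3 C :=
    ⟨⟨⟨fun x y => Subtype.ext (hCcomm x x.2 y y.2)⟩⟩, hC3⟩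
  refine ⟨C, hCn, hCelem, ?_⟩
  rcases Cfsg.Agent.S0016.result 2 hQp huniq with hc | ⟨_, n, ⟨eq⟩⟩
  · exact Or.inl (hcyc_case hc)
  · have ha1 : orderOf (eq.symm (QuaternionGroup.a 1)) = 2 * 2 ^ n := by
      rw [MulEquiv.orderOf_eq, QuaternionGroup.orderOf_a_one]
    have h4 : (eq.symm (QuaternionGroup.a 1)) ^ 4 = 1 :=
      Subtype.ext (by simpa using hQ4 _ (eq.symm (QuaternionGroup.a 1)).2)
    have hdvd : 2 * 2 ^ n ∣ 4 := by
      rw [← ha1]; exact orderOf_dvd_of_pow_eq_one h4
    have hn : n ≤ 1 := by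
      by_contra hcon
      push Not at hcon
      have h8 : 2 * 2 ^ 2 ∣ 2 * 2 ^ n := Nat.mul_dvd_mul_left 2 (pow_dvd_pow 2 hcon)
      have := Nat.le_of_dvd (by norm_num) (h8.trans hdvd)
      norm_num at this
    interval_cases n
    · left
      rw [pow_zero] at eq
      haveI := QuaternionGroup.quaternionGroup_one_isCyclic
      exact hcyc_case (isCyclic_of_surjective eq.symm eq.symm.surjective)
    · right
      rw [pow_one] at eq
      exact ⟨e.symm.trans eq⟩

end CaseB

end Cfsg.Agent.Lib.Helper78.E4
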