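import Mathlib

namespace Cfsg.Agent.Lib.Helper44.ES

/-- the commutator map `x ↦ x⁻¹ (q x q⁻¹)` on an abelian subgroup normalised by `q`. -/
private def esnil_c {Q : Type*} [Group Q] (A : Subgroup Q) (q : Q)
    (hcomm : ∀ a ∈ A, ∀ b ∈ A, a * b = b * a) (hnorm : ∀ a ∈ A, q * a * q⁻¹ ∈ A) : A →* Q where
  toFun x := (x : Q)⁻¹ * (q * x * q⁻¹)
  map_one' := by simp
  map_mul' x y := by
    have hx := hnorm x x.2
    have hy := hnorm y y.2
    have h1 : (q * ((x : Q) * y) * q⁻¹) = (q * x * q⁻¹) * (q * y * q⁻¹) := by group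
    have h2 : (y : Q)⁻¹ * (q * x * q⁻¹) = (q * x * q⁻¹) * (y : Q)⁻¹ :=
      hcomm _ (A.inv_mem y.2) _ hx
    show ((x : Q) * y)⁻¹ * (q * ((x : Q) * y) * q⁻¹) = (x : Q)⁻¹ * (q * x * q⁻¹) * ((y : Q)⁻¹ * (q * y * q⁻¹))
    rw [h1, mul_inv_rev]
    calc (y : Q)⁻¹ * (x : Q)⁻¹ * (q * x * q⁻¹ * (q * y * q⁻¹))
        = (x : Q)⁻¹ * (y : Q)⁻¹ * (q * x * q⁻¹ * (q * y * q⁻¹)) := by
          rw [hcomm _ (A.inv_mem y.2) _ (A.inv_mem x.2)]
      _ = (x : Q)⁻¹ * ((y : Q)⁻¹ * (q * x * q⁻¹)) * (q * y * q⁻¹) := by simp only [mul_assoc]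
      _ = (x : Q)⁻¹ * ((q * x * q⁻¹) * (y : Q)⁻¹) * (q * y * q⁻¹) := by rw [h2]
      _ = _ := by simp only [mul_assoc]

theorem es_nil {Q : Type*} [Group Q] [Finite Q] (A : Subgroup Q) (q : Q) (r : ℕ) (hr : r.Prime)
    (hcomm : ∀ a ∈ A, ∀ b ∈ A, a * b = b * a) (hexp : ∀ a ∈ A, a ^ r = 1)
    (hnorm : ∀ a ∈ A, q * a * q⁻¹ ∈ A) (hq : q ^ r = 1) (hne : ∃ x ∈ A, q * x ≠ x * q) :
    ∃ x ∈ A, x⁻¹ * (q * x * q⁻¹) ≠ 1 ∧ q * (x⁻¹ * (q * x * q⁻¹)) = x⁻¹ * (q * x * q⁻¹) * q := by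
  classical
  have : Fact r.Prime := ⟨hr⟩
  set c := esnil_c A q hcomm hnorm with hc
  have hcdef : ∀ x : A, c x = (x : Q)⁻¹ * (q * x * q⁻¹) := fun x => rfl
  set B : Subgroup Q := c.range with hB
  have hBA : B ≤ A := by
    rintro _ ⟨x, rfl⟩
    rw [hcdef]
    exact A.mul_mem (A.inv_mem x.2) (hnorm x x.2)
  -- the acting group
  set K : Subgroup Q := Subgroup.normalizer (A : Set Q) ⊓ Subgroup.centralizer {q} with hK
  have hqK : q ∈ K := by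
    refine ⟨Subgroup.mem_normalizer_fintype (fun n hn => hnorm n hn), ?_⟩
    show q ∈ Subgroup.centralizer {q}
    rw [Subgroup.mem_centralizer_iff]
    intro h hh
    rw [Set.mem_singleton_iff] at hh
    rw [hh]
  have hKB : ∀ g ∈ K, ∀ b ∈ B, g * b * g⁻¹ ∈ B := by
    rintro g ⟨hg1, hg2⟩ _ ⟨x, rfl⟩
    have hgx : g * x * g⁻¹ ∈ A := (Subgroup.mem_normalizer_iff.mp hg1 x).mp x.2
    refine ⟨⟨g * x * g⁻¹, hgx⟩, ?_⟩
    rw [hcdef, hcdef]
    have hgq : q * g = g * q := by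
      replace hg2 : g ∈ Subgroup.centralizer {q} := hg2
      rw [Subgroup.mem_centralizer_iff] at hg2
      exact hg2 q rfl
    have hgq' : q⁻¹ * g⁻¹ = g⁻¹ * q⁻¹ := by
      rw [← mul_inv_rev, ← mul_inv_rev, hgq]
    show (g * (x : Q) * g⁻¹)⁻¹ * (q * (g * (x : Q) * g⁻¹) * q⁻¹) = g * ((x : Q)⁻¹ * (q * x * q⁻¹)) * g⁻¹
    calc (g * (x : Q) * g⁻¹)⁻¹ * (q * (g * (x : Q) * g⁻¹) * q⁻¹)
        = g * (x : Q)⁻¹ * g⁻¹ * ((q * g) * (x : Q) * (g⁻¹ * q⁻¹)) := by group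
      _ = g * (x : Q)⁻¹ * g⁻¹ * ((g * q) * (x : Q) * (q⁻¹ * g⁻¹)) := by rw [hgq, hgq']
      _ = _ := by group
  let act : MulAction K B :=
    { smul := fun g b => ⟨g * b * (g : Q)⁻¹, hKB g g.2 b b.2⟩
      one_smul := fun b => by
        apply Subtype.ext
        show ((1 : K) : Q) * b * ((1 : K) : Q)⁻¹ = b
        simp
      mul_smul := fun g h b => by
        apply Subtype.ext
        show ((g * h : K) : Q) * b * ((g * h : K) : Q)⁻¹ = g * (h * b * (h : Q)⁻¹) * (g : Q)⁻¹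
        simp [mul_assoc] }
  have hsmul : ∀ (g : K) (b : B), ((g • b : B) : Q) = g * b * (g : Q)⁻¹ := fun g b => rfl
  set q' : K := ⟨q, hqK⟩ with hq'
  set P : Subgroup K := Subgroup.zpowers q' with hP
  have hPp : IsPGroup r P := by
    rintro ⟨g, hg⟩
    obtain ⟨m, rfl⟩ := Subgroup.mem_zpowers_iff.mp hg
    refine ⟨1, ?_⟩
    apply Subtype.ext
    apply Subtype.ext
    simp only [pow_one, Subgroup.coe_pow, Subgroup.coe_zpow, Subgroup.coe_one, hq']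
    rw [← zpow_natCast, ← zpow_mul, mul_comm, zpow_mul, zpow_natCast, hq, one_zpow]
  have hBp : IsPGroup r B := by
    rintro ⟨b, hb⟩
    refine ⟨1, ?_⟩
    apply Subtype.ext
    simp only [pow_one, Subgroup.coe_pow, Subgroup.coe_one]
    exact hexp b (hBA hb)
  obtain ⟨x0, hx0A, hx0⟩ := hne
  have hBnt : Nat.card B ≠ 1 := by
    intro h1
    have : Subsingleton B := (Nat.card_eq_one_iff_unique.mp h1).1
    have hmem : c ⟨x0, hx0A⟩ ∈ B := ⟨_, rfl⟩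
    have h2 : (⟨c ⟨x0, hx0A⟩, hmem⟩ : B) = 1 := Subsingleton.elim _ _
    have h3 : c ⟨x0, hx0A⟩ = 1 := congrArg Subtype.val h2
    rw [hcdef] at h3
    apply hx0
    have h4 : q * x0 * q⁻¹ = x0 := by
      have := congrArg (fun t => x0 * t) h3
      simpa using this
    calc q * x0 = q * x0 * q⁻¹ * q := by group
      _ = x0 * q := by rw [h4]
  have hdvd : r ∣ Nat.card B := by
    rcases hBp.card_eq_or_dvd with h | h
    · exact absurd h hBnt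
    · exact h
  have hfix : (1 : B) ∈ MulAction.fixedPoints P B := by
    intro g
    apply Subtype.ext
    show (((g : K) • (1 : B) : B) : Q) = ((1 : B) : Q)
    rw [hsmul]
    simp
  obtain ⟨b, hbfix, hb1⟩ := hPp.exists_fixed_point_of_prime_dvd_card_of_fixed_point B hdvd hfix
  obtain ⟨x, hx⟩ := b.2
  have hbq : q * (b : Q) * q⁻¹ = b := by
    have := hbfix ⟨q', Subgroup.mem_zpowers q'⟩
    exact congrArg Subtype.val this
  refine ⟨x, x.2, ?_, ?_⟩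
  · rw [← hcdef, hx]
    intro h
    exact hb1 (Subtype.ext h.symm)
  · rw [← hcdef, hx]
    calc q * (b : Q) = q * b * q⁻¹ * q := by group
      _ = b * q := by rw [hbq]

end Cfsg.Agent.Lib.Helper44.ES
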