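import Mathlib
import Cfsg.Prelude.Def_GeometricClasses
import Cfsg.Prelude.Def_ClassicalGeometry
import Cfsg.Agent.Lib.Helper98.F75Defs
import Cfsg.Agent.Lib.Helper6.SpCard
import Cfsg.Agent.Lib.Helper18.Symp

/-!
S5975 piece F75-CENTDVD: the order of `Sp_{2e}(q^k)` divides the order of the normaliser of the
field subalgebra `K` in `Sp_{2d}(q)`.
-/

set_option autoImplicit false

namespace Cfsg.Agent.Lib.Helper98.F75

open Matrix Polynomial

/-- the subgroup of the general linear group commuting with `ρ` and preserving `B` -/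
def f75centdvd_S {F : Type*} [Field F] {d : ℕ} {L : Type*} [Field L] [Algebra F L]
    (ρ : L →ₐ[F] Matrix (Fin d ⊕ Fin d) (Fin d ⊕ Fin d) F)
    (B : (Fin d ⊕ Fin d → F) → (Fin d ⊕ Fin d → F) → L) :
    Subgroup (Matrix.GeneralLinearGroup (Fin d ⊕ Fin d) F) where
  carrier := {g | (∀ c : L, (g : Matrix (Fin d ⊕ Fin d) (Fin d ⊕ Fin d) F) * ρ c =
      ρ c * (g : Matrix (Fin d ⊕ Fin d) (Fin d ⊕ Fin d) F)) ∧
    ∀ u v, B ((g : Matrix (Fin d ⊕ Fin d) (Fin d ⊕ Fin d) F) *ᵥ u)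
      ((g : Matrix (Fin d ⊕ Fin d) (Fin d ⊕ Fin d) F) *ᵥ v) = B u v}
  mul_mem' := by
    rintro a b ⟨ha1, ha2⟩ ⟨hb1, hb2⟩
    refine ⟨fun c => ?_, fun u v => ?_⟩
    · rw [Units.val_mul, mul_assoc, hb1 c, ← mul_assoc, ha1 c, mul_assoc]
    · rw [Units.val_mul, ← Matrix.mulVec_mulVec, ← Matrix.mulVec_mulVec, ha2, hb2]
  one_mem' := ⟨fun c => by simp, fun u v => by simp⟩
  inv_mem' := by
    rintro a ⟨ha1, ha2⟩
    have e1 : ((a⁻¹ : Matrix.GeneralLinearGroup (Fin d ⊕ Fin d) F) :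
        Matrix (Fin d ⊕ Fin d) (Fin d ⊕ Fin d) F) *
        (a : Matrix (Fin d ⊕ Fin d) (Fin d ⊕ Fin d) F) = 1 := by
      rw [← Units.val_mul, inv_mul_cancel, Units.val_one]
    have e2 : (a : Matrix (Fin d ⊕ Fin d) (Fin d ⊕ Fin d) F) *
        ((a⁻¹ : Matrix.GeneralLinearGroup (Fin d ⊕ Fin d) F) :
        Matrix (Fin d ⊕ Fin d) (Fin d ⊕ Fin d) F) = 1 := by
      rw [← Units.val_mul, mul_inv_cancel, Units.val_one]
    refine ⟨fun c => ?_, fun u v => ?_⟩
    · have h := ha1 c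
      set A := (a : Matrix (Fin d ⊕ Fin d) (Fin d ⊕ Fin d) F) with hA
      set A' := ((a⁻¹ : Matrix.GeneralLinearGroup (Fin d ⊕ Fin d) F) :
        Matrix (Fin d ⊕ Fin d) (Fin d ⊕ Fin d) F) with hA'
      calc A' * ρ c = A' * ρ c * (A * A') := by rw [e2, mul_one]
        _ = A' * (ρ c * A) * A' := by simp only [mul_assoc]
        _ = A' * (A * ρ c) * A' := by rw [h]
        _ = (A' * A) * ρ c * A' := by simp only [mul_assoc]
        _ = ρ c * A' := by rw [e1, one_mul]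
    · have h := ha2 (((a⁻¹ : Matrix.GeneralLinearGroup (Fin d ⊕ Fin d) F) :
        Matrix (Fin d ⊕ Fin d) (Fin d ⊕ Fin d) F) *ᵥ u)
        (((a⁻¹ : Matrix.GeneralLinearGroup (Fin d ⊕ Fin d) F) :
        Matrix (Fin d ⊕ Fin d) (Fin d ⊕ Fin d) F) *ᵥ v)
      rw [Matrix.mulVec_mulVec, Matrix.mulVec_mulVec, e2, Matrix.one_mulVec,
        Matrix.one_mulVec] at h
      exact h.symm

theorem f75centdvd_S_le {F : Type*} [Field F] {d : ℕ} {L : Type*} [Field L] [Algebra F L]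
    (K : Subalgebra F (Matrix (Fin d ⊕ Fin d) (Fin d ⊕ Fin d) F))
    (ρ : L →ₐ[F] Matrix (Fin d ⊕ Fin d) (Fin d ⊕ Fin d) F)
    (hρ : ∀ a : Matrix (Fin d ⊕ Fin d) (Fin d ⊕ Fin d) F, a ∈ K ↔ ∃ c : L, ρ c = a)
    (φ : L →ₗ[F] F)
    (B : (Fin d ⊕ Fin d → F) → (Fin d ⊕ Fin d → F) → L) (hB : IsLForm ρ φ B) :
    f75centdvd_S ρ B ≤ Cfsg.Geo.subalgebraNormalizer K ⊓ Cfsg.spGL d F := by
  intro g hg
  have hginv : g⁻¹ ∈ f75centdvd_S ρ B := Subgroup.inv_mem _ hg
  obtain ⟨h1, h2⟩ := hg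
  obtain ⟨h1', -⟩ := hginv
  have e1 : ((g⁻¹ : Matrix.GeneralLinearGroup (Fin d ⊕ Fin d) F) :
      Matrix (Fin d ⊕ Fin d) (Fin d ⊕ Fin d) F) *
      (g : Matrix (Fin d ⊕ Fin d) (Fin d ⊕ Fin d) F) = 1 := by
    rw [← Units.val_mul, inv_mul_cancel, Units.val_one]
  have e2 : (g : Matrix (Fin d ⊕ Fin d) (Fin d ⊕ Fin d) F) *
      ((g⁻¹ : Matrix.GeneralLinearGroup (Fin d ⊕ Fin d) F) :
      Matrix (Fin d ⊕ Fin d) (Fin d ⊕ Fin d) F) = 1 := by
    rw [← Units.val_mul, mul_inv_cancel, Units.val_one]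
  refine ⟨?_, ?_⟩
  · intro k
    constructor
    · intro hk
      obtain ⟨c, rfl⟩ := (hρ k).mp hk
      rw [h1 c, mul_assoc, e2, mul_one]
      exact (hρ _).mpr ⟨c, rfl⟩
    · intro hk
      obtain ⟨c, hc⟩ := (hρ _).mp hk
      have h3 : k = ρ c := by
        have h4 : ((g⁻¹ : Matrix.GeneralLinearGroup (Fin d ⊕ Fin d) F) :
            Matrix (Fin d ⊕ Fin d) (Fin d ⊕ Fin d) F) * ρ c *
            (g : Matrix (Fin d ⊕ Fin d) (Fin d ⊕ Fin d) F) = k := by
          rw [hc]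
          calc ((g⁻¹ : Matrix.GeneralLinearGroup (Fin d ⊕ Fin d) F) :
                Matrix (Fin d ⊕ Fin d) (Fin d ⊕ Fin d) F) *
                ((g : Matrix (Fin d ⊕ Fin d) (Fin d ⊕ Fin d) F) * k *
                ((g⁻¹ : Matrix.GeneralLinearGroup (Fin d ⊕ Fin d) F) :
                Matrix (Fin d ⊕ Fin d) (Fin d ⊕ Fin d) F)) *
                (g : Matrix (Fin d ⊕ Fin d) (Fin d ⊕ Fin d) F)
              = (((g⁻¹ : Matrix.GeneralLinearGroup (Fin d ⊕ Fin d) F) :
                Matrix (Fin d ⊕ Fin d) (Fin d ⊕ Fin d) F) *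
                (g : Matrix (Fin d ⊕ Fin d) (Fin d ⊕ Fin d) F)) * k *
                (((g⁻¹ : Matrix.GeneralLinearGroup (Fin d ⊕ Fin d) F) :
                Matrix (Fin d ⊕ Fin d) (Fin d ⊕ Fin d) F) *
                (g : Matrix (Fin d ⊕ Fin d) (Fin d ⊕ Fin d) F)) := by
                simp only [mul_assoc]
            _ = k := by rw [e1, one_mul, mul_one]
        rw [← h4, h1' c, mul_assoc, e1, mul_one]
      rw [h3]
      exact (hρ _).mpr ⟨c, rfl⟩
  · intro u v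
    show Cfsg.sympForm d F ((g : Matrix (Fin d ⊕ Fin d) (Fin d ⊕ Fin d) F) *ᵥ u)
      ((g : Matrix (Fin d ⊕ Fin d) (Fin d ⊕ Fin d) F) *ᵥ v) = Cfsg.sympForm d F u v
    rw [← hB.form, ← hB.form, h2]

theorem cent_card_dvd {F : Type*} [Field F] [Fintype F] {q : ℕ} (hq : Fintype.card F = q)
    {d k e : ℕ} (hde : d = k * e) {L : Type*} [Field L] [Fintype L] [Algebra F L]
    (hL : Module.finrank F L = k)
    (K : Subalgebra F (Matrix (Fin d ⊕ Fin d) (Fin d ⊕ Fin d) F))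
    (ρ : L →ₐ[F] Matrix (Fin d ⊕ Fin d) (Fin d ⊕ Fin d) F)
    (hρ : ∀ a : Matrix (Fin d ⊕ Fin d) (Fin d ⊕ Fin d) F, a ∈ K ↔ ∃ c : L, ρ c = a)
    (φ : L →ₗ[F] F) (hφ : φ ≠ 0)
    (B : (Fin d ⊕ Fin d → F) → (Fin d ⊕ Fin d → F) → L) (hB : IsLForm ρ φ B) :
    (q ^ k) ^ (e ^ 2) * ∏ j ∈ Finset.range e, ((q ^ k) ^ (2 * (j + 1)) - 1) ∣
      Nat.card ↥(Cfsg.Geo.subalgebraNormalizer K ⊓ Cfsg.spGL d F) := by
  classical
  let f : L →+* Module.End F (Fin d ⊕ Fin d → F) :=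
    ((Matrix.toLinAlgEquiv' :
      Matrix (Fin d ⊕ Fin d) (Fin d ⊕ Fin d) F ≃ₐ[F] _).toAlgHom.comp ρ).toRingHom
  letI modL : Module L (Fin d ⊕ Fin d → F) := Module.compHom (Fin d ⊕ Fin d → F) f
  have hsmul : ∀ (c : L) (v : Fin d ⊕ Fin d → F), c • v = ρ c *ᵥ v := fun c v => rfl
  let B' : LinearMap.BilinForm L (Fin d ⊕ Fin d → F) :=
    LinearMap.mk₂ L B hB.add_left
      (fun c u v => by rw [hsmul, hB.smul_left, smul_eq_mul]) hB.add_right
      (fun c u v => by rw [hsmul, hB.smul_right, smul_eq_mul])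
  have hB'app : ∀ u v, B' u v = B u v := fun u v => rfl
  have hAlt : B'.IsAlt := fun v => hB.alt v
  have hSep : Cfsg.Agent.Lib.Helper6.SepL B' := by
    intro u hu
    apply (Cfsg.Agent.Lib.Helper18.sympB_nondegenerate (F := F) d).1 u
    intro v
    rw [Cfsg.Agent.Lib.Helper18.sympB_eq_sympForm, ← hB.form, ← hB'app, hu v, map_zero]
  have hcL : Fintype.card L = q ^ k := by
    rw [Module.card_eq_pow_finrank (K := F) (V := L), hq, hL]
  have hcV : Nat.card (Fin d ⊕ Fin d → F) = (q ^ k) ^ (2 * e) := by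
    rw [Nat.card_eq_fintype_card, Fintype.card_fun, Fintype.card_sum, Fintype.card_fin, hq, hde,
      ← pow_mul]
    congr 1; ring
  have hiso := Cfsg.Agent.Lib.Helper6.card_isom (F := L) (q ^ k) hcL e (Fin d ⊕ Fin d → F) B'
    hAlt hSep hcV
  have hS : Nat.card ↥(f75centdvd_S ρ B) = Nat.card (Cfsg.Agent.Lib.Helper6.Isom B') := by
    refine Nat.card_congr (Equiv.ofBijective
      (fun g => ⟨{ toFun := fun v =>
                    ((g : Matrix.GeneralLinearGroup (Fin d ⊕ Fin d) F) :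
                      Matrix (Fin d ⊕ Fin d) (Fin d ⊕ Fin d) F) *ᵥ v
                   map_add' := fun u v => Matrix.mulVec_add _ u v
                   map_smul' := fun c v => by
                    simp only [RingHom.id_apply]
                    rw [hsmul, hsmul, Matrix.mulVec_mulVec, Matrix.mulVec_mulVec, g.2.1 c] },
                 fun x y => g.2.2 x y⟩) ⟨?_, ?_⟩)
    · intro g g' h
      have h1 : ∀ v, ((g : Matrix.GeneralLinearGroup (Fin d ⊕ Fin d) F) :
          Matrix (Fin d ⊕ Fin d) (Fin d ⊕ Fin d) F) *ᵥ v =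
          ((g' : Matrix.GeneralLinearGroup (Fin d ⊕ Fin d) F) :
          Matrix (Fin d ⊕ Fin d) (Fin d ⊕ Fin d) F) *ᵥ v := fun v => by
        have := congrArg (fun t : Cfsg.Agent.Lib.Helper6.Isom B' => t.1 v) h
        exact this
      apply Subtype.ext
      apply Units.ext
      exact Matrix.mulVec_injective (funext h1)
    · rintro ⟨h, hh⟩
      have hFs : ∀ (a : F) (v : Fin d ⊕ Fin d → F), (algebraMap F L a) • v = a • v := by
        intro a v
        rw [hsmul, AlgHom.commutes, Algebra.algebraMap_eq_smul_one, Matrix.smul_mulVec,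
          Matrix.one_mulVec]
      let hF : (Fin d ⊕ Fin d → F) →ₗ[F] (Fin d ⊕ Fin d → F) :=
        { toFun := fun v => h v
          map_add' := fun u v => h.map_add u v
          map_smul' := fun a v => by
            simp only [RingHom.id_apply]
            rw [← hFs, h.map_smul, hFs] }
      set M := LinearMap.toMatrix' hF with hM
      have hMv : ∀ v, M *ᵥ v = h v := fun v => by
        rw [hM, LinearMap.toMatrix'_mulVec]
        rfl
      have hinj : Function.Injective M.mulVec := by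
        intro u v huv
        have h0 : h (u - v) = 0 := by
          rw [map_sub, ← hMv, ← hMv]; exact sub_eq_zero.mpr huv
        have : u - v = 0 := hSep _ (fun w => by
          rw [← hh (u - v) w, h0, map_zero, LinearMap.zero_apply])
        exact sub_eq_zero.mp this
      have hU : IsUnit M := Matrix.mulVec_injective_iff_isUnit.mp hinj
      have hUv : (hU.unit : Matrix (Fin d ⊕ Fin d) (Fin d ⊕ Fin d) F) = M := IsUnit.unit_spec hU
      refine ⟨⟨hU.unit, ?_, ?_⟩, ?_⟩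
      · intro c
        rw [hUv]
        apply Matrix.mulVec_injective
        funext v
        rw [← Matrix.mulVec_mulVec, ← Matrix.mulVec_mulVec, hMv, hMv, ← hsmul, ← hsmul,
          h.map_smul]
      · intro u v
        rw [hUv, hMv, hMv]
        exact hh u v
      · apply Subtype.ext
        apply LinearMap.ext
        intro v
        show (hU.unit : Matrix (Fin d ⊕ Fin d) (Fin d ⊕ Fin d) F) *ᵥ v = h v
        rw [hUv, hMv]
  rw [← hiso, ← hS]
  exact Subgroup.card_dvd_of_le (f75centdvd_S_le K ρ hρ φ B hB)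

end Cfsg.Agent.Lib.Helper98.F75
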