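import Cfsg.Agent.Lib.Helper98.H74Defs
import Cfsg.Agent.Lib.Helper77.H74HYPTYP
import Cfsg.Agent.Lib.Helper40.H74COMPL
import Cfsg.Agent.Lib.Helper28.H74TOP
import Cfsg.Agent.Lib.Helper43.H74SUMalt

/-!
# Project H74 (helper98, S5974), piece K4

Characteristic 2, `g * g = 1` an isometry of a `+`-type space `V` of dimension `2n + 2 ≥ 4`:
there is an invariant `+`-type subspace of dimension 4.  `k4_rel` takes the sibling pieces
HYPTYP, SUM, COMPL, TOP as hypotheses; `k4` is the skeleton statement.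
-/

set_option autoImplicit false

namespace Cfsg.Agent.Lib.Helper98.H74

open Cfsg.Agent.Lib.Helper47 Cfsg.Agent.Lib.Helper98.T73 Module Polynomial

universe u

variable {F : Type u} [Field F] [Fintype F] {V : Type u} [AddCommGroup V] [Module F V]
  [FiniteDimensional F V] {Q : V → F} {B : V → V → F}

omit [Fintype F] in
private theorem k4_two [CharP F 2] : (2 : F) = 0 := by
  have h := CharP.cast_eq_zero F 2
  exact_mod_cast h

omit [Fintype F] [FiniteDimensional F V] in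
/-- a pair with nonzero product spans a nondegenerate plane -/
private theorem k4_plane [CharP F 2] (hQ : IsQuad Q B) (x y : V) (hxy : B x y ≠ 0) :
    Nondeg (resForm B (Submodule.span F {x, y})) ∧
      finrank F (Submodule.span F {x, y}) = 2 := by
  have hB := hQ.form
  have h2 : (2 : F) = 0 := k4_two
  have hxx : B x x = 0 := by rw [hQ.self, h2, zero_mul]
  have hyy : B y y = 0 := by rw [hQ.self, h2, zero_mul]
  have hyx : B y x = B x y := sym_comm hB x y
  have key : ∀ a b : F, B (a • x + b • y) y = a * B x y ∧ B (a • x + b • y) x = b * B x y := by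
    intro a b
    constructor
    · rw [hB.add_left, hB.smul_left, hB.smul_left, hyy, mul_zero, add_zero]
    · rw [hB.add_left, hB.smul_left, hB.smul_left, hxx, hyx, mul_zero, zero_add]
  have key0 : ∀ a b : F, a • x + b • y = 0 → a = 0 ∧ b = 0 := by
    intro a b hab
    have h1 := (key a b).1
    have h2' := (key a b).2
    rw [hab, hB.zero_left] at h1 h2'
    constructor
    · rcases mul_eq_zero.mp h1.symm with h | h
      · exact h
      · exact absurd h hxy
    · rcases mul_eq_zero.mp h2'.symm with h | h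
      · exact h
      · exact absurd h hxy
  constructor
  · intro w hw
    obtain ⟨a, b, hab⟩ := Submodule.mem_span_pair.mp w.2
    have h1 : B (w : V) y = 0 := hw ⟨y, Submodule.subset_span (by simp)⟩
    have h2' : B (w : V) x = 0 := hw ⟨x, Submodule.subset_span (by simp)⟩
    rw [← hab] at h1 h2'
    rw [(key a b).1] at h1
    rw [(key a b).2] at h2'
    have ha : a = 0 := by
      rcases mul_eq_zero.mp h1 with h | h
      · exact h
      · exact absurd h hxy
    have hb : b = 0 := by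
      rcases mul_eq_zero.mp h2' with h | h
      · exact h
      · exact absurd h hxy
    apply Subtype.ext
    rw [← hab, ha, hb]
    simp
  · have hli : LinearIndependent F ![x, y] := by
      rw [LinearIndependent.pair_iff]
      exact key0
    have h := finrank_span_eq_card hli
    rw [Matrix.range_cons_cons_empty] at h
    simpa using h

/-- a nondegenerate plane has a type -/
private theorem k4_plane_typ (hf : QFacts F) (hQ : IsQuad Q B) (P : Submodule F V)
    (hPnd : Nondeg (resForm B P)) (hPd : finrank F P = 2) :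
    ∃ ε : ℤ, (ε = 1 ∨ ε = -1) ∧ SubTyp Q B P 0 ε := by
  have h := hf.typ_exists 0 P (fun w : P => Q (w : V)) (resForm B P) (hQ.res P) hPnd
    (by rw [hPd])
  rcases h with h | h
  · exact ⟨1, Or.inl rfl, hPnd, by rw [hPd], h⟩
  · exact ⟨-1, Or.inr rfl, hPnd, by rw [hPd], h⟩

omit [FiniteDimensional F V] in
/-- PEEL: a nonzero nondegenerate invariant subspace contains an invariant nondegenerate plane
or an invariant `+`-type 4-space. -/
private theorem k4_peel [CharP F 2] (hQ : IsQuad Q B)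
    (hyp : ∀ W : Submodule F V, HypM Q (2 * 1 + 2) W → SubTyp Q B W 1 1)
    (g : Module.End F V) (hgQ : QI Q g) (hg : g * g = 1) (X : Submodule F V)
    (hXnd : Nondeg (resForm B X)) (hXg : X.map g ≤ X) (hX0 : X ≠ ⊥) :
    (∃ P : Submodule F V, P ≤ X ∧ P.map g ≤ P ∧ Nondeg (resForm B P) ∧ finrank F P = 2) ∨
    (∃ H : Submodule F V, H ≤ X ∧ H.map g ≤ H ∧ SubTyp Q B H 1 1) := by
  classical
  have hB := hQ.form
  have h2 : (2 : F) = 0 := k4_two
  have hneg : ∀ a : F, -a = a := fun a => by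
    have h : a + a = 0 := by rw [← two_mul, h2, zero_mul]
    exact neg_eq_of_add_eq_zero_left h
  have hvv : ∀ v : V, v + v = 0 := fun v => by rw [← two_smul F v, h2, zero_smul]
  have hgg : ∀ v, g (g v) = v := fun v => by
    have h := LinearMap.congr_fun hg v
    simpa using h
  have hgi : ∀ x y, B (g x) (g y) = B x y := hQ.isometry hQ g hgQ
  have hxx : ∀ x, B x x = 0 := fun x => by rw [hQ.self, h2, zero_mul]
  obtain ⟨N, hNdef⟩ : ∃ N : Module.End F V, ∀ v, N v = g v - v := ⟨g - 1, fun v => by simp⟩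
  have hgN : ∀ v, g v = v + N v := fun v => by rw [hNdef]; abel
  have hNN : ∀ v, N (N v) = 0 := fun v => by
    rw [hNdef (N v), hNdef v, map_sub, hgg]
    calc v - g v - (g v - v) = (v + v) - (g v + g v) := by abel
      _ = 0 := by rw [hvv, hvv, sub_zero]
  have hNX : ∀ v ∈ X, N v ∈ X := fun v hv => by
    rw [hNdef]
    exact X.sub_mem (hXg (Submodule.mem_map_of_mem hv)) hv
  have hBN : ∀ u v, B (N u) v = B u (N v) := by
    intro u v
    rw [hNdef, hNdef, hB.sub_left, hB.sub_right]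
    have h : B (g u) v = B u (g v) := by
      have h' := hgi (g u) v
      rw [hgg] at h'
      exact h'.symm
    rw [h]
  have hBNN : ∀ u v, B (N u) (N v) = 0 := fun u v => by
    rw [hBN, hNN, hB.zero_right]
  have hQN : ∀ v, Q (N v) = B v (N v) := by
    intro v
    have h := hQ.sub_one_apply g hgQ v
    have e : (g - 1) v = N v := by rw [hNdef]; simp
    rw [e, hneg] at h
    rw [h]
    exact sym_comm hB v (N v)
  have hnd' : ∀ x ∈ X, x ≠ 0 → ∃ y ∈ X, B x y ≠ 0 := by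
    intro x hxX hx0
    by_contra hcon
    push Not at hcon
    have h := hXnd ⟨x, hxX⟩ (fun y => hcon y y.2)
    exact hx0 (congrArg Subtype.val h)
  by_cases hc1 : ∃ v ∈ X, B v (N v) ≠ 0
  · obtain ⟨v, hvX, hv⟩ := hc1
    left
    obtain ⟨hPnd, hPd⟩ := k4_plane hQ v (N v) hv
    refine ⟨Submodule.span F {v, N v}, ?_, ?_, hPnd, hPd⟩
    · rw [Submodule.span_le]
      intro w hw
      simp only [Set.mem_insert_iff, Set.mem_singleton_iff] at hw
      rcases hw with h | h
      · rw [h]; exact hvX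
      · rw [h]; exact hNX v hvX
    · rw [Submodule.map_span, Submodule.span_le]
      rintro w ⟨z, hz, rfl⟩
      simp only [Set.mem_insert_iff, Set.mem_singleton_iff] at hz
      rcases hz with h | h
      · rw [h, hgN]
        exact Submodule.add_mem _ (Submodule.subset_span (by simp))
          (Submodule.subset_span (by simp))
      · rw [h, hgN, hNN, add_zero]
        exact Submodule.subset_span (by simp)
  push Not at hc1
  by_cases hc2 : ∀ v ∈ X, N v = 0
  · obtain ⟨x, hxX, hx0⟩ := Submodule.exists_mem_ne_zero_of_ne_bot hX0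
    obtain ⟨y, hyX, hxy⟩ := hnd' x hxX hx0
    left
    obtain ⟨hPnd, hPd⟩ := k4_plane hQ x y hxy
    refine ⟨Submodule.span F {x, y}, ?_, ?_, hPnd, hPd⟩
    · rw [Submodule.span_le]
      intro w hw
      simp only [Set.mem_insert_iff, Set.mem_singleton_iff] at hw
      rcases hw with h | h
      · rw [h]; exact hxX
      · rw [h]; exact hyX
    · rw [Submodule.map_span, Submodule.span_le]
      rintro w ⟨z, hz, rfl⟩
      simp only [Set.mem_insert_iff, Set.mem_singleton_iff] at hz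
      rcases hz with h | h
      · rw [h, hgN, hc2 x hxX, add_zero]
        exact Submodule.subset_span (by simp)
      · rw [h, hgN, hc2 y hyX, add_zero]
        exact Submodule.subset_span (by simp)
  push Not at hc2
  obtain ⟨u, huX, hNu⟩ := hc2
  obtain ⟨v', hv'X, hv'⟩ := hnd' (N u) (hNX u huX) hNu
  obtain ⟨v, hvX, h1⟩ : ∃ v ∈ X, B (N u) v = 1 := by
    refine ⟨(B (N u) v')⁻¹ • v', X.smul_mem _ hv'X, ?_⟩
    rw [hB.smul_right, RingHom.id_apply, inv_mul_cancel₀ hv']
  right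
  -- the Gram data
  have e1 : B u (N u) = 0 := hc1 u huX
  have e2 : B v (N v) = 0 := hc1 v hvX
  have e3 : B u (N v) = 1 := by rw [← hBN, h1]
  have e4 : B v (N u) = 1 := by rw [sym_comm hB (N u) v, h1]
  have e5 : B (N v) u = 1 := by rw [sym_comm hB u (N v), e3]
  have e6 : B (N u) u = 0 := by rw [sym_comm hB u (N u), e1]
  have e7 : B (N v) v = 0 := by rw [sym_comm hB v (N v), e2]
  have hkey : ∀ a b c d : F,
      B (a • u + b • v + c • N u + d • N v) (N u) = b ∧
      B (a • u + b • v + c • N u + d • N v) (N v) = a ∧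
      B (a • u + b • v + c • N u + d • N v) v = a * B u v + c ∧
      B (a • u + b • v + c • N u + d • N v) u = b * B v u + d := by
    intro a b c d
    refine ⟨?_, ?_, ?_, ?_⟩
    · rw [hB.add_left, hB.add_left, hB.add_left, hB.smul_left, hB.smul_left, hB.smul_left,
        hB.smul_left, e1, e4, hBNN, hBNN]
      ring
    · rw [hB.add_left, hB.add_left, hB.add_left, hB.smul_left, hB.smul_left, hB.smul_left,
        hB.smul_left, e3, e2, hBNN, hBNN]
      ring
    · rw [hB.add_left, hB.add_left, hB.add_left, hB.smul_left, hB.smul_left, hB.smul_left,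
        hB.smul_left, hxx v, h1, e7]
      ring
    · rw [hB.add_left, hB.add_left, hB.add_left, hB.smul_left, hB.smul_left, hB.smul_left,
        hB.smul_left, hxx u, e6, e5]
      ring
  have hkey0 : ∀ a b c d : F, a • u + b • v + c • N u + d • N v = 0 →
      a = 0 ∧ b = 0 ∧ c = 0 ∧ d = 0 := by
    intro a b c d h0
    obtain ⟨k1, k2, k3, k4'⟩ := hkey a b c d
    rw [h0, hB.zero_left] at k1 k2 k3 k4'
    have ha : a = 0 := k2.symm
    have hb : b = 0 := k1.symm
    rw [ha, zero_mul, zero_add] at k3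
    rw [hb, zero_mul, zero_add] at k4'
    exact ⟨ha, hb, k3.symm, k4'.symm⟩
  obtain ⟨w, hw⟩ : ∃ w : Fin 4 → V, w = ![u, v, N u, N v] := ⟨_, rfl⟩
  have hw0 : w 0 = u := by rw [hw]; rfl
  have hw1 : w 1 = v := by rw [hw]; rfl
  have hw2 : w 2 = N u := by rw [hw]; rfl
  have hw3 : w 3 = N v := by rw [hw]; rfl
  have hsum : ∀ c : Fin 4 → F, ∑ i, c i • w i = c 0 • u + c 1 • v + c 2 • N u + c 3 • N v := by
    intro c
    rw [Fin.sum_univ_four, hw0, hw1, hw2, hw3]
  have hli : LinearIndependent F w := by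
    rw [Fintype.linearIndependent_iff]
    intro c hc
    rw [hsum] at hc
    obtain ⟨h0, h1', h2', h3⟩ := hkey0 _ _ _ _ hc
    intro i
    fin_cases i
    · exact h0
    · exact h1'
    · exact h2'
    · exact h3
  have hHmem : ∀ i, w i ∈ Submodule.span F (Set.range w) :=
    fun i => Submodule.subset_span ⟨i, rfl⟩
  have hwX : ∀ i, w i ∈ X := by
    intro i
    fin_cases i
    · exact hw0 ▸ huX
    · exact hw1 ▸ hvX
    · exact hw2 ▸ hNX u huX
    · exact hw3 ▸ hNX v hvX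
  have hHX : Submodule.span F (Set.range w) ≤ X := by
    rw [Submodule.span_le]
    rintro z ⟨i, rfl⟩
    exact hwX i
  have hmu : u ∈ Submodule.span F (Set.range w) := hw0 ▸ hHmem 0
  have hmv : v ∈ Submodule.span F (Set.range w) := hw1 ▸ hHmem 1
  have hmNu : N u ∈ Submodule.span F (Set.range w) := hw2 ▸ hHmem 2
  have hmNv : N v ∈ Submodule.span F (Set.range w) := hw3 ▸ hHmem 3
  have hHg : (Submodule.span F (Set.range w)).map g ≤ Submodule.span F (Set.range w) := by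
    rw [Submodule.map_span, Submodule.span_le]
    rintro z ⟨z', ⟨i, rfl⟩, rfl⟩
    fin_cases i
    · show g (w 0) ∈ _
      rw [hw0, hgN]
      exact Submodule.add_mem _ hmu hmNu
    · show g (w 1) ∈ _
      rw [hw1, hgN]
      exact Submodule.add_mem _ hmv hmNv
    · show g (w 2) ∈ _
      rw [hw2, hgN, hNN, add_zero]
      exact hmNu
    · show g (w 3) ∈ _
      rw [hw3, hgN, hNN, add_zero]
      exact hmNv
  refine ⟨Submodule.span F (Set.range w), hHX, hHg, hyp _ ⟨?_, ?_, ?_⟩⟩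
  · have h := finrank_span_eq_card hli
    rw [h]
    simp
  · intro s hs hs0
    obtain ⟨c, hc⟩ := (Submodule.mem_span_range_iff_exists_fun F).mp hs
    rw [hsum] at hc
    by_contra hcon
    push Not at hcon
    have hpol : ∀ z, QuadraticMap.polar Q s z = B s z := by
      intro z
      unfold QuadraticMap.polar
      rw [hQ.polar]
      ring
    have p0 : B s u = 0 := by rw [← hpol]; exact hcon u hmu
    have p1 : B s v = 0 := by rw [← hpol]; exact hcon v hmv
    have p2 : B s (N u) = 0 := by rw [← hpol]; exact hcon (N u) hmNu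
    have p3 : B s (N v) = 0 := by rw [← hpol]; exact hcon (N v) hmNv
    obtain ⟨k1, k2, k3, k4'⟩ := hkey (c 0) (c 1) (c 2) (c 3)
    rw [hc] at k1 k2 k3 k4'
    rw [p2] at k1
    rw [p3] at k2
    rw [p1, ← k2, zero_mul, zero_add] at k3
    rw [p0, ← k1, zero_mul, zero_add] at k4'
    apply hs0
    rw [← hc, ← k1, ← k2, ← k3, ← k4']
    simp
  · refine ⟨Submodule.span F {N u, N v}, ?_, ?_, ?_⟩
    · rw [Submodule.span_le]
      intro z hz
      simp only [Set.mem_insert_iff, Set.mem_singleton_iff] at hz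
      rcases hz with h | h
      · rw [h]; exact hmNu
      · rw [h]; exact hmNv
    · have hli2 : LinearIndependent F ![N u, N v] := by
        rw [LinearIndependent.pair_iff]
        intro a b hab
        have h0 : (0 : F) • u + (0 : F) • v + a • N u + b • N v = 0 := by
          rw [zero_smul, zero_smul, zero_add, zero_add, hab]
        obtain ⟨-, -, h2', h3⟩ := hkey0 _ _ _ _ h0
        exact ⟨h2', h3⟩
      have h := finrank_span_eq_card hli2
      rw [Matrix.range_cons_cons_empty] at h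
      rw [h]
      simp
    · intro z hz
      obtain ⟨a, b, hab⟩ := Submodule.mem_span_pair.mp hz
      have hz' : z = N (a • u + b • v) := by
        rw [map_add, map_smul, map_smul, hab]
      rw [hz', hQN]
      exact hc1 _ (X.add_mem (X.smul_mem _ huX) (X.smul_mem _ hvX))

/-- K4 (relative to the sibling pieces HYPTYP, SUM, COMPL, TOP, passed as hypotheses). -/
theorem k4_rel (hf : QFacts F) [CharP F 2] (hQ : IsQuad Q B) (hnd : Nondeg B) (n : ℕ) (hn : 1 ≤ n)
    (hdim : finrank F V = 2 * n + 2) (htyp : IsTyp Q n 1) (g : Module.End F V) (hgQ : QI Q g)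
    (hg : g * g = 1)
    (hyp : ∀ W : Submodule F V, HypM Q (2 * 1 + 2) W → SubTyp Q B W 1 1)
    (hsum : ∀ (X Y : Submodule F V), (∀ x ∈ X, ∀ y ∈ Y, B x y = 0) → ∀ (k₁ k₂ : ℕ) (ε₁ ε₂ : ℤ),
      SubTyp Q B X k₁ ε₁ → SubTyp Q B Y k₂ ε₂ → SubTyp Q B (X ⊔ Y) (k₁ + k₂ + 1) (ε₁ * ε₂))
    (hcompl : ∀ (d : ℕ), finrank F V = 2 * d → ∀ ε : ℤ, IsTyp Q (d - 1) ε →
      ∀ (X : Submodule F V) (k : ℕ) (τ : ℤ), SubTyp Q B X k τ → k + 2 ≤ d →
      ∃ Y : Submodule F V, (∀ x ∈ X, ∀ y ∈ Y, B x y = 0) ∧ X ⊔ Y = ⊤ ∧ X ⊓ Y = ⊥ ∧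
        SubTyp Q B Y (d - k - 2) (ε * τ) ∧
        ∀ g : Module.End F V, QI Q g → X.map g ≤ X → Y.map g ≤ Y)
    (htop : ∀ (K W : Submodule F V) (e k : ℕ) (η τ : ℤ), SubTyp Q B K e η → SubTyp Q B W k τ →
      W ≤ K → k ≤ e ∧ (k = e → τ = η)) :
    ∃ H : Submodule F V, H.map g ≤ H ∧ SubTyp Q B H 1 1 := by
  have hdim' : finrank F V = 2 * (n + 1) := by rw [hdim]; ring
  have htyp' : IsTyp Q (n + 1 - 1) 1 := by rw [Nat.add_sub_cancel]; exact htyp
  have htopnd : Nondeg (resForm B (⊤ : Submodule F V)) := by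
    intro x hx
    have h : (x : V) = 0 := hnd x (fun y => hx ⟨y, trivial⟩)
    exact Subtype.ext h
  have htopne : (⊤ : Submodule F V) ≠ ⊥ := by
    intro h
    have h1 : finrank F (⊤ : Submodule F V) = 0 := by rw [h]; exact finrank_bot F V
    rw [finrank_top] at h1
    omega
  have hne_of : ∀ (Y : Submodule F V) (k : ℕ) (ε : ℤ), SubTyp Q B Y k ε → Y ≠ ⊥ := by
    intro Y k ε hY h
    have h1 : finrank F Y = 0 := by rw [h]; exact finrank_bot F V
    rw [hY.2.1] at h1
    omega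
  have hsq : ∀ a b : ℤ, (a = 1 ∨ a = -1) → (b = 1 ∨ b = -1) → a * b ≠ 1 → a * b = -1 := by
    intro a b ha hb hab
    rcases ha with ha | ha <;> rcases hb with hb | hb <;> rw [ha, hb] at hab ⊢ <;> simp at hab ⊢
  -- first plane
  rcases k4_peel hQ hyp g hgQ hg ⊤ htopnd le_top htopne with
    ⟨P₁, -, hP₁g, hP₁nd, hP₁d⟩ | ⟨H, -, hHg, hH⟩
  swap
  · exact ⟨H, hHg, hH⟩
  obtain ⟨ε₁, hε₁, hP₁⟩ := k4_plane_typ hf hQ P₁ hP₁nd hP₁d
  obtain ⟨Y, hYo, -, -, hYtyp, hYinv⟩ := hcompl (n + 1) hdim' 1 htyp' P₁ 0 ε₁ hP₁ (by omega)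
  have hYg : Y.map g ≤ Y := hYinv g hgQ hP₁g
  -- second plane
  rcases k4_peel hQ hyp g hgQ hg Y hYtyp.1 hYg (hne_of Y _ _ hYtyp) with
    ⟨P₂, hP₂Y, hP₂g, hP₂nd, hP₂d⟩ | ⟨H, -, hHg, hH⟩
  swap
  · exact ⟨H, hHg, hH⟩
  obtain ⟨ε₂, hε₂, hP₂⟩ := k4_plane_typ hf hQ P₂ hP₂nd hP₂d
  have h12 : ∀ x ∈ P₁, ∀ y ∈ P₂, B x y = 0 := fun x hx y hy => hYo x hx y (hP₂Y hy)
  have hS12 : SubTyp Q B (P₁ ⊔ P₂) (0 + 0 + 1) (ε₁ * ε₂) := hsum P₁ P₂ h12 0 0 ε₁ ε₂ hP₁ hP₂
  have h12g : (P₁ ⊔ P₂).map g ≤ P₁ ⊔ P₂ := by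
    rw [Submodule.map_sup]
    exact sup_le_sup hP₁g hP₂g
  by_cases he : ε₁ * ε₂ = 1
  · rw [he] at hS12
    exact ⟨P₁ ⊔ P₂, h12g, hS12⟩
  have he' : ε₁ * ε₂ = -1 := hsq ε₁ ε₂ hε₁ hε₂ he
  have hn2 : 2 ≤ n := by
    by_contra hlt
    have hn1 : n = 1 := by omega
    rw [hn1] at hYtyp
    have h := (htop Y P₂ (1 + 1 - 0 - 2) 0 (1 * ε₁) ε₂ hYtyp hP₂ hP₂Y).2 (by norm_num)
    apply he
    rw [h, one_mul]
    rcases hε₁ with h' | h' <;> rw [h'] <;> norm_num
  -- third plane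
  obtain ⟨Y', hY'o, -, -, hY'typ, hY'inv⟩ :=
    hcompl (n + 1) hdim' 1 htyp' (P₁ ⊔ P₂) (0 + 0 + 1) (ε₁ * ε₂) hS12 (by omega)
  have hY'g : Y'.map g ≤ Y' := hY'inv g hgQ h12g
  rcases k4_peel hQ hyp g hgQ hg Y' hY'typ.1 hY'g (hne_of Y' _ _ hY'typ) with
    ⟨P₃, hP₃Y, hP₃g, hP₃nd, hP₃d⟩ | ⟨H, -, hHg, hH⟩
  swap
  · exact ⟨H, hHg, hH⟩
  obtain ⟨ε₃, hε₃, hP₃⟩ := k4_plane_typ hf hQ P₃ hP₃nd hP₃d
  have h13 : ∀ x ∈ P₁, ∀ y ∈ P₃, B x y = 0 :=
    fun x hx y hy => hY'o x (Submodule.mem_sup_left hx) y (hP₃Y hy)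
  have h23 : ∀ x ∈ P₂, ∀ y ∈ P₃, B x y = 0 :=
    fun x hx y hy => hY'o x (Submodule.mem_sup_right hx) y (hP₃Y hy)
  by_cases he13 : ε₁ * ε₃ = 1
  · have hS := hsum P₁ P₃ h13 0 0 ε₁ ε₃ hP₁ hP₃
    rw [he13] at hS
    refine ⟨P₁ ⊔ P₃, ?_, hS⟩
    rw [Submodule.map_sup]
    exact sup_le_sup hP₁g hP₃g
  · have he23 : ε₂ * ε₃ = 1 := by
      rcases hε₁ with h1 | h1 <;> rcases hε₂ with h2 | h2 <;> rcases hε₃ with h3 | h3 <;>
        rw [h1, h2] at he' <;> rw [h1, h3] at he13 <;> rw [h2, h3] <;> simp at he' he13 ⊢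
    have hS := hsum P₂ P₃ h23 0 0 ε₂ ε₃ hP₂ hP₃
    rw [he23] at hS
    refine ⟨P₂ ⊔ P₃, ?_, hS⟩
    rw [Submodule.map_sup]
    exact sup_le_sup hP₂g hP₃g

/-- K4 -/
theorem k4 (hf : QFacts F) [CharP F 2] (hQ : IsQuad Q B) (hnd : Nondeg B) (n : ℕ) (hn : 1 ≤ n)
    (hdim : finrank F V = 2 * n + 2) (htyp : IsTyp Q n 1) (g : Module.End F V) (hgQ : QI Q g)
    (hg : g * g = 1) : ∃ H : Submodule F V, H.map g ≤ H ∧ SubTyp Q B H 1 1 := by
  haveI : Fact (Nat.Prime 2) := ⟨Nat.prime_two⟩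
  exact k4_rel hf hQ hnd n hn hdim htyp g hgQ hg
    (fun W hW => (hyp_iff hf hQ 2 W 1).mp hW)
    (fun X Y h k₁ k₂ ε₁ ε₂ hX hY => subtyp_sup_alt hf hQ X Y h k₁ k₂ ε₁ ε₂ hX hY)
    (fun d hd ε hε X k τ hX hk => subtyp_compl hf hQ hnd d hd ε hε X k τ hX hk)
    (fun K W e k η τ hK hW hWK => subtyp_le hQ K W e k η τ hK hW hWK)

end Cfsg.Agent.Lib.Helper98.H74
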