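import Cfsg.Agent.Lib.Helper78.HarDefs

/-!
# S1235 piece B5III (helper78, project HAR): no section of exponent two of order 32 with `P = ⊤`
-/

set_option autoImplicit false

namespace Cfsg.Agent.Lib.Helper78.Har

/-- The conjugates of `b` under a subgroup `K` number at least `|K| / |C_K(b)|`. -/
theorem card_le_range_conj_inf {X : Type*} [Group X] [Finite X] (K : Subgroup X) (b : X) :
    Nat.card K ≤ (Set.range (fun k : K => (k : X) * b * (k : X)⁻¹)).ncard *
      Nat.card ↥(K ⊓ Subgroup.centralizer ({b} : Set X)) := by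
  classical
  let φ : K → X := fun n => (n : X) * b * (n : X)⁻¹
  let s : X → K := fun a => if h : ∃ n0 : K, φ n0 = a then h.choose else 1
  have hs : ∀ n : K, φ (s (φ n)) = φ n := by
    intro n
    have h : ∃ n0 : K, φ n0 = φ n := ⟨n, rfl⟩
    have h1 : s (φ n) = h.choose := dif_pos h
    rw [h1]
    exact h.choose_spec
  have hmem : ∀ n : K, ((s (φ n) : K) : X)⁻¹ * (n : X) ∈ K ⊓ Subgroup.centralizer ({b} : Set X) := by
    intro n
    have hc : ((s (φ n) : K) : X)⁻¹ * (n : X) ∈ Subgroup.centralizer ({b} : Set X) := by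
      rw [Subgroup.mem_centralizer_iff]
      intro z hz
      rw [Set.mem_singleton_iff] at hz
      subst hz
      have h1 : ((s (φ n) : K) : X) * z * ((s (φ n) : K) : X)⁻¹ = (n : X) * z * (n : X)⁻¹ := hs n
      calc z * (((s (φ n) : K) : X)⁻¹ * (n : X))
          = ((s (φ n) : K) : X)⁻¹ * (((s (φ n) : K) : X) * z * ((s (φ n) : K) : X)⁻¹) * (n : X) := by
            group
        _ = ((s (φ n) : K) : X)⁻¹ * ((n : X) * z * (n : X)⁻¹) * (n : X) := by rw [h1]
        _ = ((s (φ n) : K) : X)⁻¹ * (n : X) * z := by group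
    exact ⟨K.mul_mem (K.inv_mem (s (φ n)).2) n.2, hc⟩
  let F : K → Set.range φ × ↥(K ⊓ Subgroup.centralizer ({b} : Set X)) :=
    fun n => (⟨φ n, n, rfl⟩, ⟨_, hmem n⟩)
  have hF : Function.Injective F := by
    intro n n' hnn
    have h1 : φ n = φ n' := congrArg
      (fun p : Set.range φ × ↥(K ⊓ Subgroup.centralizer ({b} : Set X)) =>
        ((p.1 : Set.range φ) : X)) hnn
    have h2 : ((s (φ n) : K) : X)⁻¹ * (n : X) = ((s (φ n') : K) : X)⁻¹ * (n' : X) := congrArg
      (fun p : Set.range φ × ↥(K ⊓ Subgroup.centralizer ({b} : Set X)) =>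
        ((p.2 : ↥(K ⊓ Subgroup.centralizer ({b} : Set X))) : X)) hnn
    rw [h1] at h2
    exact Subtype.ext (mul_left_cancel h2)
  have hcard := Nat.card_le_card_of_injective F hF
  rw [Nat.card_prod, Nat.card_coe_set_eq] at hcard
  exact hcard

-- PIECE B5III
theorem no_sec128 {X : Type*} [Group X] [Finite X] (T T' N : Subgroup X) (g : X)
    (hc : Conf X T T' N g) (h128 : Nat.card X = 128)
    (M : Subgroup X) (hn : ∀ x : X, ∀ m ∈ M, x * m * x⁻¹ ∈ M)
    (hsq : ∀ x : X, x ^ 2 ∈ M) (hM : Nat.card M = 4) : False := by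
  classical
  obtain ⟨hN1, hN2, hgN, hT'g, hTN, hT'N, hN64, hT16, hT'16, hT2, hT'2, hW4, hdec, hfixT,
    hfixT', hCT, hCT'⟩ := hc
  -- commutators lie in M
  have hcomm : ∀ x y : X, x * y * x⁻¹ * y⁻¹ ∈ M := fun x y =>
    comm_mem_of_sq ⊤ M (fun x _ => hsq x) (Subgroup.mem_top x) (Subgroup.mem_top y)
  -- an element of T outside T'
  have hex : ∃ t ∈ T, t ∉ T' := by
    by_contra hall
    push Not at hall
    have hle : T ≤ T' := hall
    have h1 : T ⊓ T' = T := inf_eq_left.mpr hle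
    rw [h1, hT16] at hW4
    omega
  obtain ⟨t, htT, htT'⟩ := hex
  have hfix := hfixT' t (hTN htT) htT'
  have hcount := card_le_range_conj_inf T' t
  rw [hfix, hW4, hT'16] at hcount
  -- the set of commutators
  have hsub : (fun a : X => a * t⁻¹) '' (Set.range (fun k : ↥T' => (k : X) * t * (k : X)⁻¹))
      ⊆ (M : Set X) := by
    rintro _ ⟨_, ⟨k, rfl⟩, rfl⟩
    exact hcomm (k : X) t
  have hsubT : (fun a : X => a * t⁻¹) '' (Set.range (fun k : ↥T' => (k : X) * t * (k : X)⁻¹))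
      ⊆ (T : Set X) := by
    rintro _ ⟨_, ⟨k, rfl⟩, rfl⟩
    have hkN : (k : X) ∈ Subgroup.normalizer (T : Set X) := hN1 ▸ hT'N k.2
    have h1 : (k : X) * t * (k : X)⁻¹ ∈ T := (Subgroup.mem_normalizer_iff.mp hkN t).mp htT
    exact T.mul_mem h1 (T.inv_mem htT)
  have hinj : Function.Injective (fun a : X => a * t⁻¹) := fun a b hab => mul_right_cancel hab
  have hncard : ((fun a : X => a * t⁻¹) ''
      (Set.range (fun k : ↥T' => (k : X) * t * (k : X)⁻¹))).ncard
      = (Set.range (fun k : ↥T' => (k : X) * t * (k : X)⁻¹)).ncard :=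
    Set.ncard_image_of_injective _ hinj
  have hMc : (M : Set X).ncard = Nat.card M := rfl
  have heq : (fun a : X => a * t⁻¹) '' (Set.range (fun k : ↥T' => (k : X) * t * (k : X)⁻¹))
      = (M : Set X) := by
    apply Set.eq_of_subset_of_ncard_le hsub _ (Set.toFinite _)
    rw [hncard, hMc, hM]
    omega
  have hMT : M ≤ T := by
    intro m hm
    have h1 : m ∈ (M : Set X) := hm
    rw [← heq] at h1
    exact hsubT h1
  -- g normalizes T
  have hgT : ∀ t0 ∈ T, g * t0 * g⁻¹ ∈ T := by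
    intro t0 ht0
    have h1 : g * t0 * g⁻¹ * t0⁻¹ ∈ T := hMT (hcomm g t0)
    have h2 : g * t0 * g⁻¹ = g * t0 * g⁻¹ * t0⁻¹ * t0 := by group
    rw [h2]
    exact T.mul_mem h1 ht0
  apply hgN
  rw [hN1, Subgroup.mem_normalizer_iff_map_conj_eq]
  apply Subgroup.eq_of_le_of_card_ge
  · rintro _ ⟨t0, ht0, rfl⟩
    exact hgT t0 ht0
  · exact le_of_eq (Nat.card_congr ((MulAut.conj g).subgroupMap T).toEquiv)

end Cfsg.Agent.Lib.Helper78.Har
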