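import Cfsg.Agent.Lib.Helper78.HarDefs

/-!
# S1235 piece CONJ1 (helper78, project HAR): a conjugate `T' = g T g⁻¹ ≠ T` normalized by `N(T)`
-/

set_option autoImplicit false

namespace Cfsg.Agent.Lib.Helper78.Har

-- PIECE CONJ1
theorem exists_conj {X : Type*} [Group X] [Finite X] (hX : IsPGroup 2 X) (T B : Subgroup X)
    (h : E16Hyp X T B) (hnn : Subgroup.normalizer (T : Set X) ≠ ⊤) :
    ∃ (g : X) (T' B' : Subgroup X), g ∉ Subgroup.normalizer (T : Set X) ∧
      (∀ x : X, x ∈ T' ↔ g⁻¹ * x * g ∈ T) ∧ E16Hyp X T' B' ∧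
      T' ≤ Subgroup.normalizer (T : Set X) ∧
      Subgroup.normalizer (T' : Set X) = Subgroup.normalizer (T : Set X) := by
  obtain ⟨hT16, hT2, hBT, hB4, hcb⟩ := h
  have hnil : Group.IsNilpotent X := hX.isNilpotent
  have hnc : NormalizerCondition X := Group.normalizerCondition_of_isNilpotent
  have hlt := hnc (Subgroup.normalizer (T : Set X)) (lt_top_iff_ne_top.mpr hnn)
  obtain ⟨g, hgNN, hgN⟩ := SetLike.exists_of_lt hlt
  have hmem : ∀ (K : Subgroup X) (x : X),
      x ∈ K.map (MulAut.conj g).toMonoidHom ↔ g⁻¹ * x * g ∈ K := by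
    intro K x
    rw [Subgroup.mem_map_equiv]
    simp [MulAut.conj_symm_apply]
  have hcard : ∀ K : Subgroup X, Nat.card ↥(K.map (MulAut.conj g).toMonoidHom) = Nat.card K := by
    intro K
    exact Nat.card_congr ((MulAut.conj g).subgroupMap K).symm.toEquiv
  refine ⟨g, T.map (MulAut.conj g).toMonoidHom, B.map (MulAut.conj g).toMonoidHom, hgN,
    hmem T, ?_, ?_, ?_⟩
  · refine ⟨?_, ?_, ?_, ?_, ?_⟩
    · rw [hcard, hT16]
    · intro t ht
      rw [hmem] at ht
      have h1 := hT2 _ ht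
      have h2 : g⁻¹ * t ^ 2 * g = 1 := by
        rw [← h1]; simp only [pow_two]; group
      have h3 : t ^ 2 = g * (g⁻¹ * t ^ 2 * g) * g⁻¹ := by group
      rw [h3, h2]; group
    · exact Subgroup.map_mono hBT
    · rw [hcard, hB4]
    · intro b hb hb1 y hy
      rw [hmem] at hb ⊢
      have hb1' : g⁻¹ * b * g ≠ 1 := by
        intro h1
        apply hb1
        have h3 : b = g * (g⁻¹ * b * g) * g⁻¹ := by group
        rw [h3, h1]; group
      apply hcb _ hb hb1'
      rw [Subgroup.mem_centralizer_iff] at hy ⊢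
      intro z hz
      rw [Set.mem_singleton_iff] at hz
      subst hz
      have h1 := hy b (Set.mem_singleton b)
      calc g⁻¹ * b * g * (g⁻¹ * y * g) = g⁻¹ * (b * y) * g := by group
        _ = g⁻¹ * (y * b) * g := by rw [h1]
        _ = g⁻¹ * y * g * (g⁻¹ * b * g) := by group
  · intro t ht
    rw [hmem] at ht
    have htN : g⁻¹ * t * g ∈ Subgroup.normalizer (T : Set X) := Subgroup.le_normalizer ht
    have h1 := (Subgroup.mem_normalizer_iff.mp hgNN (g⁻¹ * t * g)).mp htN
    have h2 : g * (g⁻¹ * t * g) * g⁻¹ = t := by group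
    rw [h2] at h1
    exact h1
  · have h1 := Subgroup.map_equiv_normalizer_eq T (MulAut.conj g)
    rw [← h1]
    exact Subgroup.mem_normalizer_iff_map_conj_eq.mp hgNN

end Cfsg.Agent.Lib.Helper78.Har
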