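import Cfsg.Agent.Lib.Helper78.HarDefs

/-!
# S1235 piece CONJ2 (helper78, project HAR): the configuration `N(T) = T T'` of order 64
-/

set_option autoImplicit false

namespace Cfsg.Agent.Lib.Helper78.Har

/-- Counting the product set `T T'`. -/
theorem card_prod_le_range_mul {X : Type*} [Group X] [Finite X] (T T' : Subgroup X) :
    Nat.card T * Nat.card T' ≤
      (Set.range (fun p : ↥T × ↥T' => (p.1 : X) * (p.2 : X))).ncard * Nat.card ↥(T ⊓ T') := by
  classical
  let φ : ↥T × ↥T' → X := fun p => (p.1 : X) * (p.2 : X)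
  let s : X → ↥T × ↥T' := fun a => if h : ∃ p : ↥T × ↥T', φ p = a then h.choose else (1, 1)
  have hs : ∀ p : ↥T × ↥T', φ (s (φ p)) = φ p := by
    intro p
    have h : ∃ q : ↥T × ↥T', φ q = φ p := ⟨p, rfl⟩
    have h1 : s (φ p) = h.choose := dif_pos h
    rw [h1]
    exact h.choose_spec
  have hmem : ∀ p : ↥T × ↥T', (((s (φ p)).1 : ↥T) : X)⁻¹ * (p.1 : X) ∈ T ⊓ T' := by
    intro p
    have h1 : (((s (φ p)).1 : ↥T) : X) * (((s (φ p)).2 : ↥T') : X) = (p.1 : X) * (p.2 : X) := hs p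
    refine ⟨T.mul_mem (T.inv_mem (s (φ p)).1.2) p.1.2, ?_⟩
    have h2 : (((s (φ p)).1 : ↥T) : X)⁻¹ * (p.1 : X)
        = (((s (φ p)).2 : ↥T') : X) * (p.2 : X)⁻¹ := by
      have h3 : (p.1 : X) = (((s (φ p)).1 : ↥T) : X) * (((s (φ p)).2 : ↥T') : X) * (p.2 : X)⁻¹ := by
        rw [h1]; group
      rw [h3]; group
    rw [h2]
    exact T'.mul_mem (s (φ p)).2.2 (T'.inv_mem p.2.2)
  let F : ↥T × ↥T' → Set.range φ × ↥(T ⊓ T') := fun p => (⟨φ p, p, rfl⟩, ⟨_, hmem p⟩)
  have hF : Function.Injective F := by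
    intro p q hpq
    have h1 : φ p = φ q :=
      congrArg (fun r : Set.range φ × ↥(T ⊓ T') => ((r.1 : Set.range φ) : X)) hpq
    have h2 : (((s (φ p)).1 : ↥T) : X)⁻¹ * (p.1 : X) = (((s (φ q)).1 : ↥T) : X)⁻¹ * (q.1 : X) :=
      congrArg (fun r : Set.range φ × ↥(T ⊓ T') => ((r.2 : ↥(T ⊓ T')) : X)) hpq
    rw [h1] at h2
    have h3 : (p.1 : X) = (q.1 : X) := mul_left_cancel h2
    have h4 : (p.1 : X) * (p.2 : X) = (q.1 : X) * (q.2 : X) := h1
    rw [h3] at h4
    have h5 : (p.2 : X) = (q.2 : X) := mul_left_cancel h4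
    exact Prod.ext (Subtype.ext h3) (Subtype.ext h5)
  have hcard := Nat.card_le_card_of_injective F hF
  rw [Nat.card_prod, Nat.card_prod, Nat.card_coe_set_eq] at hcard
  exact hcard

-- PIECE CONJ2
theorem conf_of_conj {X : Type*} [Group X] [Finite X] (hX : IsPGroup 2 X)
    (T B T' B' : Subgroup X) (g : X) (h : E16Hyp X T B) (h' : E16Hyp X T' B')
    (hg : g ∉ Subgroup.normalizer (T : Set X)) (hT' : ∀ x : X, x ∈ T' ↔ g⁻¹ * x * g ∈ T)
    (hT'N : T' ≤ Subgroup.normalizer (T : Set X))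
    (hNN : Subgroup.normalizer (T' : Set X) = Subgroup.normalizer (T : Set X))
    (hfix : ∀ y : X, y ∉ T → Nat.card ↥(T ⊓ Subgroup.centralizer ({y} : Set X)) ≤ 4)
    (hfix' : ∀ y : X, y ∉ T' → Nat.card ↥(T' ⊓ Subgroup.centralizer ({y} : Set X)) ≤ 4)
    (hN64 : Nat.card ↥(Subgroup.normalizer (T : Set X)) ≤ 64) :
    Conf X T T' (Subgroup.normalizer (T : Set X)) g := by
  classical
  obtain ⟨hT16, hT2, hBT, hB4, hcb⟩ := h
  obtain ⟨hT'16, hT'2, hB'T', hB'4, hcb'⟩ := h'
  have hTN : T ≤ Subgroup.normalizer (T : Set X) := Subgroup.le_normalizer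
  -- T' ≠ T
  have hne : T' ≠ T := by
    intro heq
    apply hg
    have h1 : g⁻¹ ∈ Subgroup.normalizer (T : Set X) := by
      rw [Subgroup.mem_normalizer_iff]
      intro x
      rw [inv_inv, ← hT' x, heq]
    have h2 := Subgroup.inv_mem _ h1
    rwa [inv_inv] at h2
  -- an element of T' outside T
  have hex : ∃ t' ∈ T', t' ∉ T := by
    by_contra hall
    push Not at hall
    have hle : T' ≤ T := hall
    exact hne (Subgroup.eq_of_le_of_card_ge hle (by rw [hT16, hT'16]))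
  obtain ⟨t0, ht0, ht0T⟩ := hex
  -- the intersection commutes with T and T'
  have hWT : ∀ w ∈ T ⊓ T', ∀ t ∈ T, w * t = t * w :=
    fun w hw t ht => comm_of_sq T hT2 hw.1 ht
  have hWT' : ∀ w ∈ T ⊓ T', ∀ t ∈ T', w * t = t * w :=
    fun w hw t ht => comm_of_sq T' hT'2 hw.2 ht
  have hW4 : Nat.card ↥(T ⊓ T') ≤ 4 := by
    have hle : T ⊓ T' ≤ T ⊓ Subgroup.centralizer ({t0} : Set X) := by
      intro w hw
      have hwc : w ∈ Subgroup.centralizer ({t0} : Set X) := by
        rw [Subgroup.mem_centralizer_iff]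
        intro z hz
        rw [Set.mem_singleton_iff] at hz
        subst hz
        exact (hWT' w hw z ht0).symm
      exact ⟨hw.1, hwc⟩
    exact le_trans (Subgroup.card_le_of_le hle) (hfix t0 ht0T)
  -- counting
  have hcount := card_prod_le_range_mul T T'
  rw [hT16, hT'16] at hcount
  have hrange_sub : Set.range (fun p : ↥T × ↥T' => (p.1 : X) * (p.2 : X))
      ⊆ (Subgroup.normalizer (T : Set X) : Set X) := by
    rintro _ ⟨p, rfl⟩
    exact Subgroup.mul_mem _ (hTN p.1.2) (hT'N p.2.2)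
  have hNc : ((Subgroup.normalizer (T : Set X) : Subgroup X) : Set X).ncard
      = Nat.card ↥(Subgroup.normalizer (T : Set X)) := rfl
  have hrange_le : (Set.range (fun p : ↥T × ↥T' => (p.1 : X) * (p.2 : X))).ncard
      ≤ Nat.card ↥(Subgroup.normalizer (T : Set X)) := by
    rw [← hNc]
    exact Set.ncard_le_ncard hrange_sub (Set.toFinite _)
  have hW4' : Nat.card ↥(T ⊓ T') = 4 := by
    have h1 : (Set.range (fun p : ↥T × ↥T' => (p.1 : X) * (p.2 : X))).ncard
        * Nat.card ↥(T ⊓ T') ≤ 64 * Nat.card ↥(T ⊓ T') :=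
      Nat.mul_le_mul_right _ (le_trans hrange_le hN64)
    omega
  have hrange64 : 64 ≤ (Set.range (fun p : ↥T × ↥T' => (p.1 : X) * (p.2 : X))).ncard := by
    rw [hW4'] at hcount
    omega
  have hN64' : Nat.card ↥(Subgroup.normalizer (T : Set X)) = 64 := by omega
  have hrange_eq : Set.range (fun p : ↥T × ↥T' => (p.1 : X) * (p.2 : X))
      = (Subgroup.normalizer (T : Set X) : Set X) := by
    apply Set.eq_of_subset_of_ncard_le hrange_sub _ (Set.toFinite _)
    rw [hNc]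
    omega
  have hdecomp : ∀ n ∈ Subgroup.normalizer (T : Set X), ∃ t ∈ T, ∃ t' ∈ T', n = t * t' := by
    intro n hn
    have h1 : n ∈ Set.range (fun p : ↥T × ↥T' => (p.1 : X) * (p.2 : X)) := by
      rw [hrange_eq]; exact hn
    obtain ⟨p, hp⟩ := h1
    exact ⟨p.1, p.1.2, p.2, p.2.2, hp.symm⟩
  -- the intersection centralizes N
  have hWN : ∀ w ∈ T ⊓ T', ∀ y ∈ Subgroup.normalizer (T : Set X),
      w ∈ Subgroup.centralizer ({y} : Set X) := by
    intro w hw y hy
    obtain ⟨t, ht, t', ht', rfl⟩ := hdecomp y hy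
    rw [Subgroup.mem_centralizer_iff]
    intro z hz
    rw [Set.mem_singleton_iff] at hz
    subst hz
    calc t * t' * w = t * (t' * w) := by group
      _ = t * (w * t') := by rw [hWT' w hw t' ht']
      _ = (t * w) * t' := by group
      _ = (w * t) * t' := by rw [hWT w hw t ht]
      _ = w * (t * t') := by group
  -- an element b ≠ 1 of B and of B'
  have hexB : ∀ (K : Subgroup X), Nat.card K = 4 → ∃ b ∈ K, b ≠ 1 := by
    intro K hK
    by_contra hall
    push Not at hall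
    have hKbot : K = ⊥ := by
      rw [eq_bot_iff]
      intro b hb
      rw [Subgroup.mem_bot]
      exact hall b hb
    rw [hKbot] at hK
    simp at hK
  refine ⟨rfl, hNN.symm, hg, hT', hTN, hT'N, hN64', hT16, hT'16, hT2, hT'2, hW4', hdecomp,
    ?_, ?_, ?_, ?_⟩
  · intro y hy hyT
    have hle : T ⊓ T' ≤ T ⊓ Subgroup.centralizer ({y} : Set X) :=
      fun w hw => ⟨hw.1, hWN w hw y hy⟩
    exact (Subgroup.eq_of_le_of_card_ge hle (by rw [hW4']; exact hfix y hyT)).symm
  · intro y hy hyT'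
    have hle : T ⊓ T' ≤ T' ⊓ Subgroup.centralizer ({y} : Set X) :=
      fun w hw => ⟨hw.2, hWN w hw y hy⟩
    exact (Subgroup.eq_of_le_of_card_ge hle (by rw [hW4']; exact hfix' y hyT')).symm
  · obtain ⟨b, hb, hb1⟩ := hexB B hB4
    intro c hc
    apply hcb b hb hb1
    rw [Subgroup.mem_centralizer_iff] at hc ⊢
    intro z hz
    rw [Set.mem_singleton_iff] at hz
    subst hz
    exact hc z (hBT hb)
  · obtain ⟨b, hb, hb1⟩ := hexB B' hB'4
    intro c hc
    apply hcb' b hb hb1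
    rw [Subgroup.mem_centralizer_iff] at hc ⊢
    intro z hz
    rw [Set.mem_singleton_iff] at hz
    subst hz
    exact hc z (hB'T' hb)

end Cfsg.Agent.Lib.Helper78.Har
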