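import Cfsg.Agent.Lib.Helper78.HarDefs

/-!
# S1235 piece FIX (helper78, project HAR): fixed points of an element outside `T`
-/

set_option autoImplicit false

namespace Cfsg.Agent.Lib.Helper78.Har

-- PIECE FIX
theorem card_fix_le {X : Type*} [Group X] [Finite X] (T B : Subgroup X) (h : E16Hyp X T B)
    (y : X) (hy : y ∉ T) : Nat.card ↥(T ⊓ Subgroup.centralizer ({y} : Set X)) ≤ 4 := by
  obtain ⟨hT16, hT2, hBT, hB4, hcb⟩ := h
  have hdisj : ∀ b ∈ B, b ∈ T ⊓ Subgroup.centralizer ({y} : Set X) → b = 1 := by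
    intro b hb hbC
    by_contra hb1
    have hyb : y ∈ Subgroup.centralizer ({b} : Set X) := by
      rw [Subgroup.mem_centralizer_iff]
      intro z hz
      rw [Set.mem_singleton_iff] at hz
      subst hz
      exact ((Subgroup.mem_centralizer_iff.mp hbC.2) y (Set.mem_singleton y)).symm
    exact hy (hcb b hb hb1 hyb)
  let f : ↥(T ⊓ Subgroup.centralizer ({y} : Set X)) × ↥B → ↥T :=
    fun p => ⟨(p.1 : X) * (p.2 : X), T.mul_mem p.1.2.1 (hBT p.2.2)⟩
  have hf : Function.Injective f := by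
    rintro ⟨c1, b1⟩ ⟨c2, b2⟩ heq
    have heq' : (c1 : X) * (b1 : X) = (c2 : X) * (b2 : X) := congrArg Subtype.val heq
    have h1 : (b2 : X) * (b1 : X)⁻¹ = (c2 : X)⁻¹ * (c1 : X) := by
      have h2 : (c1 : X) = (c2 : X) * (b2 : X) * (b1 : X)⁻¹ := by
        rw [← heq']; group
      rw [h2]; group
    have h3 : (b2 : X) * (b1 : X)⁻¹ = 1 := by
      apply hdisj _ (B.mul_mem b2.2 (B.inv_mem b1.2))
      rw [h1]
      exact Subgroup.mul_mem _ (Subgroup.inv_mem _ c2.2) c1.2
    have hb : (b2 : X) = (b1 : X) := mul_inv_eq_one.mp h3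
    have hc : (c1 : X) = (c2 : X) := by
      rw [hb] at heq'
      exact mul_right_cancel heq'
    exact Prod.ext (Subtype.ext hc) (Subtype.ext hb.symm)
  have hcard := Nat.card_le_card_of_injective f hf
  rw [Nat.card_prod, hB4, hT16] at hcard
  omega

end Cfsg.Agent.Lib.Helper78.Har
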