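import Cfsg.Agent.Lib.Helper78.HarDefs

/-!
# S1235 piece NORM (helper78, project HAR): `|N_X(T) : T| ≤ 4`
-/

set_option autoImplicit false

namespace Cfsg.Agent.Lib.Helper78.Har

open scoped commutatorElement

/-- The conjugates of `b` under a subgroup `N` number at least `|N| / |T|` when the centralizer
of `b` lies in `T`. -/
theorem card_le_range_conj {X : Type*} [Group X] [Finite X] (T N : Subgroup X) (b : X)
    (hcb : Subgroup.centralizer ({b} : Set X) ≤ T) :
    Nat.card N ≤ Nat.card (Set.range (fun n : N => (n : X) * b * (n : X)⁻¹)) * Nat.card T := by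
  classical
  let φ : N → X := fun n => (n : X) * b * (n : X)⁻¹
  let s : X → N := fun a => if h : ∃ n0 : N, φ n0 = a then h.choose else 1
  have hs : ∀ n : N, φ (s (φ n)) = φ n := by
    intro n
    have h : ∃ n0 : N, φ n0 = φ n := ⟨n, rfl⟩
    have h1 : s (φ n) = h.choose := dif_pos h
    rw [h1]
    exact h.choose_spec
  have hmem : ∀ n : N, ((s (φ n) : N) : X)⁻¹ * (n : X) ∈ T := by
    intro n
    apply hcb
    rw [Subgroup.mem_centralizer_iff]
    intro z hz
    rw [Set.mem_singleton_iff] at hz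
    subst hz
    have h1 : ((s (φ n) : N) : X) * z * ((s (φ n) : N) : X)⁻¹ = (n : X) * z * (n : X)⁻¹ := hs n
    calc z * (((s (φ n) : N) : X)⁻¹ * (n : X))
        = ((s (φ n) : N) : X)⁻¹ * (((s (φ n) : N) : X) * z * ((s (φ n) : N) : X)⁻¹) * (n : X) := by
          group
      _ = ((s (φ n) : N) : X)⁻¹ * ((n : X) * z * (n : X)⁻¹) * (n : X) := by rw [h1]
      _ = ((s (φ n) : N) : X)⁻¹ * (n : X) * z := by group
  let F : N → Set.range φ × T := fun n => (⟨φ n, n, rfl⟩, ⟨_, hmem n⟩)
  have hF : Function.Injective F := by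
    intro n n' hnn
    have h1 : φ n = φ n' := congrArg (fun p : Set.range φ × T => ((p.1 : Set.range φ) : X)) hnn
    have h2 : ((s (φ n) : N) : X)⁻¹ * (n : X) = ((s (φ n') : N) : X)⁻¹ * (n' : X) :=
      congrArg (fun p : Set.range φ × T => ((p.2 : T) : X)) hnn
    rw [h1] at h2
    exact Subtype.ext (mul_left_cancel h2)
  have hcard := Nat.card_le_card_of_injective F hF
  rw [Nat.card_prod] at hcard
  exact hcard

-- PIECE NORM
theorem card_normalizer_le {X : Type*} [Group X] [Finite X] (hX : IsPGroup 2 X)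
    (T B : Subgroup X) (h : E16Hyp X T B) :
    Nat.card ↥(Subgroup.normalizer (T : Set X)) ≤ 64 := by
  classical
  obtain ⟨hT16, hT2, hBT, hB4, hcb⟩ := h
  by_contra hgt
  push Not at hgt
  have hTN : T ≤ Subgroup.normalizer (T : Set X) := Subgroup.le_normalizer
  obtain ⟨n, hn⟩ := (hX.to_subgroup (Subgroup.normalizer (T : Set X))).exists_card_eq
  have h128 : 128 ≤ Nat.card ↥(Subgroup.normalizer (T : Set X)) := by
    rw [hn] at hgt ⊢
    have h7 : 7 ≤ n := by
      by_contra h7
      push Not at h7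
      have h6 : 2 ^ n ≤ 2 ^ 6 := Nat.pow_le_pow_right (by norm_num) (by omega)
      omega
    calc 128 = 2 ^ 7 := by norm_num
      _ ≤ 2 ^ n := Nat.pow_le_pow_right (by norm_num) h7
  -- the set of nonidentity elements of `T`
  have hT15 : ({t : X | t ∈ T ∧ t ≠ 1} : Set X).ncard = 15 := by
    have h1 : ({t : X | t ∈ T ∧ t ≠ 1} : Set X) = (T : Set X) \ {1} := by
      ext t
      simp
    have h2 : (T : Set X).ncard = 16 := by
      rw [← hT16]
      exact (Nat.card_coe_set_eq (T : Set X)).symm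
    rw [h1, Set.ncard_sdiff_singleton_of_mem (T.one_mem), h2]
  -- orbits have at least 8 elements and lie in `T \ {1}`
  have horb : ∀ b ∈ B, b ≠ 1 →
      8 ≤ (Set.range (fun n : ↥(Subgroup.normalizer (T : Set X)) =>
        (n : X) * b * (n : X)⁻¹)).ncard ∧
      Set.range (fun n : ↥(Subgroup.normalizer (T : Set X)) => (n : X) * b * (n : X)⁻¹)
        ⊆ {t : X | t ∈ T ∧ t ≠ 1} := by
    intro b hb hb1
    constructor
    · have h1 := card_le_range_conj T (Subgroup.normalizer (T : Set X)) b (hcb b hb hb1)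
      rw [hT16, Nat.card_coe_set_eq] at h1
      omega
    · rintro _ ⟨n, rfl⟩
      refine ⟨(Subgroup.mem_normalizer_iff.mp n.2 b).mp (hBT hb), ?_⟩
      intro h1
      apply hb1
      have h1' : (n : X) * b * (n : X)⁻¹ = 1 := h1
      have h2 : b = (n : X)⁻¹ * ((n : X) * b * (n : X)⁻¹) * (n : X) := by group
      rw [h2, h1']; group
  -- any two nonidentity elements of `B` are conjugate
  have hconj : ∀ b ∈ B, b ≠ 1 → ∀ b' ∈ B, b' ≠ 1 → ∃ u : X, b' = u * b * u⁻¹ := by
    intro b hb hb1 b' hb' hb'1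
    obtain ⟨h8, hsub⟩ := horb b hb hb1
    obtain ⟨h8', hsub'⟩ := horb b' hb' hb'1
    have hnd : ¬ Disjoint
        (Set.range (fun n : ↥(Subgroup.normalizer (T : Set X)) => (n : X) * b * (n : X)⁻¹))
        (Set.range (fun n : ↥(Subgroup.normalizer (T : Set X)) => (n : X) * b' * (n : X)⁻¹)) := by
      intro hd
      have h1 := Set.ncard_union_eq hd (Set.toFinite _) (Set.toFinite _)
      have h2 := Set.ncard_le_ncard (Set.union_subset hsub hsub') (Set.toFinite _)
      omega
    rw [Set.not_disjoint_iff] at hnd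
    obtain ⟨a, ⟨n, hna⟩, ⟨n', hn'a⟩⟩ := hnd
    refine ⟨(n' : X)⁻¹ * (n : X), ?_⟩
    have h1 : (n' : X) * b' * (n' : X)⁻¹ = (n : X) * b * (n : X)⁻¹ := by
      rw [show (n' : X) * b' * (n' : X)⁻¹ = a from hn'a, ← hna]
    have h2 : b' = (n' : X)⁻¹ * ((n' : X) * b' * (n' : X)⁻¹) * (n' : X) := by group
    rw [h2, h1]; group
  -- `B` lies in every term of the lower central series
  have hB2 : ∀ b ∈ B, b ^ 2 = 1 := fun b hb => hT2 b (hBT hb)
  have hlcs : ∀ k : ℕ, ∀ b ∈ B, b ∈ (⊤ : Subgroup X).lowerCentralSeries k := by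
    intro k
    induction k with
    | zero => intro b _; simp
    | succ k ih =>
      intro b hb
      by_cases hb1 : b = 1
      · rw [hb1]; exact Subgroup.one_mem _
      -- choose b1 ∈ B with b1 ≠ 1, b1 ≠ b
      have hex : ∃ b1 ∈ B, b1 ≠ 1 ∧ b1 ≠ b := by
        by_contra hne
        push Not at hne
        have hsub : (B : Set X) ⊆ {1, b} := by
          intro c hc
          by_cases hc1 : c = 1
          · left; exact hc1
          · right; exact hne c hc hc1
        have h1 : (B : Set X).ncard ≤ ({1, b} : Set X).ncard :=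
          Set.ncard_le_ncard hsub (Set.toFinite _)
        have h2 : ({1, b} : Set X).ncard ≤ 2 := by
          have h4 := Set.ncard_insert_le (1 : X) ({b} : Set X)
          rw [Set.ncard_singleton] at h4
          exact h4
        have h3 : (B : Set X).ncard = 4 := by
          rw [← hB4]; exact (Nat.card_coe_set_eq (B : Set X)).symm
        omega
      obtain ⟨b1, hb1B, hb11, hb1b⟩ := hex
      have hb1i : b1⁻¹ = b1 := by
        rw [inv_eq_iff_mul_eq_one, ← pow_two]; exact hB2 b1 hb1B
      have hbb1 : b * b1 ∈ B := B.mul_mem hb hb1B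
      have hbb1ne : b * b1 ≠ 1 := by
        intro h1
        apply hb1b
        have h2 : b = b1⁻¹ := mul_eq_one_iff_eq_inv.mp h1
        rw [h2, hb1i]
      obtain ⟨u, hu⟩ := hconj b1 hb1B hb11 (b * b1) hbb1 hbb1ne
      have hcomm : b * b1 = b1 * b := comm_of_sq T hT2 (hBT hb) (hBT hb1B)
      have hb_eq : b = ⁅b1, u⁆ := by
        rw [commutatorElement_def, hb1i]
        have h1 : b = b1 * (b * b1) := by
          rw [hcomm, ← mul_assoc, ← pow_two, hB2 b1 hb1B, one_mul]
        calc b = b1 * (b * b1) := h1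
          _ = b1 * (u * b1 * u⁻¹) := by rw [hu]
          _ = b1 * u * b1 * u⁻¹ := by group
      rw [hb_eq, Subgroup.mem_lowerCentralSeries_succ_iff]
      exact Subgroup.subset_closure ⟨b1, ih b1 hb1B, u, Subgroup.mem_top u, rfl⟩
  have hnil : Group.IsNilpotent X := hX.isNilpotent
  obtain ⟨k, hk⟩ := Subgroup.nilpotent_iff_lowerCentralSeries.mp hnil
  have hB1 : ∀ b ∈ B, b = 1 := by
    intro b hb
    have h1 := hlcs k b hb
    rw [hk, Subgroup.mem_bot] at h1
    exact h1
  have hBbot : B = ⊥ := by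
    rw [eq_bot_iff]
    intro b hb
    rw [Subgroup.mem_bot]
    exact hB1 b hb
  rw [hBbot] at hB4
  simp at hB4

end Cfsg.Agent.Lib.Helper78.Har
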