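import Mathlib
import Cfsg.Agent.Lib.Helper78.JNDefs
import Cfsg.Agent.Lib.Helper88.JcK3
import Cfsg.Agent.Lib.Helper82.JcOCPC
import Cfsg.Agent.Lib.Helper75.JcWF
import Cfsg.Agent.S2941

/-! Assembly for the S2944 project JN (helper78). -/

set_option autoImplicit false

namespace Cfsg.Agent.Lib.Helper78.JN

open Cfsg.Agent.Lib.Helper72.JL
open Cfsg.Agent.Lib.Helper72.SC
open Cfsg.Agent.Lib.Helper78.Jc

open scoped commutatorElement

universe u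

theorem jn_rho_val {X : Type*} [Group X] (T : Subgroup X) (b : X) (v : ↥(VT T)) :
    ((rhoT T b v : ↥(VT T)) : X) = b * (v : X) * b⁻¹ := rfl

/-- the offender lemma from its two pieces -/
theorem offg_of_pieces (ha : OffaStmt.{u}) (hb : OffbStmt.{u}) : OffgStmt.{u} := by
  intro G _ _ V H hV hHV hf hS1 hS3 A hAH hA z hzH hz3 hnc W hW4 hW
  obtain ⟨E, D, b, hbA, hbE, hbz, hE6, hWE4, hinf, hsup, hcomm, hED, hEDH, hDc, hVD⟩ :=
    ha G V H hV hHV hf hS1 hS3 A hAH hA z hnc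
  have hVab : ∀ a ∈ V, ∀ b ∈ V, a * b = b * a := by
    intro a ha' b hb'
    have hc := hV.1
    have := hc.is_comm.comm ⟨a, ha'⟩ ⟨b, hb'⟩
    exact congrArg Subtype.val this
  obtain ⟨h1, h2⟩ := hb G V H E D hVab hHV hf hE6 hWE4 hinf hsup hcomm hED hEDH hDc hVD z b hzH
    hz3 hbE hbz W hW4 hW
  exact ⟨b, hbA, h1, h2⟩

/-- the abstract theorem from its pieces -/
theorem norm_of_pieces (hVab : VabStmt.{u}) (hO2 : O2Stmt.{u}) (hPs : PsStmt.{u})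
    (hExt : ExtStmt.{u}) (hKn : KnStmt.{u}) (hCt : CtStmt.{u}) (hKc : KcStmt.{u})
    (hCq : CqStmt.{u}) (hAut : AutStmt.{u}) (hFin : FinStmt.{u}) (hKnorm : KnormStmt.{u})
    (hVw : VwStmt.{u}) (hNc : NcStmt.{u}) (hOffx : OffxStmt.{u}) : NormStmt.{u} := by
  intro X _ _ T hS 𝒮 K O W h𝒮 hKJ hKodd hQK hOK hKO hO2g h3 hP2 hWn hW4 hWc
  obtain ⟨hVQ, hVc, hV2, hQT, hQV⟩ := hVab X T hS
  have hab : ∀ a b : ↥(VT T), a * b = b * a := fun a b => Subtype.ext (hVc a a.2 b b.2)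
  have hexp : ∀ v : ↥(VT T), v ^ 2 = 1 := fun v => by
    apply Subtype.ext
    rw [pow_two]
    exact hV2 v v.2
  have hexp' : ∀ v : ↥(VT T), v * v = 1 := fun v => Subtype.ext (hV2 v v.2)
  obtain ⟨N, hNle, hNnorm, hN3, hNsq⟩ :=
    hExt ↥(VT T) (rhoT T).range hab hexp (hPs X T hS) (hO2 X T hS)
  have hKN := hKn X T hS N hNsq 𝒮 K h𝒮 hKJ hKodd
  have hKH := hKn X T hS
    ((Hs 2 (rhoT T).range).comap (SemidirectProduct.inr : MulAut ↥(VT T) →* Gam ↥(VT T)))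
    (fun h hh => by
      show (SemidirectProduct.inr (h * h) : Gam ↥(VT T)) ∈ Hs 2 (rhoT T).range
      rw [map_mul]
      exact mul_mem hh hh) 𝒮 K h𝒮 hKJ hKodd
  obtain ⟨hQker, hCT⟩ := hCt X T hS
  obtain ⟨hCodd, hC2⟩ := hCq X T hS
  have hQn : (Cfsg.pCore 2 X).Normal := Subgroup.sSup_normal _ (fun H hH => hH.1)
  have hQ2 : IsPGroup 2 ↥(Cfsg.pCore 2 X) := Cfsg.Agent.Lib.Helper82.Jc.pCore_isPGroup_aux 2 X
  have hCn : (rhoT T).ker.Normal := MonoidHom.normal_ker _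
  -- `O ≤ C`
  have hOC : O ≤ (rhoT T).ker := by
    intro o ho
    rw [MonoidHom.mem_ker]
    have h1 : rhoT T o ∈ N := hKN ⟨o, hOK ho, rfl⟩
    obtain ⟨n, hn⟩ := hN3 ⟨rhoT T o, h1⟩
    obtain ⟨m, hm⟩ := hO2g ⟨o, ho⟩
    have e1 : (rhoT T o) ^ (3 ^ n) = 1 := congrArg Subtype.val hn
    have e2 : (rhoT T o) ^ (2 ^ m) = 1 := by
      rw [← map_pow]
      have : o ^ (2 ^ m) = 1 := congrArg Subtype.val hm
      rw [this, map_one]
    have hcop : Nat.Coprime (3 ^ n) (2 ^ m) := Nat.Coprime.pow _ _ (by norm_num)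
    have := Nat.dvd_gcd (orderOf_dvd_of_pow_eq_one e1) (orderOf_dvd_of_pow_eq_one e2)
    rw [hcop.gcd_eq_one, Nat.dvd_one] at this
    exact orderOf_eq_one_iff.mp this
  have hOQ : O ≤ Cfsg.pCore 2 X := hC2 O hO2g hOC
  obtain ⟨y, hyK, hyO, hy3⟩ := Cfsg.Agent.Lib.Helper88.Jc.k3_exists K O hOK hKO hO2g h3 hKodd
  have hcases := Cfsg.Agent.Lib.Helper88.Jc.k3_cases K O hOK hKO h3 y hyK hyO
  have hJT : sSup 𝒮 ≤ T := sSup_le (fun A hA => (h𝒮 A hA).1)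
  have hKC : ¬ K ≤ (rhoT T).ker := by
    intro hle
    have hKQ : K ≤ Cfsg.pCore 2 X := by
      rw [← hKJ, Subgroup.commutator_le]
      intro k hk j hj
      exact hCT k (hle hk) j (hJT hj)
    exact hyO (hP2 K le_rfl (hQ2.to_le hKQ) hyK)
  have hyC : y ∉ (rhoT T).ker := by
    intro hy
    apply hKC
    intro k hk
    obtain ⟨o, ho, h | h | h⟩ := hcases k hk
    · rw [h]; exact hOC ho
    · rw [h]; exact Subgroup.mul_mem _ hy (hOC ho)
    · rw [h]; exact Subgroup.mul_mem _ (Subgroup.inv_mem _ hy) (hOC ho)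
  have hφ1 : rhoT T y ≠ 1 := fun h => hyC (MonoidHom.mem_ker.mpr h)
  have hφ3 : (rhoT T y) ^ 3 = 1 := by rw [← map_pow, hy3, map_one]
  have hO_V : ∀ o ∈ O, ∀ v ∈ VT T, o * v = v * o := fun o ho v hv => hQV o (hOQ ho) v hv
  have hvw := hVw X (VT T) (Cfsg.pCore 2 X) K O W y inferInstance hVc hV2 hVQ hQK hP2 hO_V hyK
    hy3 hWc
  obtain ⟨A, hA𝒮, a, haA, hanc⟩ := hNc X (rhoT T).ker K O 𝒮 y hCn hOC hyK hcases hKJ hKC
  have hanc' : rhoT T a * rhoT T y ≠ rhoT T y * rhoT T a := by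
    intro h
    apply hanc
    rw [MonoidHom.mem_ker, map_mul, map_mul, map_mul, map_inv, map_inv, h]
    group
  have hyH : (SemidirectProduct.inr (rhoT T y) : Gam ↥(VT T)) ∈ Hs 2 (rhoT T).range :=
    hKH ⟨y, hyK, rfl⟩
  obtain ⟨a₁, ha₁A, hinv, hcent⟩ :=
    hOffx X T hS A (h𝒮 A hA𝒮) y hφ3 hyH ⟨a, haA, hanc'⟩ W hW4.le hvw
  -- `W` inside `V`
  have hWV4 : Nat.card ↥(W.subgroupOf (VT T)) ≤ 4 := by
    rw [← hW4]
    refine Nat.card_le_card_of_injective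
      (fun w : ↥(W.subgroupOf (VT T)) => (⟨((w : ↥(VT T)) : X), w.2⟩ : ↥W)) ?_
    intro w1 w2 h
    have h' := congrArg (fun t : ↥W => (t : X)) h
    have : ((w1 : ↥(VT T)) : X) = ((w2 : ↥(VT T)) : X) := h'
    exact Subtype.ext (Subtype.ext this)
  have hφN : rhoT T y ∈ N := hKN ⟨y, hyK, rfl⟩
  have hφW : ∀ v : ↥(VT T), v⁻¹ * rhoT T y v ∈ W.subgroupOf (VT T) := by
    intro v
    show ((v⁻¹ * rhoT T y v : ↥(VT T)) : X) ∈ W
    have := hvw v v.2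
    rw [Subgroup.coe_mul, Subgroup.coe_inv, jn_rho_val]
    exact this
  have hσ2 : rhoT T a₁ * rhoT T a₁ = 1 := by
    rw [← map_mul, (h𝒮 A hA𝒮).2.2.1 a₁ ha₁A, map_one]
  have hσfix : ∀ v : ↥(VT T), rhoT T y v = v → rhoT T a₁ v = v := by
    intro v hv
    have h0 : y * (v : X) * y⁻¹ = v := by
      have := congrArg Subtype.val hv
      rwa [jn_rho_val] at this
    have h1 : y * (v : X) = v * y := by
      calc y * (v : X) = y * v * y⁻¹ * y := by group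
        _ = v * y := by rw [h0]
    have h2 := hcent v v.2 h1
    apply Subtype.ext
    rw [jn_rho_val, h2]
    group
  have hyd : ∀ d ∈ (rhoT T).ker, ⁅y, d⁆ ∈ Cfsg.pCore 2 X := fun d hd =>
    hKc X (Cfsg.pCore 2 X) (rhoT T).ker K (sSup 𝒮) hQn hCn
      (fun c hc j hj => hCT c hc j (hJT hj)) hKJ y hyK d hd
  have ha₁T : a₁ ∈ T := (h𝒮 A hA𝒮).1 ha₁A
  have had : ∀ d ∈ (rhoT T).ker, ⁅a₁, d⁆ ∈ Cfsg.pCore 2 X := by
    intro d hd
    have := hCT d hd a₁ ha₁T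
    rw [← commutatorElement_inv]
    exact Subgroup.inv_mem _ this
  have ha₁J : a₁ ∈ sSup 𝒮 := (le_sSup hA𝒮) ha₁A
  have hJK : sSup 𝒮 ≤ Subgroup.normalizer (K : Set X) := by
    have := Cfsg.Agent.S2941.right_le_normalizer_commutator K (sSup 𝒮)
    rwa [hKJ] at this
  have hay : a₁ * y * a₁⁻¹ * y ∈ Cfsg.pCore 2 X := by
    have h1 : a₁ * y * a₁⁻¹ ∈ K := (Subgroup.mem_normalizer_iff.mp (hJK ha₁J) y).mp hyK
    have h2 : a₁ * y * a₁⁻¹ * y ∈ K := K.mul_mem h1 hyK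
    have h3' : a₁ * y * a₁⁻¹ * y ∈ (rhoT T).ker := by
      rw [MonoidHom.mem_ker, map_mul, map_mul, map_mul, map_inv, hinv]
      group
    obtain ⟨o, ho, h | h | h⟩ := hcases _ h2
    · rw [h]; exact hOQ ho
    · exfalso; apply hyC
      have : y = (a₁ * y * a₁⁻¹ * y) * o⁻¹ := by rw [h]; group
      rw [this]; exact Subgroup.mul_mem _ h3' (Subgroup.inv_mem _ (hOC ho))
    · exfalso; apply hyC
      have : y = ((a₁ * y * a₁⁻¹ * y) * o⁻¹)⁻¹ := by rw [h]; group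
      rw [this]; exact Subgroup.inv_mem _ (Subgroup.mul_mem _ h3' (Subgroup.inv_mem _ (hOC ho)))
  have key : ∀ x : X, ∀ k ∈ K, x * k * x⁻¹ ∈ K := by
    intro x
    have hθW : ∀ w ∈ W.subgroupOf (VT T), rhoT T x w ∈ W.subgroupOf (VT T) := by
      intro w hw
      show ((rhoT T x w : ↥(VT T)) : X) ∈ W
      rw [jn_rho_val]
      exact hWn.conj_mem _ hw x
    have hθN : rhoT T x * rhoT T y * (rhoT T x)⁻¹ ∈ N := hNnorm _ ⟨x, rfl⟩ _ hφN
    obtain ⟨hcase, j, hj⟩ := hAut ↥(VT T) hab hexp' (W.subgroupOf (VT T)) hWV4 (rhoT T y)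
      (rhoT T a₁) N hN3 hφN hφ3 hφ1 hφW hσ2 hinv hσfix (rhoT T x) hθW hθN
    have hγ : (y ^ j * a₁)⁻¹ * (x * a₁ * x⁻¹) ∈ (rhoT T).ker := by
      rw [MonoidHom.mem_ker, map_mul, map_inv, map_mul, map_mul, map_mul, map_inv, map_pow, hj]
      group
    have hxy : x * y * x⁻¹ ∈ K ⊔ Cfsg.pCore 2 X := by
      rcases hcase with hc | hc
      · have hcC : y⁻¹ * (x * y * x⁻¹) ∈ (rhoT T).ker := by
          rw [MonoidHom.mem_ker, map_mul, map_inv, map_mul, map_mul, map_inv, hc]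
          group
        have hcQ := hFin X (Cfsg.pCore 2 X) (rhoT T).ker hQn hCn hQker hCodd y a₁ x j
          (y⁻¹ * (x * y * x⁻¹)) ((y ^ j * a₁)⁻¹ * (x * a₁ * x⁻¹)) hcC hγ hyd had hay
          (Or.inl (by group)) (by group)
        have : x * y * x⁻¹ = y * (y⁻¹ * (x * y * x⁻¹)) := by group
        rw [this]
        exact Subgroup.mul_mem _ (Subgroup.mem_sup_left hyK) (Subgroup.mem_sup_right hcQ)
      · have hcC : y * (x * y * x⁻¹) ∈ (rhoT T).ker := by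
          rw [MonoidHom.mem_ker, map_mul, map_mul, map_mul, map_inv, hc]
          group
        have hcQ := hFin X (Cfsg.pCore 2 X) (rhoT T).ker hQn hCn hQker hCodd y a₁ x j
          (y * (x * y * x⁻¹)) ((y ^ j * a₁)⁻¹ * (x * a₁ * x⁻¹)) hcC hγ hyd had hay
          (Or.inr (by group)) (by group)
        have : x * y * x⁻¹ = y⁻¹ * (y * (x * y * x⁻¹)) := by group
        rw [this]
        exact Subgroup.mul_mem _ (Subgroup.mem_sup_left (K.inv_mem hyK))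
          (Subgroup.mem_sup_right hcQ)
    exact hKnorm X (Cfsg.pCore 2 X) K O hQn hQ2 hQK hKodd hOQ y hyK hcases x hxy
  exact ⟨fun k hk x => key x k hk⟩

/-- the statement S2944 from the abstract theorem and the transport pieces -/
theorem final_of_pieces (hNorm : NormStmt.{u}) (hTra : TraStmt.{u}) (hTrb : TrbStmt.{u})
    (hTrc : TrcStmt.{u}) (hTrj : TrjStmt.{u}) (hTrk : TrkStmt.{u}) (hTrq : TrqStmt.{u})
    (hTrn : TrnStmt.{u}) (hTrw : TrwStmt.{u}) (hPb1 : Pb1Stmt.{u}) (hPb2 : Pb2Stmt.{u})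
    {G : Type u} [Group G] [Finite G] (hL : Cfsg.IsCharacteristicTwoType G)
    (hN : ∀ N : Subgroup G, Cfsg.IsTwoLocal N → Group.IsSolvable ↥N)
    (hZ : ∀ S : Sylow 2 G, Subgroup.centralizer (Cfsg.omegaCenterOf (S : Subgroup G) : Set G) ≤
      Subgroup.normalizer ((S : Subgroup G) : Set G))
    (T : Subgroup G) (hT : IsPGroup 2 ↥T) (K : Subgroup G) (hK : K ∈ Cfsg.jComponentsZero T) :
    Subgroup.normalizer (K : Set G) = Subgroup.normalizer (Cfsg.wOf K : Set G) ∧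
      ∀ g : G, Cfsg.thompsonSubgroupOf 2 (T.map (MulAut.conj g).toMonoidHom) ≤
          Subgroup.normalizer (Cfsg.wOf K : Set G) →
        Cfsg.IsJComponent (T.map (MulAut.conj g).toMonoidHom) K := by
  have hzn : ZNHyp G := ⟨hL, hN, hZ⟩
  obtain ⟨T₁, hJT₁, hJeq, hSyl, hLT, hK₁, hKL, hT₁2, hT₁1⟩ := hTrn G hzn T K hT hK
  have hTL : T₁ ≤ Subgroup.normalizer (Cfsg.wOf K : Set G) := hLT.1.1
  obtain ⟨h2, hodd, hchar⟩ := hTra G T₁ _ hLT
  have hS : Setting ↥(Subgroup.normalizer (Cfsg.wOf K : Set G))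
      (T₁.subgroupOf (Subgroup.normalizer (Cfsg.wOf K : Set G))) :=
    ⟨h2, hodd, hTrb G hzn T₁ _ hLT, hchar, hTrc G hzn T₁ _ hLT⟩
  obtain ⟨𝒮, h𝒮, hsup⟩ := hTrj G T₁ (Subgroup.normalizer (Cfsg.wOf K : Set G)) hTL
  obtain ⟨hKJ, hKodd⟩ := hTrk G T₁ K (Subgroup.normalizer (Cfsg.wOf K : Set G)) hK₁ hKL hTL
  have hQ := hTrq G hzn T₁ hT₁2 hT₁1 (Subgroup.normalizer (Cfsg.wOf K : Set G)) hLT K hK₁ hKL
  obtain ⟨w1, w2, w3, w4, w5, w6, w7, w8⟩ :=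
    hTrw G T₁ K (Subgroup.normalizer (Cfsg.wOf K : Set G)) hK₁ hKL le_rfl
  have hKn : (K.subgroupOf (Subgroup.normalizer (Cfsg.wOf K : Set G))).Normal :=
    hNorm _ _ hS 𝒮 _ _ _ h𝒮 (by rw [hsup]; exact hKJ) hKodd hQ w1 w2 w3 w4 w5 w6 w7 w8
  have hLK : Subgroup.normalizer (Cfsg.wOf K : Set G) ≤ Subgroup.normalizer (K : Set G) := by
    have hconj : ∀ x ∈ Subgroup.normalizer (Cfsg.wOf K : Set G), ∀ k ∈ K, x * k * x⁻¹ ∈ K := by
      intro x hx k hk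
      have := hKn.conj_mem ⟨k, hKL hk⟩ (by
        show (⟨k, hKL hk⟩ : ↥(Subgroup.normalizer (Cfsg.wOf K : Set G))).1 ∈ K
        exact hk) ⟨x, hx⟩
      exact this
    intro x hx
    rw [Subgroup.mem_normalizer_iff]
    intro k
    constructor
    · exact hconj x hx k
    · intro hk
      have := hconj x⁻¹ (Subgroup.inv_mem _ hx) _ hk
      have e : x⁻¹ * (x * k * x⁻¹) * x⁻¹⁻¹ = k := by group
      rwa [e] at this
  have hKW : Subgroup.normalizer (K : Set G) ≤ Subgroup.normalizer (Cfsg.wOf K : Set G) := by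
    intro g hg
    have h1 := Cfsg.Agent.Lib.Helper82.Jc.pc_normalizer K hg
    have h2 := Cfsg.Agent.Lib.Helper82.Jc.oc_normalizer (Cfsg.pCoreOf 2 K) h1
    exact Cfsg.Agent.Lib.Helper75.Jc.wf_normalizer (Cfsg.omegaCenterOf (Cfsg.pCoreOf 2 K)) K g
      h2 hg
  refine ⟨le_antisymm hKW hLK, ?_⟩
  intro g hg
  obtain ⟨x, hxL, hx⟩ := hPb1 G T T₁ (Subgroup.normalizer (Cfsg.wOf K : Set G)) g hT hSyl hJT₁
    hJeq hg
  exact hPb2 G T (T.map (MulAut.conj g).toMonoidHom) K x hK.1 (hLK hxL) hx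

end Cfsg.Agent.Lib.Helper78.JN
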