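import Mathlib
import Cfsg.Agent.Lib.Helper78.JNDefs

set_option autoImplicit false

namespace Cfsg.Agent.Lib.Helper78.JN

open scoped commutatorElement

universe u

theorem fin_aux {M : Type*} [Group M] (Y A Γ Cc : M) (j : ℕ) (hAY : A * Y * A⁻¹ = Y⁻¹)
    (hYΓ : Commute Y Γ) (hYC : Commute Y Cc) (hAΓ : Commute A Γ) (hAC : Commute A Cc) (E : M)
    (hE : E = Y ∨ E = Y⁻¹)
    (e : (Y ^ j * A * Γ) * (E * Cc) * (Y ^ j * A * Γ)⁻¹ = (E * Cc)⁻¹) :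
    Γ * Cc * Γ⁻¹ = Cc⁻¹ := by
  have hYD : Commute Y (Γ * Cc * Γ⁻¹) := (hYΓ.mul_right hYC).mul_right hYΓ.inv_right
  have hAD : Commute A (Γ * Cc * Γ⁻¹) := (hAΓ.mul_right hAC).mul_right hAΓ.inv_right
  have hEΓ : Commute E Γ := by
    rcases hE with h | h
    · rw [h]; exact hYΓ
    · rw [h]; exact hYΓ.inv_left
  have hEC : Commute E Cc := by
    rcases hE with h | h
    · rw [h]; exact hYC
    · rw [h]; exact hYC.inv_left
  have hYE : Commute Y E := by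
    rcases hE with h | h
    · rw [h]
    · rw [h]; exact (Commute.refl Y).inv_right
  have hAE : A * E * A⁻¹ = E⁻¹ := by
    rcases hE with h | h
    · rw [h]; exact hAY
    · rw [h, inv_inv]
      have : A * Y⁻¹ * A⁻¹ = (A * Y * A⁻¹)⁻¹ := by group
      rw [this, hAY, inv_inv]
  have h1 : Γ * (E * Cc) * Γ⁻¹ = E * (Γ * Cc * Γ⁻¹) := by
    have : Γ * E = E * Γ := hEΓ.symm.eq
    calc Γ * (E * Cc) * Γ⁻¹ = (Γ * E) * Cc * Γ⁻¹ := by group
      _ = (E * Γ) * Cc * Γ⁻¹ := by rw [this]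
      _ = E * (Γ * Cc * Γ⁻¹) := by group
  have h2 : A * (E * (Γ * Cc * Γ⁻¹)) * A⁻¹ = E⁻¹ * (Γ * Cc * Γ⁻¹) := by
    have : A * (Γ * Cc * Γ⁻¹) * A⁻¹ = Γ * Cc * Γ⁻¹ := by
      rw [hAD.eq, mul_inv_cancel_right]
    calc A * (E * (Γ * Cc * Γ⁻¹)) * A⁻¹ = (A * E * A⁻¹) * (A * (Γ * Cc * Γ⁻¹) * A⁻¹) := by group
      _ = E⁻¹ * (Γ * Cc * Γ⁻¹) := by rw [hAE, this]
  have h3 : Commute (Y ^ j) (E⁻¹ * (Γ * Cc * Γ⁻¹)) :=
    (hYE.inv_right.mul_right hYD).pow_left j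
  have h4 : Y ^ j * (E⁻¹ * (Γ * Cc * Γ⁻¹)) * (Y ^ j)⁻¹ = E⁻¹ * (Γ * Cc * Γ⁻¹) := by
    rw [h3.eq, mul_inv_cancel_right]
  have h5 : (Y ^ j * A * Γ) * (E * Cc) * (Y ^ j * A * Γ)⁻¹ = E⁻¹ * (Γ * Cc * Γ⁻¹) := by
    calc (Y ^ j * A * Γ) * (E * Cc) * (Y ^ j * A * Γ)⁻¹
        = Y ^ j * (A * (Γ * (E * Cc) * Γ⁻¹) * A⁻¹) * (Y ^ j)⁻¹ := by group
      _ = E⁻¹ * (Γ * Cc * Γ⁻¹) := by rw [h1, h2, h4]
  have h6 : (E * Cc)⁻¹ = E⁻¹ * Cc⁻¹ := by
    rw [mul_inv_rev]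
    exact (hEC.inv_inv).symm.eq
  rw [h5, h6] at e
  exact mul_left_cancel e

theorem fin : FinStmt.{u} := by
  intro X _ _ Q C hQn hCn hQC hodd y a x j c γ hc hγ hyd had hay hxy hxa
  have hπ : ∀ g : X, (QuotientGroup.mk' Q) g = 1 ↔ g ∈ Q := fun g => QuotientGroup.eq_one_iff g
  have hcomm : ∀ (u d : X), ⁅u, d⁆ ∈ Q →
      Commute ((QuotientGroup.mk' Q) u) ((QuotientGroup.mk' Q) d) := by
    intro u d h
    have h' := (hπ _).mpr h
    rw [commutatorElement_def, map_mul, map_mul, map_mul, map_inv, map_inv] at h'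
    show (QuotientGroup.mk' Q) u * (QuotientGroup.mk' Q) d = (QuotientGroup.mk' Q) d * (QuotientGroup.mk' Q) u
    calc (QuotientGroup.mk' Q) u * (QuotientGroup.mk' Q) d
        = ((QuotientGroup.mk' Q) u * (QuotientGroup.mk' Q) d * ((QuotientGroup.mk' Q) u)⁻¹ *
            ((QuotientGroup.mk' Q) d)⁻¹) * ((QuotientGroup.mk' Q) d * (QuotientGroup.mk' Q) u) := by
          group
      _ = (QuotientGroup.mk' Q) d * (QuotientGroup.mk' Q) u := by rw [h', one_mul]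
  have hay' : (QuotientGroup.mk' Q) a * (QuotientGroup.mk' Q) y * ((QuotientGroup.mk' Q) a)⁻¹ =
      ((QuotientGroup.mk' Q) y)⁻¹ := by
    have h := (hπ _).mpr hay
    rw [map_mul, map_mul, map_mul, map_inv] at h
    exact eq_inv_of_mul_eq_one_left h
  -- the conjugated relation
  have e2 : (QuotientGroup.mk' Q) (x * (a * y * a⁻¹) * x⁻¹) =
      ((QuotientGroup.mk' Q) (x * y * x⁻¹))⁻¹ := by
    have : x * (a * y * a⁻¹) * x⁻¹ = (x * (a * y * a⁻¹ * y) * x⁻¹) * (x * y * x⁻¹)⁻¹ := by group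
    rw [this, map_mul, (hπ _).mpr (hQn.conj_mem _ hay x), one_mul, map_inv]
  have e1 : x * (a * y * a⁻¹) * x⁻¹ = (x * a * x⁻¹) * (x * y * x⁻¹) * (x * a * x⁻¹)⁻¹ := by group
  rw [e1, hxa] at e2
  have key : (QuotientGroup.mk' Q) γ * (QuotientGroup.mk' Q) c * ((QuotientGroup.mk' Q) γ)⁻¹ =
      ((QuotientGroup.mk' Q) c)⁻¹ := by
    rcases hxy with h | h
    · rw [h] at e2
      simp only [map_mul, map_inv, map_pow] at e2
      exact fin_aux _ _ _ _ j hay' (hcomm y γ (hyd γ hγ)) (hcomm y c (hyd c hc))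
        (hcomm a γ (had γ hγ)) (hcomm a c (had c hc)) _ (Or.inl rfl) e2
    · rw [h] at e2
      simp only [map_mul, map_inv, map_pow] at e2
      exact fin_aux _ _ _ _ j hay' (hcomm y γ (hyd γ hγ)) (hcomm y c (hyd c hc))
        (hcomm a γ (had γ hγ)) (hcomm a c (had c hc)) _ (Or.inr rfl) e2
  -- odd order
  obtain ⟨m, hm, hcm⟩ := hodd c hc
  obtain ⟨m', hm', hγm⟩ := hodd γ hγ
  have hc1 : ((QuotientGroup.mk' Q) c) ^ m = 1 := by rw [← map_pow]; exact (hπ _).mpr hcm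
  have hγ1 : ((QuotientGroup.mk' Q) γ) ^ m' = 1 := by rw [← map_pow]; exact (hπ _).mpr hγm
  -- γ² commutes with c
  have hsq : Commute (((QuotientGroup.mk' Q) γ) ^ 2) ((QuotientGroup.mk' Q) c) := by
    have k2 : (QuotientGroup.mk' Q) γ * ((QuotientGroup.mk' Q) c)⁻¹ * ((QuotientGroup.mk' Q) γ)⁻¹ =
        (QuotientGroup.mk' Q) c := by
      have : (QuotientGroup.mk' Q) γ * ((QuotientGroup.mk' Q) c)⁻¹ * ((QuotientGroup.mk' Q) γ)⁻¹ =
          ((QuotientGroup.mk' Q) γ * (QuotientGroup.mk' Q) c * ((QuotientGroup.mk' Q) γ)⁻¹)⁻¹ := by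
        group
      rw [this, key, inv_inv]
    rw [pow_two]
    show (QuotientGroup.mk' Q) γ * (QuotientGroup.mk' Q) γ * (QuotientGroup.mk' Q) c =
      (QuotientGroup.mk' Q) c * ((QuotientGroup.mk' Q) γ * (QuotientGroup.mk' Q) γ)
    calc (QuotientGroup.mk' Q) γ * (QuotientGroup.mk' Q) γ * (QuotientGroup.mk' Q) c
        = (QuotientGroup.mk' Q) γ * ((QuotientGroup.mk' Q) γ * (QuotientGroup.mk' Q) c *
            ((QuotientGroup.mk' Q) γ)⁻¹) * (QuotientGroup.mk' Q) γ := by group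
      _ = (QuotientGroup.mk' Q) γ * ((QuotientGroup.mk' Q) c)⁻¹ * (QuotientGroup.mk' Q) γ := by
          rw [key]
      _ = ((QuotientGroup.mk' Q) γ * ((QuotientGroup.mk' Q) c)⁻¹ * ((QuotientGroup.mk' Q) γ)⁻¹) *
            ((QuotientGroup.mk' Q) γ * (QuotientGroup.mk' Q) γ) := by group
      _ = (QuotientGroup.mk' Q) c * ((QuotientGroup.mk' Q) γ * (QuotientGroup.mk' Q) γ) := by
          rw [k2]
  obtain ⟨r, hr⟩ := hm'
  have hγeq : (QuotientGroup.mk' Q) γ = ((((QuotientGroup.mk' Q) γ) ^ 2) ^ (r + 1)) := by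
    rw [← pow_mul]
    have : 2 * (r + 1) = m' + 1 := by omega
    rw [this, pow_succ, hγ1, one_mul]
  have hγc : Commute ((QuotientGroup.mk' Q) γ) ((QuotientGroup.mk' Q) c) := by
    rw [hγeq]
    exact hsq.pow_left _
  have hcc : (QuotientGroup.mk' Q) c = ((QuotientGroup.mk' Q) c)⁻¹ := by
    rw [← key, hγc.eq, mul_inv_cancel_right]
  have hc2 : ((QuotientGroup.mk' Q) c) ^ 2 = 1 := by
    rw [pow_two]
    nth_rewrite 1 [hcc]
    exact inv_mul_cancel _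
  obtain ⟨s, hs⟩ := hm
  have hfin : (QuotientGroup.mk' Q) c = 1 := by
    have : ((QuotientGroup.mk' Q) c) ^ m = (QuotientGroup.mk' Q) c := by
      rw [hs, pow_succ, pow_mul, hc2, one_pow, one_mul]
    rw [← this, hc1]
  exact (hπ c).mp hfin

end Cfsg.Agent.Lib.Helper78.JN
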