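import Mathlib
import Cfsg.Agent.Lib.Helper78.JNDefs
import Cfsg.Agent.S0612
import Cfsg.Agent.S0616

set_option autoImplicit false

namespace Cfsg.Agent.Lib.Helper78.JN

open Cfsg.Agent.Lib.Helper72.JL
open Cfsg.Agent.Lib.Helper72.SC
open Cfsg.Agent.Lib.Helper78.Jc

open scoped commutatorElement

universe u

theorem offa_card_SL22 : Nat.card (Matrix.SpecialLinearGroup (Fin 2) (ZMod 2)) = 6 := by
  rw [Nat.card_eq_fintype_card]
  decide +kernel

theorem offa : OffaStmt.{u} := by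
  intro G _ _ V H hV hHV hf hS1 hS3 A hAH hA z hnc
  have : Fact (Nat.Prime 2) := ⟨Nat.prime_two⟩
  obtain ⟨a, haA, haz⟩ := hnc
  have hA1 : A ≠ ⊥ := by
    intro h
    rw [h, Subgroup.mem_bot] at haA
    apply haz
    rw [haA, one_mul, mul_one]
  have hH1 : H ≠ ⊥ := by
    intro h
    apply hA1
    rw [h] at hAH
    exact le_bot_iff.mp hAH
  obtain ⟨k, B, hB, -, hBsup⟩ := Cfsg.Agent.S0612.result V H hV hHV hf hS1 hS3 hH1 A hAH hA hA1
  -- some `B i` does not centralize `z`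
  have hex : ∃ i, ∃ b ∈ B i, b * z ≠ z * b := by
    by_contra hcon
    push Not at hcon
    apply haz
    have hle : A ≤ Subgroup.centralizer ({z} : Set G) := by
      rw [← hBsup]
      refine iSup_le (fun i => ?_)
      intro b hb
      rw [Subgroup.mem_centralizer_iff]
      intro h hh
      rw [Set.mem_singleton_iff] at hh
      rw [hh]
      exact (hcon i b hb).symm
    have := hle haA
    rw [Subgroup.mem_centralizer_iff] at this
    exact (this z rfl).symm
  obtain ⟨i, b, hbB, hbz⟩ := hex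
  obtain ⟨hBA, hBbo, hBV, hBmin⟩ := hB i
  obtain ⟨-, hiso, hc4, hinf, hsup, hcomm, hED, hEDH, hVD⟩ :=
    Cfsg.Agent.S0616.result V H hV hHV hf hS1 hS3 hH1 (B i) (hBA.trans hAH) hBbo hBV hBmin
  refine ⟨⁅((Cfsg.pPrimeCore 2 ↥H).map H.subtype), B i⁆ ⊔ B i,
    H ⊓ Subgroup.centralizer ((⁅V, ⁅((Cfsg.pPrimeCore 2 ↥H).map H.subtype), B i⁆ ⊔ B i⁆ :
      Subgroup G) : Set G), b, hBA hbB, (le_sup_right : B i ≤ _) hbB, hbz, ?_, ?_, hinf, hsup, ?_,
    hED, hEDH, inf_le_right, hVD⟩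
  · obtain ⟨e⟩ := hiso
    rw [Nat.card_congr e.toEquiv]
    exact offa_card_SL22
  · exact hc4.trans (by norm_num)
  · intro e he d hd
    have h1 : ⁅e, d⁆ ∈ (⊥ : Subgroup G) := by
      rw [← hcomm]
      exact Subgroup.commutator_mem_commutator he hd
    rw [Subgroup.mem_bot, commutatorElement_def] at h1
    calc e * d = e * d * e⁻¹ * d⁻¹ * (d * e) := by group
      _ = d * e := by rw [h1, one_mul]

end Cfsg.Agent.Lib.Helper78.JN
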