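import Mathlib
import Cfsg.Agent.Lib.Helper78.JQDefs
import Cfsg.Agent.Lib.Helper78.JNDefs
import Cfsg.Agent.Lib.Helper88.JcK3
import Cfsg.Agent.Lib.Helper82.JcOCPC
import Cfsg.Agent.Lib.Helper75.JcWF
import Cfsg.Agent.Lib.Helper94.JcTH

/-! Assembly for the S2945 project JQ (helper78). -/

set_option autoImplicit false

namespace Cfsg.Agent.Lib.Helper78.JQ

open Cfsg.Agent.Lib.Helper78.Jc
open Cfsg.Agent.Lib.Helper82.Jc

universe u

theorem mem_cj {X : Type*} [Group X] (a : X) (W : Subgroup X) (x : X) :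
    x ∈ cj a W ↔ a⁻¹ * x * a ∈ W := by
  unfold cj
  constructor
  · rintro ⟨w, hw, rfl⟩
    have : a⁻¹ * ((MulAut.conj a).toMonoidHom w) * a = w := by
      simp only [MulEquiv.coe_toMonoidHom, MulAut.conj_apply]
      group
    rw [this]; exact hw
  · intro h
    refine ⟨a⁻¹ * x * a, h, ?_⟩
    simp only [MulEquiv.coe_toMonoidHom, MulAut.conj_apply]
    group

theorem card_cj {X : Type*} [Group X] (a : X) (W : Subgroup X) :
    Nat.card ↥(cj a W) = Nat.card ↥W := by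
  unfold cj
  exact Subgroup.card_map_of_injective (MulEquiv.injective (MulAut.conj a))

theorem cj_le_of_normal {X : Type*} [Group X] (a : X) (W U : Subgroup X) (hU : U.Normal)
    (hWU : W ≤ U) : cj a W ≤ U := by
  intro x hx
  rw [mem_cj] at hx
  have h := hU.conj_mem _ (hWU hx) a
  have e : a * (a⁻¹ * x * a) * a⁻¹ = x := by group
  rwa [e] at h

theorem ocSub_normal_of {X : Type*} [Group X] (R : Subgroup X) (hR : R.Normal) :
    (ocSub R).Normal := by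
  constructor
  intro u hu g
  obtain ⟨huR, huc, hu2⟩ := hu
  refine ⟨hR.conj_mem u huR g, ?_, ?_⟩
  · intro r hr
    have h1 : g⁻¹ * r * g ∈ R := by
      have := hR.conj_mem r hr g⁻¹
      rwa [inv_inv] at this
    have h2 := huc _ h1
    calc g * u * g⁻¹ * r = g * (u * (g⁻¹ * r * g)) * g⁻¹ := by group
      _ = g * ((g⁻¹ * r * g) * u) * g⁻¹ := by rw [h2]
      _ = r * (g * u * g⁻¹) := by group
  · calc g * u * g⁻¹ * (g * u * g⁻¹) = g * (u * u) * g⁻¹ := by group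
      _ = 1 := by rw [hu2]; group

/-- the abstract theorem from its pieces -/
theorem abs_of_pieces (hRnk : RnkStmt.{u}) (hRcw : RcwStmt.{u}) (hSub3 : Sub3Stmt.{u})
    (hLaba : LabaStmt.{u}) (hLabc : LabcStmt.{u}) (hInd : IndStmt.{u}) (hCntb : CntbStmt.{u})
    (hCnte : CnteStmt.{u}) (hVw : Cfsg.Agent.Lib.Helper78.JN.VwStmt.{u}) : AbsStmt.{u} := by
  intro X _ _ K O W A hKsn hKodd hOK hKO hO2 h3 hP2 hW4 hW2 hWO hOW hNKW hWc hfp hAc hA2 hmax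
  obtain ⟨hRK, hOR⟩ := hRnk X K O hKsn hKodd hOK hKO hO2
  have hRn : (Cfsg.pCore 2 X).Normal := pCore_normal_aux 2 X
  have hR2 : IsPGroup 2 ↥(Cfsg.pCore 2 X) := pCore_isPGroup_aux 2 X
  obtain ⟨y, hyK, hyO, hy3⟩ := Cfsg.Agent.Lib.Helper88.Jc.k3_exists K O hOK hKO hO2 h3 hKodd
  have hcases := Cfsg.Agent.Lib.Helper88.Jc.k3_cases K O hOK hKO h3 y hyK hyO
  have hfpf := hfp y hyK hyO hy3
  have hRW : Cfsg.pCore 2 X ≤ Subgroup.normalizer (W : Set X) := hRK.trans hNKW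
  have hyW : y ∈ Subgroup.normalizer (W : Set X) := hNKW (Subgroup.le_normalizer hyK)
  have hRc := hRcw X (Cfsg.pCore 2 X) K O W y hRn hR2 hRK hRW hP2 hOW hyK hy3 hyW hW4 hfpf
  have hUn : (ocSub (Cfsg.pCore 2 X)).Normal := ocSub_normal_of _ hRn
  have hUc : ∀ a ∈ ocSub (Cfsg.pCore 2 X), ∀ b ∈ ocSub (Cfsg.pCore 2 X), a * b = b * a :=
    fun a ha b hb => ha.2.1 b hb.1
  have hU2 : ∀ a ∈ ocSub (Cfsg.pCore 2 X), a * a = 1 := fun a ha => ha.2.2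
  have hUR : ocSub (Cfsg.pCore 2 X) ≤ Cfsg.pCore 2 X := fun a ha => ha.1
  have hWU : W ≤ ocSub (Cfsg.pCore 2 X) := fun w hw =>
    ⟨hOR (hWO hw), fun r hr => (hRc r hr w hw).symm, hW2 w hw⟩
  have hO_U : ∀ o ∈ O, ∀ v ∈ ocSub (Cfsg.pCore 2 X), o * v = v * o :=
    fun o ho v hv => (hv.2.1 o (hOR ho)).symm
  have hvw := hVw X (ocSub (Cfsg.pCore 2 X)) (Cfsg.pCore 2 X) K O W y hUn hUc hU2 hUR hRK hP2
    hO_U hyK hy3 hWc
  obtain ⟨N, hNn, hyN, hN3⟩ :=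
    hSub3 X (ocSub (Cfsg.pCore 2 X)) K O y hUn hKsn hO_U hyK hy3 hcases
  have hind : ∀ a ∈ A, cj a W ≠ W → ∀ w ∈ W, (a * y * a⁻¹) * w = w * (a * y * a⁻¹) := by
    intro a _ hne
    have hWaU : cj a W ≤ ocSub (Cfsg.pCore 2 X) := cj_le_of_normal a W _ hUn hWU
    have hWa4 : Nat.card ↥(cj a W) = 4 := by rw [card_cj]; exact hW4
    have hvwa : ∀ v ∈ ocSub (Cfsg.pCore 2 X),
        v⁻¹ * ((a * y * a⁻¹) * v * (a * y * a⁻¹)⁻¹) ∈ cj a W := by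
      intro v hv
      rw [mem_cj]
      have hv' : a⁻¹ * v * a ∈ ocSub (Cfsg.pCore 2 X) := by
        have := hUn.conj_mem v hv a⁻¹
        rwa [inv_inv] at this
      have h := hvw _ hv'
      have e : a⁻¹ * (v⁻¹ * ((a * y * a⁻¹) * v * (a * y * a⁻¹)⁻¹)) * a
          = (a⁻¹ * v * a)⁻¹ * (y * (a⁻¹ * v * a) * y⁻¹) := by group
      rw [e]; exact h
    have hfpa : ∀ w ∈ cj a W, (a * y * a⁻¹) * w * (a * y * a⁻¹)⁻¹ = w → w = 1 := by
      intro w hw hfix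
      rw [mem_cj] at hw
      have e : y * (a⁻¹ * w * a) * y⁻¹ = a⁻¹ * ((a * y * a⁻¹) * w * (a * y * a⁻¹)⁻¹) * a := by
        group
      have h := hfpf _ hw (by rw [e, hfix])
      have e2 : w = a * (a⁻¹ * w * a) * a⁻¹ := by group
      rw [e2, h]; group
    have hinf := hLaba X _ N (cj a W) W (a * y * a⁻¹) y hUn hUc hU2 hN3 (hNn.conj_mem y hyN a)
      hyN hWaU hWU hWa4 hW4 hvwa hvw hfpa hfpf hne
    exact hLabc X _ N (cj a W) W (a * y * a⁻¹) y hUn hUc hU2 hN3 (hNn.conj_mem y hyN a) hyN hWaU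
      hWU hWa4 hW4 hvwa hvw hfpa hfpf hinf
  obtain ⟨i1, i2, i3⟩ := hInd X _ A W y hUn hUc hWU hW4 hyW hfpf hind
  have hb := hCntb X _ A W y hUn hUc hU2 hAc hA2 hWU hW4 hvw hfpf hind i2 i3
  exact hCnte X _ A W hUn hUc hU2 hAc hA2 hmax hWU i1 hb

/-- `J(T) ≤ N_G(W_K)` from the abstract theorem and the transport pieces -/
theorem final_of_pieces (hAbs : AbsStmt.{u}) (hTrda : TrdaStmt.{u}) (hTrdb : TrdbStmt.{u})
    (hTrdc : TrdcStmt.{u}) (hMaxx : MaxxStmt.{u}) (hSubn : SubnStmt.{u})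
    {G : Type u} [Group G] [Finite G] (T L : Subgroup G) (hLT : L ∈ Cfsg.jOvergroups T)
    (K : Subgroup G) (hKL : K ≤ L)
    (hKsn : (K.subgroupOf (K ⊔ Cfsg.thompsonSubgroupOf 2 T)).IsSubnormal)
    (T₀ : Subgroup G) (hK : Cfsg.IsJComponent T₀ K) :
    Cfsg.thompsonSubgroupOf 2 T ≤ Subgroup.normalizer (Cfsg.wOf K : Set G) := by
  apply Cfsg.Agent.Lib.Helper94.Jc.th_le_of_forall
  intro A hA
  have hAJ : A ≤ Cfsg.thompsonSubgroupOf 2 T := Cfsg.Agent.Lib.Helper94.Jc.th_le T A hA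
  have hKH : K ≤ K ⊔ A := le_sup_left
  have hAH : A ≤ K ⊔ A := le_sup_right
  have hHL : K ⊔ A ≤ L := sup_le hKL (hA.1.trans hLT.1.1)
  have hsub := hSubn G K _ A hKsn hAJ
  obtain ⟨a1, a2, a3, a4, a5, a6, a7⟩ := hTrda G T₀ K (K ⊔ A) hK hKH
  obtain ⟨b1, b2, b3, b4, b5⟩ := hTrdb G T₀ K (K ⊔ A) hK hKH
  have c1 := hTrdc G T₀ K (K ⊔ A) hK hKH
  obtain ⟨m1, m2, m3⟩ := hMaxx G T L A (K ⊔ A) hLT.1 hA hHL hAH
  have key := hAbs ↥(K ⊔ A) (K.subgroupOf (K ⊔ A)) ((Cfsg.pCoreOf 2 K).subgroupOf (K ⊔ A))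
    ((Cfsg.wOf K).subgroupOf (K ⊔ A)) (A.subgroupOf (K ⊔ A)) hsub b1 a1 a2 a3 a4 a5 a6 b2 b3 b4
    b5 a7 c1 m1 m2 m3
  have hKNO : K ≤ Subgroup.normalizer (Cfsg.pCoreOf 2 K : Set G) := pc_le_normalizer K
  have hWle : Cfsg.wOf K ≤ Cfsg.omegaCenterOf (Cfsg.pCoreOf 2 K) :=
    Cfsg.Agent.Lib.Helper75.Jc.wf_le _ K (hKNO.trans (oc_normalizer (Cfsg.pCoreOf 2 K)))
  have hWH : Cfsg.wOf K ≤ K ⊔ A :=
    hWle.trans ((oc_le (Cfsg.pCoreOf 2 K)).trans ((pc_le K).trans hKH))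
  intro a ha
  have hmem := key (show (⟨a, hAH ha⟩ : ↥(K ⊔ A)) ∈ A.subgroupOf (K ⊔ A) from ha)
  rw [Subgroup.mem_normalizer_iff] at hmem ⊢
  intro w
  constructor
  · intro hw
    exact (hmem ⟨w, hWH hw⟩).1 hw
  · intro hw
    have hwH : w ∈ K ⊔ A := by
      have h1 : a * w * a⁻¹ ∈ K ⊔ A := hWH hw
      have e : w = a⁻¹ * (a * w * a⁻¹) * a := by group
      rw [e]
      exact mul_mem (mul_mem (inv_mem (hAH ha)) h1) (hAH ha)
    exact (hmem ⟨w, hwH⟩).2 hw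

end Cfsg.Agent.Lib.Helper78.JQ
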