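import Mathlib
import Cfsg.Agent.Lib.Helper78.JQDefs
import Cfsg.Agent.Lib.Helper13.JNPb1

/-! Project JQ (helper78, S2945), piece MAXX. -/

set_option autoImplicit false

namespace Cfsg.Agent.Lib.Helper78.JQ

open Cfsg.Agent.Lib.Helper78.Jc

universe u

theorem maxx : MaxxStmt.{u} := by
  intro G _ _ T L A H hSyl hA hHL hAH
  obtain ⟨hAT, hAc, hA2, hmax⟩ := hA
  refine ⟨?_, ?_, ?_⟩
  · intro a ha b hb
    exact Subtype.ext (hAc a ha b hb)
  · intro a ha
    exact Subtype.ext (hA2 a ha)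
  · intro E hEc hE2
    have hE'c : ∀ a ∈ E.map H.subtype, ∀ b ∈ E.map H.subtype, a * b = b * a := by
      rintro _ ⟨a, ha, rfl⟩ _ ⟨b, hb, rfl⟩
      have := hEc a ha b hb
      exact congrArg Subtype.val this
    have hE'2 : ∀ a ∈ E.map H.subtype, a * a = 1 := by
      rintro _ ⟨a, ha, rfl⟩
      exact congrArg Subtype.val (hE2 a ha)
    have hE'L : E.map H.subtype ≤ L := by
      rintro _ ⟨a, _, rfl⟩
      exact hHL a.2
    have hE'p : IsPGroup 2 ↥(E.map H.subtype) := by
      intro x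
      refine ⟨1, ?_⟩
      apply Subtype.ext
      rw [pow_one, Subgroup.coe_pow, Subgroup.coe_one, pow_two]
      exact hE'2 x x.2
    obtain ⟨x, _, hx⟩ :=
      Cfsg.Agent.Lib.Helper13.JN.pb1_sylow_conj T L (E.map H.subtype) hSyl hE'p hE'L
    have hBT : (E.map H.subtype).map (MulAut.conj x⁻¹).toMonoidHom ≤ T := by
      rintro _ ⟨e, he, rfl⟩
      obtain ⟨t, ht, rfl⟩ := hx he
      have e1 : (MulAut.conj x⁻¹).toMonoidHom ((MulAut.conj x).toMonoidHom t) = t := by
        simp only [MulEquiv.coe_toMonoidHom, MulAut.conj_apply]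
        group
      rw [e1]
      exact ht
    have hBc : ∀ a ∈ (E.map H.subtype).map (MulAut.conj x⁻¹).toMonoidHom,
        ∀ b ∈ (E.map H.subtype).map (MulAut.conj x⁻¹).toMonoidHom, a * b = b * a := by
      rintro _ ⟨a, ha, rfl⟩ _ ⟨b, hb, rfl⟩
      rw [← map_mul, ← map_mul, hE'c a ha b hb]
    have hB2 : ∀ a ∈ (E.map H.subtype).map (MulAut.conj x⁻¹).toMonoidHom, a * a = 1 := by
      rintro _ ⟨a, ha, rfl⟩
      rw [← map_mul, hE'2 a ha, map_one]
    have h1 := hmax _ hBT hBc hB2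
    have c1 : Nat.card ↥((E.map H.subtype).map (MulAut.conj x⁻¹).toMonoidHom) = Nat.card ↥E := by
      rw [Subgroup.card_map_of_injective (MulEquiv.injective (MulAut.conj x⁻¹)),
        Subgroup.card_map_of_injective (Subgroup.subtype_injective H)]
    have c2 : Nat.card ↥(A.subgroupOf H) = Nat.card ↥A :=
      Nat.card_congr (Subgroup.subgroupOfEquivOfLe hAH).toEquiv
    rw [c2, ← c1]
    exact h1

end Cfsg.Agent.Lib.Helper78.JQ
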