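import Mathlib
import Cfsg.Agent.Lib.Helper78.JQDefs

/-! Project JQ (helper78, S2945), piece SUBN. -/

set_option autoImplicit false

namespace Cfsg.Agent.Lib.Helper78.JQ

universe u

theorem subn : SubnStmt.{u} := by
  intro G _ K J A h hAJ
  have hle : K ⊔ A ≤ K ⊔ J := sup_le_sup_left hAJ K
  have h2 := h.comap (Subgroup.inclusion hle)
  have e : (K.subgroupOf (K ⊔ J)).comap (Subgroup.inclusion hle) = K.subgroupOf (K ⊔ A) := by
    ext x
    simp only [Subgroup.mem_comap, Subgroup.mem_subgroupOf, Subgroup.coe_inclusion]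
  rwa [e] at h2

end Cfsg.Agent.Lib.Helper78.JQ
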