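import Mathlib
import Cfsg.Agent.Lib.Helper23.G168d

set_option autoImplicit false
set_option linter.style.haveILetI false

namespace Cfsg.Agent.Lib.Helper78.K168

open Subgroup
open Cfsg.Agent.Lib.Helper23

/-- explicit four-group from two commuting involutions -/
def kf {G : Type*} [Group G] (z s : G) (hz : z * z = 1) (hs : s * s = 1) (hzs : z * s = s * z) :
    Subgroup G where
  carrier := {1, z, s, s * z}
  mul_mem' := by
    intro a b ha hb
    simp only [Set.mem_insert_iff, Set.mem_singleton_iff] at ha hb ⊢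
    have e1 : s * z * z = s := by rw [mul_assoc, hz, mul_one]
    have e2 : s * (s * z) = z := by rw [← mul_assoc, hs, one_mul]
    have e3 : s * z * s = z := by rw [mul_assoc, hzs, ← mul_assoc, hs, one_mul]
    have e4 : s * z * (s * z) = 1 := by rw [← mul_assoc, e3, hz]
    have e5 : z * (s * z) = s := by rw [← mul_assoc, hzs, e1]
    rcases ha with rfl | rfl | rfl | rfl <;> rcases hb with rfl | rfl | rfl | rfl <;>
      simp [hz, hs, hzs, e1, e2, e3, e4, e5]
  one_mem' := by simp
  inv_mem' := by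
    intro a ha
    simp only [Set.mem_insert_iff, Set.mem_singleton_iff] at ha ⊢
    have i1 : z⁻¹ = z := inv_eq_of_mul_eq_one_left hz
    have i2 : s⁻¹ = s := inv_eq_of_mul_eq_one_left hs
    rcases ha with rfl | rfl | rfl | rfl
    · simp
    · simp [i1]
    · simp [i2]
    · right; right; right; rw [mul_inv_rev, i1, i2, hzs]

theorem mem_kf {G : Type*} [Group G] (z s : G) (hz : z * z = 1) (hs : s * s = 1)
    (hzs : z * s = s * z) (x : G) :
    x ∈ kf z s hz hs hzs ↔ x = 1 ∨ x = z ∨ x = s ∨ x = s * z := Iff.rfl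

theorem card_kf {G : Type*} [Group G] (z s : G) (hz : z * z = 1) (hs : s * s = 1)
    (hzs : z * s = s * z) (hz1 : z ≠ 1) (hs1 : s ≠ 1) (hsz : s ≠ z) :
    Nat.card (kf z s hz hs hzs) = 4 := by
  classical
  have h1 : Nat.card (kf z s hz hs hzs) = ((kf z s hz hs hzs : Subgroup G) : Set G).ncard := rfl
  have h2 : ((kf z s hz hs hzs : Subgroup G) : Set G) = {1, z, s, s * z} := rfl
  rw [h1, h2]
  have i1 : z⁻¹ = z := inv_eq_of_mul_eq_one_left hz
  have a1 : s * z ≠ 1 := by
    intro h; apply hsz; rw [← i1]; exact eq_inv_of_mul_eq_one_left h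
  have a2 : s * z ≠ z := by
    intro h; apply hs1; simpa using h
  have a3 : s * z ≠ s := by
    intro h; apply hz1; simpa using h
  rw [Set.ncard_insert_of_notMem, Set.ncard_insert_of_notMem, Set.ncard_pair]
  · exact fun h => a3 h.symm
  · simp only [Set.mem_insert_iff, Set.mem_singleton_iff, not_or]
    exact ⟨fun h => hsz h.symm, fun h => a2 h.symm⟩
  · simp only [Set.mem_insert_iff, Set.mem_singleton_iff, not_or]
    exact ⟨fun h => hz1 h.symm, fun h => hs1 h.symm, fun h => a1 h.symm⟩

theorem isKleinFour_of {G : Type*} [Group G] (U : Subgroup G) (hc : Nat.card U = 4)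
    (he : ∀ x ∈ U, x * x = 1) : IsKleinFour U := by
  refine ⟨hc, ?_⟩
  have h1 : Monoid.exponent U ∣ 2 := by
    apply Monoid.exponent_dvd_of_forall_pow_eq_one
    intro g
    apply Subtype.ext
    simp only [Subgroup.coe_one, pow_two]
    exact he g.1 g.2
  have h2 : Monoid.exponent U ≠ 1 := by
    intro h
    rw [Monoid.exp_eq_one_iff] at h
    have := Nat.card_eq_one_iff_unique.mpr ⟨h, ⟨1⟩⟩
    omega
  have h3 : Monoid.exponent U ≤ 2 := Nat.le_of_dvd (by norm_num) h1
  have h4 : Monoid.exponent U ≠ 0 := by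
    intro h; rw [h] at h1; simp at h1
  omega

theorem kleinFour_sq {G : Type*} [Group G] (U : Subgroup G) [hU : IsKleinFour U] (x : G)
    (hx : x ∈ U) : x * x = 1 := by
  have h1 : (⟨x, hx⟩ : U) ^ 2 = 1 := by
    have := Monoid.pow_exponent_eq_one (⟨x, hx⟩ : U)
    rwa [IsKleinFour.exponent_two] at this
  have h2 := congrArg Subtype.val h1
  simpa [pow_two] using h2

section
variable {G : Type*} [Group G] [Finite G] [IsSimpleGroup G]

/-- elements of a cyclic group of order 4 -/
theorem mem_zpowers_four {G : Type*} [Group G] [Finite G] (u x : G) (hu4 : orderOf u = 4)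
    (hx : x ∈ zpowers u) : x = 1 ∨ x = u ∨ x = u ^ 2 ∨ x = u ^ 3 := by
  classical
  rw [mem_zpowers_iff_mem_range_orderOf, hu4] at hx
  simp only [Finset.mem_image, Finset.mem_range] at hx
  obtain ⟨k, hk, rfl⟩ := hx
  interval_cases k <;> simp

/-- structure data of a Sylow 2-subgroup of a simple group of order 168 -/
theorem t_struct (h : Nat.card G = 168) (T : Sylow 2 G) :
    ∃ u : G, u ∈ (T : Subgroup G) ∧ orderOf u = 4 ∧
      (∀ t ∈ (T : Subgroup G), t ∉ zpowers u → t * t = 1) ∧
      (∃ s ∈ (T : Subgroup G), s ∉ zpowers u) ∧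
      (∀ t ∈ (T : Subgroup G), ∀ t' ∈ (T : Subgroup G), t ∉ zpowers u → t' ∉ zpowers u →
        t * t' ∈ zpowers u) ∧
      (∀ x ∈ zpowers u, x * x = 1 → x = 1 ∨ x = u ^ 2) := by
  obtain ⟨u, huT, hu4⟩ := g168_exists_order_four h T
  have hT8 := g168_card_sylow2 h T
  have hCT : zpowers u ≤ (T : Subgroup G) := by rw [zpowers_le]; exact huT
  have hC4 : Nat.card (zpowers u) = 4 := by rw [Nat.card_zpowers, hu4]
  refine ⟨u, huT, hu4, ?_, ?_, ?_, ?_⟩
  · intro t ht htC
    have ht1 : t ≠ 1 := by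
      rintro rfl; exact htC (one_mem _)
    rcases g168_orderOf_two_or_four h t (g168_orderOf_dvd_of_mem h T t ht) ht1 with h2 | h4
    · have := pow_orderOf_eq_one t
      rw [h2, pow_two] at this
      exact this
    · exact absurd (g168_four_mem_zpowers h T u t huT ht hu4 h4) htC
  · by_contra hno
    push Not at hno
    have hle : (T : Subgroup G) ≤ zpowers u := fun s hs => hno s hs
    have := Subgroup.card_le_of_le hle
    omega
  · intro t ht t' ht' htC ht'C
    have hidx : ((zpowers u).subgroupOf (T : Subgroup G)).index = 2 := by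
      have h1 := ((zpowers u).subgroupOf (T : Subgroup G)).card_mul_index
      have h2 : Nat.card ((zpowers u).subgroupOf (T : Subgroup G)) = 4 := by
        rw [Nat.card_congr (Subgroup.subgroupOfEquivOfLe hCT).toEquiv, hC4]
      rw [h2, hT8] at h1
      omega
    have h3 := Subgroup.mul_mem_iff_of_index_two hidx
      (a := (⟨t, ht⟩ : (T : Subgroup G))) (b := ⟨t', ht'⟩)
    simp only [Subgroup.mem_subgroupOf, Subgroup.coe_mul] at h3
    exact h3.mpr ⟨fun hh => absurd hh htC, fun hh => absurd hh ht'C⟩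
  · intro x hx hxx
    have hu4' : u ^ 4 = 1 := by rw [← hu4]; exact pow_orderOf_eq_one u
    have hu2 : u ^ 2 ≠ 1 := by
      apply pow_ne_one_of_lt_orderOf (by norm_num)
      rw [hu4]; norm_num
    rcases mem_zpowers_four u x hu4 hx with rfl | rfl | rfl | rfl
    · left; rfl
    · exfalso; apply hu2; rw [pow_two]; exact hxx
    · right; rfl
    · exfalso; apply hu2
      have : u ^ 3 * u ^ 3 = u ^ 4 * u ^ 2 := by rw [← pow_add, ← pow_add]
      rw [this, hu4', one_mul] at hxx
      exact hxx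

/-- The two four-subgroups of a Sylow 2-subgroup. -/
theorem exists_klein_pair (h : Nat.card G = 168) (T : Sylow 2 G) :
    ∃ U₁ U₂ : Subgroup G, U₁ ≤ (T : Subgroup G) ∧ U₂ ≤ (T : Subgroup G) ∧ IsKleinFour U₁ ∧
      IsKleinFour U₂ ∧ U₁ ≠ U₂ ∧
      ∀ U : Subgroup G, U ≤ (T : Subgroup G) → IsKleinFour U → U = U₁ ∨ U = U₂ := by
  obtain ⟨u, huT, hu4, hA, ⟨s₀, hs₀T, hs₀C⟩, hC, hD⟩ := t_struct h T
  have hu4' : u ^ 4 = 1 := by rw [← hu4]; exact pow_orderOf_eq_one u
  have hz1 : u ^ 2 ≠ 1 := by
    apply pow_ne_one_of_lt_orderOf (by norm_num)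
    rw [hu4]; norm_num
  have hz : u ^ 2 * u ^ 2 = 1 := by rw [← pow_add]; exact hu4'
  have hzC : u ^ 2 ∈ zpowers u := Subgroup.npow_mem_zpowers u 2
  have huC : u ∈ zpowers u := Subgroup.mem_zpowers u
  have hzT : u ^ 2 ∈ (T : Subgroup G) := pow_mem huT 2
  have hzi : (u ^ 2)⁻¹ = u ^ 2 := inv_eq_of_mul_eq_one_left hz
  -- facts for s outside C
  have hs_facts : ∀ s ∈ (T : Subgroup G), s ∉ zpowers u →
      s * s = 1 ∧ u ^ 2 * s = s * u ^ 2 ∧ s ≠ 1 ∧ s ≠ u ^ 2 := by
    intro s hsT hsC
    have hs := hA s hsT hsC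
    have hsi : s⁻¹ = s := inv_eq_of_mul_eq_one_left hs
    have hszC : s * u ^ 2 ∉ zpowers u := by
      intro hh
      apply hsC
      have := (zpowers u).mul_mem hh ((zpowers u).inv_mem hzC)
      simpa using this
    have h1 := hA (s * u ^ 2) ((T : Subgroup G).mul_mem hsT hzT) hszC
    refine ⟨hs, ?_, ?_, ?_⟩
    · have h2 : s * u ^ 2 = (s * u ^ 2)⁻¹ := (inv_eq_of_mul_eq_one_left h1).symm
      rw [mul_inv_rev, hzi, hsi] at h2
      exact h2.symm
    · rintro rfl; exact hsC (one_mem _)
    · rintro rfl; exact hsC hzC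
  -- every four-subgroup of T with an element s outside C is kf z s
  have huniq : ∀ (s : G) (hsT : s ∈ (T : Subgroup G)) (hsC : s ∉ zpowers u)
      (U : Subgroup G), U ≤ (T : Subgroup G) → IsKleinFour U → s ∈ U →
      U = kf (u ^ 2) s hz (hs_facts s hsT hsC).1 (hs_facts s hsT hsC).2.1 := by
    intro s hsT hsC U hUT hUK hsU
    obtain ⟨hs, hzs, hs1, hsz⟩ := hs_facts s hsT hsC
    have hsi : s⁻¹ = s := inv_eq_of_mul_eq_one_left hs
    have hU4 : Nat.card U = 4 := IsKleinFour.card_four
    have hzU : u ^ 2 ∈ U := by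
      have hex : ∃ a ∈ U, a ≠ 1 ∧ a ≠ s := by
        by_contra hno
        push Not at hno
        have hsub : (U : Set G) ⊆ {1, s} := by
          intro a ha
          by_cases h1 : a = 1
          · simp [h1]
          · simp [hno a ha h1]
        have h2 := Set.ncard_le_ncard hsub (Set.toFinite _)
        have h3 : ({1, s} : Set G).ncard ≤ 2 := by
          have := Set.ncard_insert_le (1 : G) ({s} : Set G)
          rw [Set.ncard_singleton] at this
          exact this
        have h4 : (U : Set G).ncard = 4 := hU4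
        omega
      obtain ⟨a, haU, ha1, has⟩ := hex
      have haa := kleinFour_sq U a haU
      by_cases haC : a ∈ zpowers u
      · rcases hD a haC haa with h1 | h1
        · exact absurd h1 ha1
        · rw [← h1]; exact haU
      · have h1 := hC s hsT a (hUT haU) hsC haC
        have h2 := kleinFour_sq U (s * a) (U.mul_mem hsU haU)
        rcases hD _ h1 h2 with h3 | h3
        · exfalso; apply has
          have := eq_inv_of_mul_eq_one_right h3
          rw [this, hsi]
        · rw [← h3]; exact U.mul_mem hsU haU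
    symm
    apply Subgroup.eq_of_le_of_card_ge
    · intro x hx
      rw [mem_kf] at hx
      rcases hx with rfl | rfl | rfl | rfl
      · exact one_mem _
      · exact hzU
      · exact hsU
      · exact U.mul_mem hsU hzU
    · rw [hU4, card_kf _ _ _ _ _ hz1 hs1 hsz]
  -- existence
  have hexist : ∀ (s : G) (hsT : s ∈ (T : Subgroup G)) (hsC : s ∉ zpowers u),
      kf (u ^ 2) s hz (hs_facts s hsT hsC).1 (hs_facts s hsT hsC).2.1 ≤ (T : Subgroup G) ∧
      IsKleinFour (kf (u ^ 2) s hz (hs_facts s hsT hsC).1 (hs_facts s hsT hsC).2.1) ∧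
      s ∈ kf (u ^ 2) s hz (hs_facts s hsT hsC).1 (hs_facts s hsT hsC).2.1 ∧
      u ^ 2 ∈ kf (u ^ 2) s hz (hs_facts s hsT hsC).1 (hs_facts s hsT hsC).2.1 := by
    intro s hsT hsC
    obtain ⟨hs, hzs, hs1, hsz⟩ := hs_facts s hsT hsC
    refine ⟨?_, ?_, ?_, ?_⟩
    · intro x hx
      rw [mem_kf] at hx
      rcases hx with rfl | rfl | rfl | rfl
      · exact one_mem _
      · exact hzT
      · exact hsT
      · exact (T : Subgroup G).mul_mem hsT hzT
    · apply isKleinFour_of _ (card_kf _ _ _ _ _ hz1 hs1 hsz)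
      intro x hx
      rw [mem_kf] at hx
      rcases hx with rfl | rfl | rfl | rfl
      · simp
      · exact hz
      · exact hs
      · rw [mul_assoc, ← mul_assoc (u ^ 2), hzs, mul_assoc, hz, mul_one, hs]
    · rw [mem_kf]; right; right; left; rfl
    · rw [mem_kf]; right; left; rfl
  have hs₁T : s₀ * u ∈ (T : Subgroup G) := (T : Subgroup G).mul_mem hs₀T huT
  have hs₁C : s₀ * u ∉ zpowers u := by
    intro hh
    apply hs₀C
    have := (zpowers u).mul_mem hh ((zpowers u).inv_mem huC)
    simpa using this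
  obtain ⟨hK₁T, hK₁K, hs₀K₁, hzK₁⟩ := hexist s₀ hs₀T hs₀C
  obtain ⟨hK₂T, hK₂K, hs₁K₂, hzK₂⟩ := hexist (s₀ * u) hs₁T hs₁C
  refine ⟨_, _, hK₁T, hK₂T, hK₁K, hK₂K, ?_, ?_⟩
  · intro heq
    rw [← heq] at hs₁K₂
    have huK : u ∈ kf (u ^ 2) s₀ hz (hs_facts s₀ hs₀T hs₀C).1 (hs_facts s₀ hs₀T hs₀C).2.1 := by
      have := Subgroup.mul_mem _ (Subgroup.inv_mem _ hs₀K₁) hs₁K₂
      simpa using this
    have := @kleinFour_sq G _ _ hK₁K u huK
    apply hz1
    rw [pow_two]; exact this
  · intro U hUT hUK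
    have hU4 : Nat.card U = 4 := IsKleinFour.card_four
    -- an element of U outside C
    have hex : ∃ s ∈ U, s ≠ 1 ∧ s ≠ u ^ 2 := by
      by_contra hno
      push Not at hno
      have hsub : (U : Set G) ⊆ {1, u ^ 2} := by
        intro a ha
        by_cases h1 : a = 1
        · simp [h1]
        · simp [hno a ha h1]
      have h2 := Set.ncard_le_ncard hsub (Set.toFinite _)
      have h3 : ({1, u ^ 2} : Set G).ncard ≤ 2 := by
        have := Set.ncard_insert_le (1 : G) ({u ^ 2} : Set G)
        rw [Set.ncard_singleton] at this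
        exact this
      have h4 : (U : Set G).ncard = 4 := hU4
      omega
    obtain ⟨s, hsU, hs1, hsz⟩ := hex
    have hsT := hUT hsU
    have hss := kleinFour_sq U s hsU
    have hsC : s ∉ zpowers u := by
      intro hh
      rcases hD s hh hss with h1 | h1
      · exact hs1 h1
      · exact hsz h1
    have hzU : u ^ 2 ∈ U := by
      rw [huniq s hsT hsC U hUT hUK hsU, mem_kf]; right; left; rfl
    have hs₀i : s₀⁻¹ = s₀ := inv_eq_of_mul_eq_one_left (hs_facts s₀ hs₀T hs₀C).1
    have h1 := hC s₀ hs₀T s hsT hs₀C hsC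
    have key : ∀ c : G, s₀ * s = c → s = s₀ * c := by
      intro c hc
      have e0 : s = s₀⁻¹ * c := by rw [← hc, inv_mul_cancel_left]
      rw [e0, hs₀i]
    rcases mem_zpowers_four u _ hu4 h1 with h2 | h2 | h2 | h2
    · left
      have e := key _ h2
      rw [mul_one] at e
      rw [huniq s₀ hs₀T hs₀C U hUT hUK (e ▸ hsU)]
    · right
      have e := key _ h2
      rw [huniq (s₀ * u) hs₁T hs₁C U hUT hUK (e ▸ hsU)]
    · left
      have e := key _ h2
      have hs₀U : s₀ ∈ U := by
        have := U.mul_mem hsU hzU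
        rw [e, mul_assoc, hz, mul_one] at this
        exact this
      rw [huniq s₀ hs₀T hs₀C U hUT hUK hs₀U]
    · right
      have e := key _ h2
      have hs₁U : s₀ * u ∈ U := by
        have := U.mul_mem hsU hzU
        have e2 : s₀ * u ^ 3 * u ^ 2 = s₀ * u := by
          rw [mul_assoc, ← pow_add]
          have : u ^ (3 + 2) = u ^ 4 * u := by rw [← pow_succ]
          rw [this, hu4', one_mul]
        rw [e, e2] at this
        exact this
      rw [huniq (s₀ * u) hs₁T hs₁C U hUT hUK hs₁U]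

end

end Cfsg.Agent.Lib.Helper78.K168
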