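import Mathlib
import Cfsg.Agent.Lib.Helper23.G168d
import Cfsg.Agent.Lib.Helper23.Ord24
import Cfsg.Agent.Lib.Helper12.Subnormal
import Cfsg.Agent.Lib.Helper78.K168a

set_option autoImplicit false
set_option linter.style.haveILetI false

namespace Cfsg.Agent.Lib.Helper78.K168

open Subgroup
open Cfsg.Agent.Lib.Helper23

/-- membership in a conjugate subgroup -/
theorem mem_map_conj {G : Type*} [Group G] (U : Subgroup G) (g y : G) :
    y ∈ U.map (MulAut.conj g).toMonoidHom ↔ g⁻¹ * y * g ∈ U := by
  constructor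
  · rintro ⟨u, hu, rfl⟩
    have : g⁻¹ * ((MulAut.conj g).toMonoidHom u) * g = u := by
      simp [MulAut.conj_apply, mul_assoc]
    rw [this]; exact hu
  · intro h
    refine ⟨g⁻¹ * y * g, h, ?_⟩
    simp [MulAut.conj_apply, mul_assoc]

/-- a subgroup of index two is normalized -/
theorem le_normalizer_of_card_double {G : Type*} [Group G] [Finite G] (U S : Subgroup G)
    (hUS : U ≤ S) (hc : Nat.card S = 2 * Nat.card U) : S ≤ normalizer (U : Set G) := by
  have hidx : (U.subgroupOf S).index = 2 := by
    have h1 := (U.subgroupOf S).card_mul_index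
    rw [Nat.card_congr (Subgroup.subgroupOfEquivOfLe hUS).toEquiv, hc] at h1
    have hpos : 0 < Nat.card U := Nat.card_pos
    have h2 : Nat.card U * (U.subgroupOf S).index = Nat.card U * 2 := by rw [h1]; ring
    exact Nat.eq_of_mul_eq_mul_left hpos h2
  have hn : (U.subgroupOf S).Normal := Subgroup.normal_of_index_eq_two hidx
  exact (Subgroup.normal_subgroupOf_iff_le_normalizer hUS).mp hn

theorem kleinFour_comm {G : Type*} [Group G] (U : Subgroup G) [IsKleinFour U] (x b : G)
    (hx : x ∈ U) (hb : b ∈ U) : x * b = b * x := by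
  have h1 := kleinFour_sq U x hx
  have h2 := kleinFour_sq U b hb
  have h3 := kleinFour_sq U (x * b) (U.mul_mem hx hb)
  have hxi : x⁻¹ = x := inv_eq_of_mul_eq_one_left h1
  have hbi : b⁻¹ = b := inv_eq_of_mul_eq_one_left h2
  have h4 : (x * b)⁻¹ = x * b := inv_eq_of_mul_eq_one_left h3
  rw [mul_inv_rev, hxi, hbi] at h4
  exact h4.symm

section
variable {G : Type*} [Group G] [Finite G] [IsSimpleGroup G]

theorem card_centralizer_two (h : Nat.card G = 168) (t : G) (ht : orderOf t = 2) :
    Nat.card (centralizer ({t} : Set G)) = 8 := by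
  obtain ⟨T⟩ : Nonempty (Sylow 2 G) := inferInstance
  obtain ⟨z, hzT, hz2, hzc⟩ := g168_exists_central_involution h T
  have hz1 : z ≠ 1 := by rintro rfl; simp at hz2
  have hCz := g168_centralizer_central h T z hzT hz1 hzc
  have hconj := g168_isConj_two h z t hz2 ht
  have e1 := card_isConj_eq_index z
  have e2 := card_isConj_eq_index t
  have e3 : Nat.card {g : G // IsConj z g} = Nat.card {g : G // IsConj t g} := by
    apply Nat.card_congr
    exact Equiv.subtypeEquivRight
      (fun g => ⟨fun hg => hconj.symm.trans hg, fun hg => hconj.trans hg⟩)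
  have i1 := (centralizer ({z} : Set G)).card_mul_index
  have i2 := (centralizer ({t} : Set G)).card_mul_index
  have hc8 : Nat.card (centralizer ({z} : Set G)) = 8 := by
    rw [hCz]; exact g168_card_sylow2 h T
  rw [hc8, h] at i1
  rw [h] at i2
  have hidx : (centralizer ({t} : Set G)).index = 21 := by
    rw [← e2, ← e3, e1]; omega
  rw [hidx] at i2
  omega

theorem card_normalizer_klein (h : Nat.card G = 168) (U : Subgroup G) [hU : IsKleinFour U] :
    Nat.card (normalizer (U : Set G)) = 24 := by
  have : Fact (Nat.Prime 2) := ⟨by norm_num⟩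
  have hU4 : Nat.card U = 4 := IsKleinFour.card_four
  have hUp : IsPGroup 2 U := IsPGroup.of_card (n := 2) (by rw [hU4]; norm_num)
  obtain ⟨T, hUT⟩ := hUp.exists_le_sylow
  have hT8 := g168_card_sylow2 h T
  have hTN : (T : Subgroup G) ≤ normalizer (U : Set G) :=
    le_normalizer_of_card_double U T hUT (by rw [hT8, hU4])
  have hNtop : normalizer (U : Set G) ≠ ⊤ := by
    intro htop
    have hn : U.Normal := Subgroup.normalizer_eq_top_iff.mp htop
    rcases hn.eq_bot_or_eq_top with h1 | h1
    · rw [h1] at hU4; simp at hU4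
    · rw [h1] at hU4; simp [h] at hU4
  have hle := g168_card_le h _ hNtop
  have hdvd8 : 8 ∣ Nat.card (normalizer (U : Set G)) := by
    rw [← hT8]; exact Subgroup.card_dvd_of_le hTN
  have hdvd : Nat.card (normalizer (U : Set G)) ∣ 168 := by
    rw [← h]; exact Subgroup.card_subgroup_dvd_card _
  have hne8 : Nat.card (normalizer (U : Set G)) ≠ 8 := by
    intro h8
    have hTeq : (T : Subgroup G) = normalizer (U : Set G) :=
      Subgroup.eq_of_le_of_card_ge hTN (by rw [h8, hT8])
    have hcent : ∀ b ∈ U, ∀ t ∈ (T : Subgroup G), t * b = b * t := by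
      intro b hb t ht
      by_cases hb1 : b = 1
      · simp [hb1]
      have hbb := kleinFour_sq U b hb
      have hb2 : orderOf b = 2 := orderOf_eq_prime (by rw [pow_two]; exact hbb) hb1
      have hC8 := card_centralizer_two h b hb2
      have hUC : U ≤ centralizer ({b} : Set G) := by
        intro x hx
        rw [Subgroup.mem_centralizer_singleton_iff]
        exact kleinFour_comm U x b hx hb
      have hCN : centralizer ({b} : Set G) ≤ normalizer (U : Set G) :=
        le_normalizer_of_card_double U _ hUC (by rw [hC8, hU4])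
      have hCeq : centralizer ({b} : Set G) = normalizer (U : Set G) :=
        Subgroup.eq_of_le_of_card_ge hCN (by rw [h8, hC8])
      have hmem : t ∈ centralizer ({b} : Set G) := by rw [hCeq, ← hTeq]; exact ht
      exact Subgroup.mem_centralizer_singleton_iff.mp hmem
    apply g168_sylow2_not_comm h T
    have hle' : U.subgroupOf (T : Subgroup G) ≤ center (T : Subgroup G) := by
      intro x hx
      rw [Subgroup.mem_center_iff]
      intro y
      apply Subtype.ext
      simp only [Subgroup.coe_mul]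
      exact hcent x.1 (Subgroup.mem_subgroupOf.mp hx) y.1 y.2
    have hc4 : Nat.card (U.subgroupOf (T : Subgroup G)) = 4 := by
      rw [Nat.card_congr (Subgroup.subgroupOfEquivOfLe hUT).toEquiv, hU4]
    have hcz := Subgroup.card_dvd_of_le hle'
    rw [hc4] at hcz
    have hci := (center (T : Subgroup G)).card_mul_index
    rw [hT8] at hci
    have hidx : (center (T : Subgroup G)).index ≤ 2 := by
      obtain ⟨k, hk⟩ := hcz
      rw [hk] at hci
      have hk0 : k ≠ 0 := by rintro rfl; simp at hci
      by_contra hgt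
      push Not at hgt
      have hk1 : 1 ≤ k := Nat.one_le_iff_ne_zero.mpr hk0
      have h12 : 4 * 1 * 3 ≤ 4 * k * (center (T : Subgroup G)).index :=
        Nat.mul_le_mul (Nat.mul_le_mul_left 4 hk1) hgt
      omega
    exact ⟨⟨fun a b => mul_comm_of_center_index_le_two hidx a b⟩⟩
  obtain ⟨k, hk⟩ := hdvd8
  rw [hk] at hle hdvd hne8 ⊢
  have hk3 : k ≤ 3 := by omega
  interval_cases k
  · simp at hdvd
  · exact absurd rfl hne8
  · norm_num at hdvd
  · rfl

theorem normalizer_klein_iso (h : Nat.card G = 168) (U : Subgroup G) [hU : IsKleinFour U] :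
    Nonempty (↥(normalizer (U : Set G)) ≃* Equiv.Perm (Fin 4)) := by
  apply card_24_no_six_iso_s4 (card_normalizer_klein h U)
  intro g hg
  have h1 : orderOf (g : G) = 6 := by rw [Subgroup.orderOf_coe]; exact hg
  rcases g168_orderOf h (g : G) with h2 | h2 | h2
  · omega
  · omega
  · rw [h1] at h2; norm_num at h2

theorem klein_le_normalizer (h : Nat.card G = 168) (T : Sylow 2 G) (U : Subgroup G)
    [hU : IsKleinFour U] (hUT : U ≤ (T : Subgroup G)) :
    (T : Subgroup G) ≤ normalizer (U : Set G) :=
  le_normalizer_of_card_double U T hUT (by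
    rw [g168_card_sylow2 h T, IsKleinFour.card_four (G := U)])

/-- The two four-subgroups of a Sylow 2-subgroup are not conjugate. -/
theorem klein_not_conj (h : Nat.card G = 168) (T : Sylow 2 G) (U W : Subgroup G)
    [hU : IsKleinFour U] [hW : IsKleinFour W] (hUT : U ≤ (T : Subgroup G))
    (hWT : W ≤ (T : Subgroup G)) (g : G) (hg : U.map (MulAut.conj g).toMonoidHom = W) :
    U = W := by
  have : Fact (Nat.Prime 2) := ⟨by norm_num⟩
  have hTU := klein_le_normalizer h T U hUT
  have hTW := klein_le_normalizer h T W hWT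
  have hmemW : ∀ y, y ∈ W ↔ g⁻¹ * y * g ∈ U := by
    intro y; rw [← hg, mem_map_conj]
  have hmemP : ∀ y, y ∈ ((g • T : Sylow 2 G) : Subgroup G) ↔ g⁻¹ * y * g ∈ (T : Subgroup G) := by
    intro y
    rw [Sylow.coe_subgroup_smul, Subgroup.mem_pointwise_smul_iff_inv_smul_mem]
    simp [MulAut.smul_def]
  have hPW : ((g • T : Sylow 2 G) : Subgroup G) ≤ normalizer (W : Set G) := by
    intro y hy
    rw [hmemP] at hy
    have hyN := hTU hy
    rw [Subgroup.mem_normalizer_iff] at hyN ⊢
    intro w
    rw [hmemW, hmemW, hyN (g⁻¹ * w * g)]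
    have e : g⁻¹ * y * g * (g⁻¹ * w * g) * (g⁻¹ * y * g)⁻¹ = g⁻¹ * (y * w * y⁻¹) * g := by group
    rw [e]
  obtain ⟨n, hn⟩ := MulAction.exists_smul_eq ↥(normalizer (W : Set G))
    ((g • T : Sylow 2 G).subtype hPW) (T.subtype hTW)
  rw [Sylow.smul_subtype hPW n] at hn
  have hn2 : n • (g • T : Sylow 2 G) = T := Sylow.subtype_injective hn
  have hn3 : ((n : G) * g) • T = T := by
    rw [mul_smul]; exact hn2
  have hx : (n : G) * g ∈ (T : Subgroup G) := by
    have h2 : (n : G) * g ∈ normalizer ((T : Subgroup G) : Set G) :=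
      Sylow.smul_eq_iff_mem_normalizer.mp hn3
    rwa [g168_normalizer_sylow2 h T] at h2
  have hxU := hTU hx
  have hnW := n.2
  rw [Subgroup.mem_normalizer_iff] at hxU hnW
  have e1 : ∀ y, g * y * g⁻¹ ∈ W ↔ y ∈ U := by
    intro y
    rw [hmemW]
    have : g⁻¹ * (g * y * g⁻¹) * g = y := by group
    rw [this]
  have key1 : ∀ y, y ∈ U ↔ ((n : G) * g) * y * ((n : G) * g)⁻¹ ∈ W := by
    intro y
    rw [← e1, hnW (g * y * g⁻¹)]
    have : (n : G) * (g * y * g⁻¹) * (n : G)⁻¹ = ((n : G) * g) * y * ((n : G) * g)⁻¹ := by group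
    rw [this]
  ext w
  have k1 := key1 (((n : G) * g)⁻¹ * w * ((n : G) * g))
  have k2 := hxU (((n : G) * g)⁻¹ * w * ((n : G) * g))
  have e2 : ((n : G) * g) * (((n : G) * g)⁻¹ * w * ((n : G) * g)) * ((n : G) * g)⁻¹ = w := by
    group
  rw [e2] at k1 k2
  rw [← k2, k1]

end

end Cfsg.Agent.Lib.Helper78.K168
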