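import Mathlib
import Cfsg.Agent.Lib.Helper78.K168b

set_option autoImplicit false
set_option linter.style.haveILetI false

namespace Cfsg.Agent.Lib.Helper78.K168

open Subgroup
open Cfsg.Agent.Lib.Helper23

theorem card_map_conj {G : Type*} [Group G] (U : Subgroup G) (g : G) :
    Nat.card (U.map (MulAut.conj g).toMonoidHom) = Nat.card U :=
  Subgroup.card_map_of_injective (MulAut.conj g).injective

theorem isKleinFour_map_conj {G : Type*} [Group G] (U : Subgroup G) [IsKleinFour U] (g : G) :
    IsKleinFour (U.map (MulAut.conj g).toMonoidHom) := by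
  apply isKleinFour_of
  · rw [card_map_conj]; exact IsKleinFour.card_four
  · intro x hx
    rw [mem_map_conj] at hx
    have h1 := kleinFour_sq U _ hx
    have e : x * x = g * ((g⁻¹ * x * g) * (g⁻¹ * x * g)) * g⁻¹ := by group
    rw [e, h1]; group

theorem map_conj_normalizer {G : Type*} [Group G] (U : Subgroup G) (g : G) :
    (normalizer (U : Set G)).map (MulAut.conj g).toMonoidHom =
      normalizer ((U.map (MulAut.conj g).toMonoidHom : Subgroup G) : Set G) := by
  ext y
  rw [mem_map_conj, Subgroup.mem_normalizer_iff, Subgroup.mem_normalizer_iff]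
  constructor
  · intro hy w
    rw [mem_map_conj, mem_map_conj, hy (g⁻¹ * w * g)]
    have e : g⁻¹ * y * g * (g⁻¹ * w * g) * (g⁻¹ * y * g)⁻¹ = g⁻¹ * (y * w * y⁻¹) * g := by group
    rw [e]
  · intro hy w
    have h1 := hy (g * w * g⁻¹)
    rw [mem_map_conj, mem_map_conj] at h1
    have e1 : g⁻¹ * (g * w * g⁻¹) * g = w := by group
    have e2 : g⁻¹ * (y * (g * w * g⁻¹) * y⁻¹) * g = g⁻¹ * y * g * w * (g⁻¹ * y * g)⁻¹ := by group
    rw [e1, e2] at h1
    exact h1

theorem map_conj_inv_map {G : Type*} [Group G] (U : Subgroup G) (g : G) :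
    (U.map (MulAut.conj g⁻¹).toMonoidHom).map (MulAut.conj g).toMonoidHom = U := by
  ext y
  rw [mem_map_conj, mem_map_conj]
  have e : g⁻¹⁻¹ * (g⁻¹ * y * g) * g⁻¹ = y := by group
  rw [e]

/-- the core of a subgroup of index 3 -/
theorem exists_core {G : Type*} [Group G] [Finite G] (M : Subgroup G) (K : Subgroup M)
    (hK : K.index = 3) :
    ∃ N : Subgroup G, N ≤ M ∧ M ≤ normalizer (N : Set G) ∧ Nat.card N ∣ Nat.card K ∧
      Nat.card M ∣ 6 * Nat.card N := by
  refine ⟨K.normalCore.map M.subtype, ?_, ?_, ?_, ?_⟩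
  · exact Subgroup.map_subtype_le _
  · have hn : (K.normalCore).Normal := inferInstance
    have hsub : (K.normalCore.map M.subtype).subgroupOf M = K.normalCore := by
      ext x
      simp [Subgroup.mem_subgroupOf]
    rw [← Subgroup.normal_subgroupOf_iff_le_normalizer (Subgroup.map_subtype_le _), hsub]
    exact hn
  · rw [Subgroup.card_map_of_injective M.subtype_injective]
    exact Subgroup.card_dvd_of_le (Subgroup.normalCore_le K)
  · rw [Subgroup.card_map_of_injective M.subtype_injective]
    have h1 : K.normalCore.index ∣ Nat.factorial K.index := by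
      rw [Subgroup.normalCore_eq_ker, Subgroup.index_ker, Subgroup.index_eq_card, ← Nat.card_perm]
      exact Subgroup.card_subgroup_dvd_card _
    rw [hK] at h1
    have h6 : Nat.factorial 3 = 6 := by decide
    rw [h6] at h1
    have h2 := K.normalCore.card_mul_index
    rw [← h2, mul_comm 6]
    exact Nat.mul_dvd_mul_left _ h1

theorem coatom_eq {G : Type*} [Group G] {M H : Subgroup G} (hM : IsCoatom M) (hle : M ≤ H)
    (hH : H ≠ ⊤) : H = M := by
  by_contra hne
  exact hH (hM.2 H (lt_of_le_of_ne hle (Ne.symm hne)))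

theorem exists_order_mem {G : Type*} [Group G] [Finite G] (M : Subgroup G) (p : ℕ)
    [Fact p.Prime] (hp : p ∣ Nat.card M) : ∃ y ∈ M, orderOf y = p := by
  obtain ⟨x, hx⟩ := exists_prime_orderOf_dvd_card' p hp
  exact ⟨x.1, x.2, by rw [Subgroup.orderOf_coe]; exact hx⟩

section
variable {G : Type*} [Group G] [Finite G] [IsSimpleGroup G]

/-- a four-subgroup is determined by its normalizer -/
theorem klein_eq_of_normalizer_eq (h : Nat.card G = 168) (U W : Subgroup G)
    [hU : IsKleinFour U] [hW : IsKleinFour W]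
    (hN : normalizer (U : Set G) = normalizer (W : Set G)) : U = W := by
  have : Fact (Nat.Prime 2) := ⟨by norm_num⟩
  by_contra hne
  have hU4 : Nat.card U = 4 := IsKleinFour.card_four
  have hW4 : Nat.card W = 4 := IsKleinFour.card_four
  have hUp : IsPGroup 2 U := IsPGroup.of_card (n := 2) (by rw [hU4]; norm_num)
  have hWp : IsPGroup 2 W := IsPGroup.of_card (n := 2) (by rw [hW4]; norm_num)
  obtain ⟨T, hUT⟩ := hUp.exists_le_sylow
  have hT8 := g168_card_sylow2 h T
  have hTU := klein_le_normalizer h T U hUT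
  have hTW : (T : Subgroup G) ≤ normalizer (W : Set G) := hN ▸ hTU
  have hsup : IsPGroup 2 (W ⊔ (T : Subgroup G) : Subgroup G) :=
    IsPGroup.to_sup_of_normal_left' hWp T.isPGroup' hTW
  have hWT : W ≤ (T : Subgroup G) := by
    have h1 := T.is_maximal' hsup le_sup_right
    rw [← h1]; exact le_sup_left
  have hUW : U ⊔ W ≤ (T : Subgroup G) := sup_le hUT hWT
  have hd1 : Nat.card (U ⊔ W : Subgroup G) ∣ 8 := hT8 ▸ Subgroup.card_dvd_of_le hUW
  have hd2 : 4 ∣ Nat.card (U ⊔ W : Subgroup G) := hU4 ▸ Subgroup.card_dvd_of_le le_sup_left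
  have hne4 : Nat.card (U ⊔ W : Subgroup G) ≠ 4 := by
    intro h4
    have e1 : U = U ⊔ W := Subgroup.eq_of_le_of_card_ge le_sup_left (by rw [h4, hU4])
    have hWU : W ≤ U := by rw [e1]; exact le_sup_right
    exact hne (Subgroup.eq_of_le_of_card_ge hWU (by rw [hU4, hW4])).symm
  have h8 : Nat.card (U ⊔ W : Subgroup G) = 8 := by
    have hle := Nat.le_of_dvd (by norm_num) hd1
    obtain ⟨k, hk⟩ := hd2
    rw [hk] at hd1 hne4 hle ⊢
    have hk2 : k ≤ 2 := by omega
    interval_cases k
    · simp at hd1
    · exact absurd rfl hne4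
    · rfl
  have hTeq : U ⊔ W = (T : Subgroup G) :=
    Subgroup.eq_of_le_of_card_ge hUW (by rw [h8, hT8])
  have hNle : normalizer (U : Set G) ≤ normalizer ((U ⊔ W : Subgroup G) : Set G) :=
    Cfsg.Agent.Lib.Helper12.le_normalizer_sup le_rfl hN.le
  rw [hTeq, g168_normalizer_sylow2 h T] at hNle
  have hc := Subgroup.card_le_of_le hNle
  rw [card_normalizer_klein h U, hT8] at hc
  omega

theorem normalizer_klein_ne_top (h : Nat.card G = 168) (U : Subgroup G) [hU : IsKleinFour U] :
    normalizer (U : Set G) ≠ ⊤ := by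
  intro ht
  have hc := card_normalizer_klein h U
  rw [ht] at hc
  simp [h] at hc

theorem coatom_normalizer_klein (h : Nat.card G = 168) (U : Subgroup G) [hU : IsKleinFour U] :
    IsCoatom (normalizer (U : Set G)) := by
  refine ⟨normalizer_klein_ne_top h U, ?_⟩
  intro H hlt
  by_contra hH
  have h1 := g168_card_le h H hH
  have h2 : normalizer (U : Set G) = H :=
    Subgroup.eq_of_le_of_card_ge hlt.le (by rw [card_normalizer_klein h U]; exact h1)
  exact hlt.ne h2

theorem coatom_not_two_group (h : Nat.card G = 168) (M : Subgroup G) (hM : IsCoatom M)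
    (hp : IsPGroup 2 M) : False := by
  have : Fact (Nat.Prime 2) := ⟨by norm_num⟩
  obtain ⟨T, hMT⟩ := hp.exists_le_sylow
  obtain ⟨U₁, U₂, h1, h2, k1, k2, hne, hall⟩ := exists_klein_pair h T
  have hTN := klein_le_normalizer h T U₁ h1
  have hc := card_normalizer_klein h U₁
  have heq := coatom_eq hM (hMT.trans hTN) (normalizer_klein_ne_top h U₁)
  have hle := Subgroup.card_le_of_le hMT
  rw [← heq, hc, g168_card_sylow2 h T] at hle
  omega

theorem card_normalizer_zpowers_three (h : Nat.card G = 168) (y : G) (hy : orderOf y = 3) :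
    Nat.card (normalizer ((zpowers y : Subgroup G) : Set G)) = 6 := by
  have : Fact (Nat.Prime 3) := ⟨by norm_num⟩
  obtain ⟨P, hP⟩ := exists_sylow_eq_zpowers (p := 3) (m := 56) (h.trans (by norm_num))
    (by norm_num) y hy
  have h5 := card_normalizer_sylow_mul P
  rw [g168_n3 h, h, hP] at h5
  omega

theorem card_normalizer_zpowers_seven (h : Nat.card G = 168) (y : G) (hy : orderOf y = 7) :
    Nat.card (normalizer ((zpowers y : Subgroup G) : Set G)) = 21 := by
  have : Fact (Nat.Prime 7) := ⟨by norm_num⟩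
  obtain ⟨P, hP⟩ := exists_sylow_eq_zpowers (p := 7) (m := 24) (h.trans (by norm_num))
    (by norm_num) y hy
  have h5 := g168_card_normalizer7 h P
  rw [hP] at h5
  exact h5

end

set_option maxRecDepth 100000 in
theorem s4_inv : ∀ π : Equiv.Perm (Fin 4), π = 1 ∨ π * π * π ≠ 1 ∨
    ∃ τ : Equiv.Perm (Fin 4), τ ≠ 1 ∧ τ * τ = 1 ∧ τ * π = π⁻¹ * τ := by
  decide

section
variable {G : Type*} [Group G] [Finite G] [IsSimpleGroup G]

omit [Finite G] in
theorem normalizer_ne_top_of_card (h : Nat.card G = 168) (N : Subgroup G)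
    (h1 : Nat.card N ≠ 1) (h2 : Nat.card N ≠ 168) : normalizer (N : Set G) ≠ ⊤ := by
  intro ht
  have hn : N.Normal := Subgroup.normalizer_eq_top_iff.mp ht
  rcases hn.eq_bot_or_eq_top with e | e
  · apply h1; rw [e]; simp
  · apply h2; rw [e]; simp [h]

theorem card_normalizer_of_card_two (h : Nat.card G = 168) (N : Subgroup G)
    (hN : Nat.card N = 2) : Nat.card (normalizer (N : Set G)) ∣ 8 := by
  have : Fact (Nat.Prime 2) := ⟨by norm_num⟩
  obtain ⟨t, htN, ht2⟩ := exists_order_mem N 2 (by rw [hN])
  have ht1 : t ≠ 1 := by rintro rfl; simp at ht2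
  have hset : ({1, t} : Set G) = (N : Set G) := by
    apply Set.eq_of_subset_of_ncard_le
    · intro x hx
      rcases hx with rfl | rfl
      · exact N.one_mem
      · exact htN
    · have e1 : (N : Set G).ncard = 2 := hN
      rw [e1, Set.ncard_pair (Ne.symm ht1)]
    · exact Set.toFinite _
  have hle : normalizer (N : Set G) ≤ centralizer ({t} : Set G) := by
    intro m hm
    rw [Subgroup.mem_normalizer_iff] at hm
    have h1 : m * t * m⁻¹ ∈ (N : Set G) := (hm t).mp htN
    rw [← hset] at h1
    rw [Subgroup.mem_centralizer_singleton_iff]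
    rcases h1 with h1 | h1
    · exfalso; apply ht1
      have : t = m⁻¹ * (m * t * m⁻¹) * m := by group
      rw [this, h1]; group
    · have h3 : m * t * m⁻¹ = t := h1
      calc m * t = m * t * m⁻¹ * m := by group
        _ = t * m := by rw [h3]
  have h8 := card_centralizer_two h t ht2
  rw [← h8]
  exact Subgroup.card_dvd_of_le hle

theorem card_normalizer_of_card_four (h : Nat.card G = 168) (N : Subgroup G)
    (hN : Nat.card N = 4) : Nat.card (normalizer (N : Set G)) = 8 ∨ IsKleinFour N := by
  have : Fact (Nat.Prime 2) := ⟨by norm_num⟩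
  by_cases hex : ∃ u ∈ N, orderOf u = 4
  · left
    obtain ⟨u, huN, hu4⟩ := hex
    have hz : zpowers u = N := by
      apply Subgroup.eq_of_le_of_card_ge
      · rw [zpowers_le]; exact huN
      · rw [Nat.card_zpowers, hu4, hN]
    have hp : IsPGroup 2 N := IsPGroup.of_card (n := 2) (by rw [hN]; norm_num)
    obtain ⟨T, hNT⟩ := hp.exists_le_sylow
    have h1 := g168_normalizer_zpowers_four h T u (hNT huN) hu4
    rw [← hz, h1]
    exact g168_card_sylow2 h T
  · right
    push Not at hex
    apply isKleinFour_of N hN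
    intro x hx
    have hd : orderOf x ∣ 4 := by
      rw [← hN]
      exact Subgroup.orderOf_dvd_natCard N hx
    have hx4 := hex x hx
    have hle := Nat.le_of_dvd (by norm_num) hd
    have hpos := orderOf_pos x
    have h2 : orderOf x ∣ 2 := by
      generalize orderOf x = k at *
      interval_cases k
      · exact one_dvd 2
      · exact dvd_refl 2
      · norm_num at hd
      · exact absurd rfl hx4
    have := orderOf_dvd_iff_pow_eq_one.mp h2
    rw [pow_two] at this
    exact this

theorem card_normalizer_of_card_eight (h : Nat.card G = 168) (N : Subgroup G)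
    (hN : Nat.card N = 8) : Nat.card (normalizer (N : Set G)) = 8 := by
  have : Fact (Nat.Prime 2) := ⟨by norm_num⟩
  have hp : IsPGroup 2 N := IsPGroup.of_card (n := 3) (by rw [hN]; norm_num)
  obtain ⟨T, hNT⟩ := hp.exists_le_sylow
  have hT8 := g168_card_sylow2 h T
  have e : N = (T : Subgroup G) := Subgroup.eq_of_le_of_card_ge hNT (by rw [hN, hT8])
  rw [e, g168_normalizer_sylow2 h T, hT8]

/-- a subgroup of order 24 is the normalizer of a four-subgroup -/
theorem exists_klein_of_card (h : Nat.card G = 168) (M : Subgroup G) (hM : Nat.card M = 24) :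
    ∃ U : Subgroup G, IsKleinFour U ∧ M = normalizer (U : Set G) := by
  have : Fact (Nat.Prime 2) := ⟨by norm_num⟩
  obtain ⟨K, hK⟩ := Sylow.exists_subgroup_card_pow_prime (G := M) 2 (n := 3)
    (by rw [hM]; norm_num)
  have hidx : K.index = 3 := by
    have h1 := K.card_mul_index
    rw [hK, hM] at h1
    omega
  obtain ⟨N, hNM, hMN, hd1, hd2⟩ := exists_core M K hidx
  rw [hK] at hd1
  rw [hM] at hd2
  have hcle := Subgroup.card_le_of_le hMN
  rw [hM] at hcle
  have hN48 : Nat.card N = 4 ∨ Nat.card N = 8 := by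
    have hle := Nat.le_of_dvd (by norm_num) hd1
    generalize Nat.card N = k at *
    interval_cases k <;> simp_all
  rcases hN48 with h4 | h8
  · rcases card_normalizer_of_card_four h N h4 with h1 | h1
    · rw [h1] at hcle; omega
    · refine ⟨N, h1, ?_⟩
      exact Subgroup.eq_of_le_of_card_ge hMN (by rw [card_normalizer_klein h N, hM])
  · have h1 := card_normalizer_of_card_eight h N h8
    rw [h1] at hcle; omega

theorem iso_s4_of_card (h : Nat.card G = 168) (M : Subgroup G) (hM : Nat.card M = 24) :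
    Nonempty (↥M ≃* Equiv.Perm (Fin 4)) := by
  apply card_24_no_six_iso_s4 hM
  intro g hg
  have h1 : orderOf (g : G) = 6 := by rw [Subgroup.orderOf_coe]; exact hg
  rcases g168_orderOf h (g : G) with h2 | h2 | h2
  · omega
  · omega
  · rw [h1] at h2; norm_num at h2

theorem coatom_ne_twelve (h : Nat.card G = 168) (M : Subgroup G) (hM : IsCoatom M)
    (hc : Nat.card M = 12) : False := by
  have : Fact (Nat.Prime 2) := ⟨by norm_num⟩
  obtain ⟨K, hK⟩ := Sylow.exists_subgroup_card_pow_prime (G := M) 2 (n := 2)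
    (by rw [hc]; norm_num)
  have hidx : K.index = 3 := by
    have h1 := K.card_mul_index
    rw [hK, hc] at h1
    omega
  obtain ⟨N, hNM, hMN, hd1, hd2⟩ := exists_core M K hidx
  rw [hK] at hd1
  rw [hc] at hd2
  have hN24 : Nat.card N = 2 ∨ Nat.card N = 4 := by
    have hle := Nat.le_of_dvd (by norm_num) hd1
    generalize Nat.card N = k at *
    interval_cases k <;> simp_all
  have hne : normalizer (N : Set G) ≠ ⊤ := by
    apply normalizer_ne_top_of_card h N <;> omega
  have heq := coatom_eq hM hMN hne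
  have hc2 : Nat.card (normalizer (N : Set G)) = 12 := by rw [heq, hc]
  rcases hN24 with h2 | h4
  · have h1 := card_normalizer_of_card_two h N h2
    rw [hc2] at h1; norm_num at h1
  · rcases card_normalizer_of_card_four h N h4 with h1 | h1
    · omega
    · have h3 := card_normalizer_klein h N
      omega

theorem coatom_ne_three (h : Nat.card G = 168) (M : Subgroup G) (hM : IsCoatom M)
    (hc : Nat.card M = 3) : False := by
  have : Fact (Nat.Prime 3) := ⟨by norm_num⟩
  obtain ⟨y, hyM, hy3⟩ := exists_order_mem M 3 (by rw [hc])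
  have hz : zpowers y = M := by
    apply Subgroup.eq_of_le_of_card_ge
    · rw [zpowers_le]; exact hyM
    · rw [Nat.card_zpowers, hy3, hc]
  have h6 := card_normalizer_zpowers_three h y hy3
  have hne : normalizer ((zpowers y : Subgroup G) : Set G) ≠ ⊤ := by
    intro ht; rw [ht] at h6; simp [h] at h6
  have heq := coatom_eq hM (hz ▸ Subgroup.le_normalizer) hne
  rw [heq, hc] at h6
  omega

theorem coatom_ne_seven (h : Nat.card G = 168) (M : Subgroup G) (hM : IsCoatom M)
    (hc : Nat.card M = 7) : False := by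
  have : Fact (Nat.Prime 7) := ⟨by norm_num⟩
  obtain ⟨y, hyM, hy7⟩ := exists_order_mem M 7 (by rw [hc])
  have hz : zpowers y = M := by
    apply Subgroup.eq_of_le_of_card_ge
    · rw [zpowers_le]; exact hyM
    · rw [Nat.card_zpowers, hy7, hc]
  have h21 := card_normalizer_zpowers_seven h y hy7
  have hne : normalizer ((zpowers y : Subgroup G) : Set G) ≠ ⊤ := by
    intro ht; rw [ht] at h21; simp [h] at h21
  have heq := coatom_eq hM (hz ▸ Subgroup.le_normalizer) hne
  rw [heq, hc] at h21
  omega

theorem coatom_ne_fourteen (h : Nat.card G = 168) (M : Subgroup G) (hM : IsCoatom M)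
    (hc : Nat.card M = 14) : False := by
  have : Fact (Nat.Prime 7) := ⟨by norm_num⟩
  obtain ⟨y, hyM, hy7⟩ := exists_order_mem M 7 (by rw [hc]; norm_num)
  have hzM : zpowers y ≤ M := by rw [zpowers_le]; exact hyM
  have hMN : M ≤ normalizer ((zpowers y : Subgroup G) : Set G) :=
    le_normalizer_of_card_double _ M hzM (by rw [Nat.card_zpowers, hy7, hc])
  have h21 := card_normalizer_zpowers_seven h y hy7
  have hne : normalizer ((zpowers y : Subgroup G) : Set G) ≠ ⊤ := by
    intro ht; rw [ht] at h21; simp [h] at h21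
  have heq := coatom_eq hM hMN hne
  rw [heq, hc] at h21
  omega

/-- a subgroup of order 21 is the normalizer of a Sylow 7-subgroup -/
theorem eq_normalizer_of_card_twentyone (h : Nat.card G = 168) (M : Subgroup G)
    (hc : Nat.card M = 21) :
    ∃ y : G, orderOf y = 7 ∧ M = normalizer ((zpowers y : Subgroup G) : Set G) := by
  have : Fact (Nat.Prime 7) := ⟨by norm_num⟩
  obtain ⟨y, hyM, hy7⟩ := exists_order_mem M 7 (by rw [hc]; norm_num)
  have hzM : zpowers y ≤ M := by rw [zpowers_le]; exact hyM
  have hidx : ((zpowers y).subgroupOf M).index = 3 := by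
    have h1 := ((zpowers y).subgroupOf M).card_mul_index
    rw [Nat.card_congr (Subgroup.subgroupOfEquivOfLe hzM).toEquiv, Nat.card_zpowers, hy7, hc] at h1
    omega
  have hn : ((zpowers y).subgroupOf M).Normal := by
    apply Subgroup.normal_of_index_eq_minFac_card
    rw [hidx, hc]
    norm_num
  have hMN : M ≤ normalizer ((zpowers y : Subgroup G) : Set G) :=
    (Subgroup.normal_subgroupOf_iff_le_normalizer hzM).mp hn
  have h21 := card_normalizer_zpowers_seven h y hy7
  exact ⟨y, hy7, Subgroup.eq_of_le_of_card_ge hMN (by rw [h21, hc])⟩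

theorem not_comm_of_card_twentyone (h : Nat.card G = 168) (M : Subgroup G)
    (hc : Nat.card M = 21) : ¬ IsMulCommutative M := by
  have : Fact (Nat.Prime 7) := ⟨by norm_num⟩
  intro hcomm
  obtain ⟨y, hyM, hy7⟩ := exists_order_mem M 7 (by rw [hc]; norm_num)
  have hle : M ≤ centralizer ({y} : Set G) := by
    intro m hm
    rw [Subgroup.mem_centralizer_singleton_iff]
    have hmy := hcomm.is_comm.comm (⟨m, hm⟩ : M) ⟨y, hyM⟩
    simpa using congrArg Subtype.val hmy
  rw [g168_centralizer_seven h y hy7] at hle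
  have h1 := Subgroup.card_le_of_le hle
  rw [Nat.card_zpowers, hy7, hc] at h1
  omega

/-- subgroups of order 21 are conjugate -/
theorem conj_of_card_twentyone (h : Nat.card G = 168) (M M' : Subgroup G)
    (hc : Nat.card M = 21) (hc' : Nat.card M' = 21) :
    ∃ g : G, M' = M.map (MulAut.conj g).toMonoidHom := by
  have : Fact (Nat.Prime 7) := ⟨by norm_num⟩
  obtain ⟨y, hy7, hM⟩ := eq_normalizer_of_card_twentyone h M hc
  obtain ⟨y', hy7', hM'⟩ := eq_normalizer_of_card_twentyone h M' hc'
  obtain ⟨P, hP⟩ := exists_sylow_eq_zpowers (p := 7) (m := 24) (h.trans (by norm_num))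
    (by norm_num) y hy7
  obtain ⟨P', hP'⟩ := exists_sylow_eq_zpowers (p := 7) (m := 24) (h.trans (by norm_num))
    (by norm_num) y' hy7'
  obtain ⟨g, hg⟩ := MulAction.exists_smul_eq G P P'
  refine ⟨g, ?_⟩
  have hmap : (zpowers y).map (MulAut.conj g).toMonoidHom = zpowers y' := by
    rw [← hP, ← hP', ← hg]
    ext x
    rw [mem_map_conj, Sylow.coe_subgroup_smul, Subgroup.mem_pointwise_smul_iff_inv_smul_mem]
    simp [MulAut.smul_def]
  rw [hM, hM', map_conj_normalizer, hmap]

/-- every element of order 3 normalizes a four-subgroup -/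
theorem exists_klein_normalized (h : Nat.card G = 168) (y : G) (hy : orderOf y = 3) :
    ∃ U : Subgroup G, IsKleinFour U ∧ y ∈ normalizer (U : Set G) := by
  have : Fact (Nat.Prime 3) := ⟨by norm_num⟩
  obtain ⟨T⟩ : Nonempty (Sylow 2 G) := inferInstance
  obtain ⟨U₁, U₂, h1, h2, k1, k2, hne, hall⟩ := exists_klein_pair h T
  have hc := card_normalizer_klein h U₁
  obtain ⟨y₀, hy₀N, hy₀3⟩ := exists_order_mem (normalizer (U₁ : Set G)) 3 (by rw [hc]; norm_num)
  obtain ⟨c, hc'⟩ := isConj_iff.mp (g168_isConj_three h y₀ y hy₀3 hy)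
  refine ⟨U₁.map (MulAut.conj c).toMonoidHom, isKleinFour_map_conj U₁ c, ?_⟩
  rw [← map_conj_normalizer, mem_map_conj, ← hc']
  have e : c⁻¹ * (c * y₀ * c⁻¹) * c = y₀ := by group
  rw [e]; exact hy₀N

theorem coatom_ne_six (h : Nat.card G = 168) (M : Subgroup G) (hM : IsCoatom M)
    (hc : Nat.card M = 6) : False := by
  have : Fact (Nat.Prime 3) := ⟨by norm_num⟩
  obtain ⟨y, hyM, hy3⟩ := exists_order_mem M 3 (by rw [hc]; norm_num)
  have hzM : zpowers y ≤ M := by rw [zpowers_le]; exact hyM
  have hMN : M ≤ normalizer ((zpowers y : Subgroup G) : Set G) :=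
    le_normalizer_of_card_double _ M hzM (by rw [Nat.card_zpowers, hy3, hc])
  have h6 := card_normalizer_zpowers_three h y hy3
  have hMeq : M = normalizer ((zpowers y : Subgroup G) : Set G) :=
    Subgroup.eq_of_le_of_card_ge hMN (by rw [h6, hc])
  obtain ⟨U, hU, hyU⟩ := exists_klein_normalized h y hy3
  obtain ⟨e⟩ := normalizer_klein_iso h U
  have hy1 : y ≠ 1 := by rintro rfl; simp at hy3
  have hy3' : y * y * y = 1 := by
    have := pow_orderOf_eq_one y
    rw [hy3, pow_succ, pow_two] at this
    exact this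
  rcases s4_inv (e ⟨y, hyU⟩) with h1 | h1 | ⟨τ, hτ1, hτ2, hτ3⟩
  · apply hy1
    have : (⟨y, hyU⟩ : normalizer (U : Set G)) = 1 := by
      apply e.injective; rw [h1, map_one]
    exact congrArg Subtype.val this
  · apply h1
    rw [← map_mul, ← map_mul]
    have : (⟨y, hyU⟩ : normalizer (U : Set G)) * ⟨y, hyU⟩ * ⟨y, hyU⟩ = 1 := by
      apply Subtype.ext; simpa using hy3'
    rw [this, map_one]
  · -- the involution t
    obtain ⟨t', ht'⟩ : ∃ t' : normalizer (U : Set G), e t' = τ := ⟨e.symm τ, by simp⟩
    have ht1 : (t' : G) ≠ 1 := by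
      intro h1
      apply hτ1
      rw [← ht']
      have : t' = 1 := Subtype.ext h1
      rw [this, map_one]
    have ht2 : (t' : G) * (t' : G) = 1 := by
      have : t' * t' = 1 := by
        apply e.injective; rw [map_mul, ht', hτ2, map_one]
      exact congrArg Subtype.val this
    have ht3 : (t' : G) * y = y⁻¹ * (t' : G) := by
      have : t' * ⟨y, hyU⟩ = (⟨y, hyU⟩ : normalizer (U : Set G))⁻¹ * t' := by
        apply e.injective; rw [map_mul, map_mul, map_inv, ht', hτ3]
      exact congrArg Subtype.val this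
    have hti : (t' : G)⁻¹ = (t' : G) := inv_eq_of_mul_eq_one_left ht2
    -- t normalizes ⟨y⟩
    have hc1 : (t' : G) * y * (t' : G)⁻¹ = y⁻¹ := by rw [ht3]; group
    have hc2 : (t' : G)⁻¹ * y * (t' : G) = y⁻¹ := by
      rw [hti]
      have : (t' : G) * y * (t' : G) = (t' : G) * y * (t' : G)⁻¹ := by rw [hti]
      rw [this, hc1]
    have htN : (t' : G) ∈ normalizer ((zpowers y : Subgroup G) : Set G) := by
      rw [Subgroup.mem_normalizer_iff]
      intro x
      constructor
      · intro hx
        obtain ⟨k, rfl⟩ := Subgroup.mem_zpowers_iff.mp hx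
        have : (t' : G) * y ^ k * (t' : G)⁻¹ = ((t' : G) * y * (t' : G)⁻¹) ^ k := by
          rw [conj_zpow]
        rw [this, hc1]
        exact Subgroup.zpow_mem _ (Subgroup.inv_mem _ (Subgroup.mem_zpowers y)) k
      · intro hx
        obtain ⟨k, hk⟩ := Subgroup.mem_zpowers_iff.mp hx
        have : x = ((t' : G)⁻¹ * y * (t' : G)) ^ k := by
          have e1 : ((t' : G)⁻¹ * y * (t' : G)) ^ k = (t' : G)⁻¹ * y ^ k * (t' : G) := by
            have := conj_zpow (a := (t' : G)⁻¹) (b := y) (i := k)
            rw [inv_inv] at this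
            exact this
          rw [e1, hk]; group
        rw [this, hc2]
        exact Subgroup.zpow_mem _ (Subgroup.inv_mem _ (Subgroup.mem_zpowers y)) k
    rw [← hMeq] at htN
    -- M ⊓ N(U) has order divisible by 6
    have hty : orderOf (t' : G) = 2 := orderOf_eq_prime (by rw [pow_two]; exact ht2) ht1
    have hd2 : 2 ∣ Nat.card (M ⊓ normalizer (U : Set G) : Subgroup G) := by
      rw [← hty]; exact Subgroup.orderOf_dvd_natCard _ ⟨htN, t'.2⟩
    have hd3 : 3 ∣ Nat.card (M ⊓ normalizer (U : Set G) : Subgroup G) := by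
      rw [← hy3]; exact Subgroup.orderOf_dvd_natCard _ ⟨hyM, hyU⟩
    have hd6 : 6 ∣ Nat.card (M ⊓ normalizer (U : Set G) : Subgroup G) :=
      Nat.Coprime.mul_dvd_of_dvd_of_dvd (by norm_num : Nat.Coprime 2 3) hd2 hd3
    have hle6 := Nat.le_of_dvd Nat.card_pos hd6
    have hinf : M ⊓ normalizer (U : Set G) = M :=
      Subgroup.eq_of_le_of_card_ge inf_le_left (by rw [hc]; exact hle6)
    have hMU : M ≤ normalizer (U : Set G) := by rw [← hinf]; exact inf_le_right
    have heq := coatom_eq hM hMU (normalizer_klein_ne_top h U)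
    have h24 := card_normalizer_klein h U
    rw [heq, hc] at h24
    omega

/-- the order of a maximal subgroup -/
theorem coatom_card (h : Nat.card G = 168) (M : Subgroup G) (hM : IsCoatom M) :
    Nat.card M = 21 ∨ Nat.card M = 24 := by
  have : Fact (Nat.Prime 2) := ⟨by norm_num⟩
  have hle := g168_card_le h M hM.1
  have hd : Nat.card M ∣ 168 := by rw [← h]; exact Subgroup.card_subgroup_dvd_card M
  have hpos : 0 < Nat.card M := Nat.card_pos
  have h2 : ∀ n : ℕ, Nat.card M = 2 ^ n → False := fun n hn =>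
    coatom_not_two_group h M hM (IsPGroup.of_card hn)
  have h3 := coatom_ne_three h M hM
  have h6 := coatom_ne_six h M hM
  have h7 := coatom_ne_seven h M hM
  have h12 := coatom_ne_twelve h M hM
  have h14 := coatom_ne_fourteen h M hM
  have h20 := h2 0
  have h21 := h2 1
  have h22 := h2 2
  have h23 := h2 3
  generalize Nat.card M = k at *
  interval_cases k <;> first
    | (left; rfl) | (right; rfl) | (exfalso; revert hd; decide)
    | exact absurd rfl h3 | exact absurd rfl h6 | exact absurd rfl h7
    | exact absurd rfl h12 | exact absurd rfl h14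
    | exact (h20 rfl).elim | exact (h21 rfl).elim | exact (h22 rfl).elim | exact (h23 rfl).elim

end

end Cfsg.Agent.Lib.Helper78.K168
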