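import Mathlib
import Cfsg.Agent.S5396
import Cfsg.Prelude.Def_KGroupFacts

/-!
# Piece O2 of the S5432 project (helper61): automorphisms trivial on `V` are inner
-/

set_option autoImplicit false

namespace Cfsg.Agent.Lib.Helper78.OutExtra

open Cfsg.Agent.S5396

theorem inner_of_trivial {ι : Type} [Fintype ι] [DecidableEq ι]
    (β : (ι → ZMod 2) →+ (ι → ZMod 2) →+ ZMod 2)
    (hnd : ∀ v, (∀ w, β v w = β w v) → v = 0)
    (α : MulAut (Ext β)) (hα : ∀ v : ι → ZMod 2, (α ⟨v, 0⟩).v = v) :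
    α ∈ Cfsg.Inn (Ext β) := by
  classical
  -- Step 1: α fixes ⟨0, 1⟩
  have hz_center : (⟨0, 1⟩ : Ext β) ∈ Subgroup.center (Ext β) :=
    (Ext.mem_center_iff' hnd _).mpr rfl
  have hαz_center : α ⟨0, 1⟩ ∈ Subgroup.center (Ext β) := by
    rw [Subgroup.mem_center_iff]
    intro g
    have h := (Subgroup.mem_center_iff.mp hz_center) (α.symm g)
    have h2 := congrArg α h
    simpa using h2
  have hαz_v : (α ⟨0, 1⟩).v = 0 := (Ext.mem_center_iff' hnd _).mp hαz_center
  have hαz_s : (α ⟨0, 1⟩).s = 1 := by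
    apply z2_ne_zero
    intro hs
    have h1 : α ⟨0, 1⟩ = 1 := Ext.ext hαz_v hs
    have h2 : (⟨0, 1⟩ : Ext β) = 1 := α.injective (h1.trans (map_one α).symm)
    have h3 := congrArg Ext.s h2
    simp at h3
  have hαz : α ⟨0, 1⟩ = ⟨0, 1⟩ := Ext.ext hαz_v hαz_s
  -- α ⟨v, s⟩ = ⟨v, (α ⟨v,0⟩).s + s⟩
  have hform : ∀ (v : ι → ZMod 2) (s : ZMod 2), α ⟨v, s⟩ = ⟨v, (α ⟨v, 0⟩).s + s⟩ := by
    intro v s
    by_cases hs : s = 0
    · subst hs
      refine Ext.ext ?_ ?_
      · exact hα v
      · simp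
    · have hs1 := z2_ne_zero s hs
      subst hs1
      have h1 : (⟨v, 1⟩ : Ext β) = ⟨v, 0⟩ * ⟨0, 1⟩ := by
        refine Ext.ext ?_ ?_
        · simp
        · simp
      rw [h1, map_mul, hαz]
      refine Ext.ext ?_ ?_
      · simp [hα v]
      · simp
  have hadd : ∀ u v : ι → ZMod 2,
      (α ⟨u + v, 0⟩).s = (α ⟨u, 0⟩).s + (α ⟨v, 0⟩).s := by
    intro u v
    have h1 : (⟨u, 0⟩ : Ext β) * ⟨v, 0⟩ = ⟨u + v, β u v⟩ := by
      refine Ext.ext ?_ ?_ <;> simp
    have h2 := congrArg Ext.s (congrArg α h1)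
    rw [map_mul, hform (u + v) (β u v)] at h2
    simp only [Ext.mul_s, hα] at h2
    linear_combination -h2
  let L : (ι → ZMod 2) →+ ZMod 2 := AddMonoidHom.mk' (fun v => (α ⟨v, 0⟩).s) hadd
  let Θ : (ι → ZMod 2) →+ (ι → ZMod 2) :=
    { toFun := fun w i => β w (Pi.single i 1) + β (Pi.single i 1) w
      map_zero' := by ext i; simp
      map_add' := by
        intro a b
        ext i
        simp only [map_add, AddMonoidHom.add_apply, Pi.add_apply]
        ring }
  have hΘinj : Function.Injective Θ := by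
    rw [injective_iff_map_eq_zero]
    intro w hw
    apply hnd
    have hfe : β w = β.flip w := by
      apply AddMonoidHom.functions_ext
      intro i x
      have hi : β w (Pi.single i 1) + β (Pi.single i 1) w = 0 := congrFun hw i
      by_cases hx : x = 0
      · subst hx; simp
      · have hx1 := z2_ne_zero x hx
        subst hx1
        exact z2_add_eq _ _ hi
    intro v
    have := DFunLike.congr_fun hfe v
    simpa using this
  obtain ⟨w, hw⟩ := (Finite.injective_iff_surjective.mp hΘinj) (fun i => L (Pi.single i 1))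
  have hLw : L = β w + β.flip w := by
    apply AddMonoidHom.functions_ext
    intro i x
    by_cases hx : x = 0
    · subst hx; simp
    · have hx1 := z2_ne_zero x hx
      subst hx1
      have hi : β w (Pi.single i 1) + β (Pi.single i 1) w = L (Pi.single i 1) := congrFun hw i
      simpa using hi.symm
  have hLv : ∀ v, (α ⟨v, 0⟩).s = β w v + β v w := by
    intro v
    have := DFunLike.congr_fun hLw v
    simpa [L] using this
  refine ⟨⟨w, 0⟩, ?_⟩
  refine MulEquiv.ext fun y => Ext.ext ?_ ?_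
  · have hy : α y = ⟨y.v, (α ⟨y.v, 0⟩).s + y.s⟩ := hform y.v y.s
    rw [hy]
    show w + y.v + -w = y.v
    abel
  · have hy : α y = ⟨y.v, (α ⟨y.v, 0⟩).s + y.s⟩ := hform y.v y.s
    rw [hy, hLv]
    simp only [MulAut.conj_apply, Ext.mul_s, Ext.mul_v, Ext.inv_s, Ext.inv_v, map_add, map_neg,
      AddMonoidHom.add_apply]
    have h2 := two_s (β y.v w)
    linear_combination -h2

end Cfsg.Agent.Lib.Helper78.OutExtra
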