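import Mathlib
import Cfsg.Agent.Lib.Helper72.PQDefs

/-!
# S4306 piece PQ-IIR (helper78): type II, `Q` abelian: `[Q,F] ≤ Y` and `[Q,F] ≤ x Y x⁻¹` force `[Q,x] ≤ Y`
-/

set_option autoImplicit false

namespace Cfsg.Agent.Lib.Helper78.PQ

open Cfsg.Agent.Lib.Helper72.PQ

universe u

/-- The elements of `R` acting trivially on `Q / Y`. -/
def iirSub {Γ : Type u} [Group Γ] (Q R Y : Subgroup Γ)
    (hRQ : R ≤ Subgroup.normalizer (Q : Set Γ)) : Subgroup Γ where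
  carrier := {x | x ∈ R ∧ ∀ y ∈ Q, x * y * x⁻¹ * y⁻¹ ∈ Y}
  one_mem' := by
    refine ⟨R.one_mem, fun y _ => ?_⟩
    have : (1 : Γ) * y * 1⁻¹ * y⁻¹ = 1 := by group
    rw [this]; exact Y.one_mem
  mul_mem' := by
    rintro x1 x2 ⟨h1R, h1⟩ ⟨h2R, h2⟩
    refine ⟨R.mul_mem h1R h2R, fun y hy => ?_⟩
    have hy2 : x2 * y * x2⁻¹ ∈ Q := ((Subgroup.mem_normalizer_iff.mp (hRQ h2R)) y).mp hy
    have e : x1 * x2 * y * (x1 * x2)⁻¹ * y⁻¹ =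
        (x1 * (x2 * y * x2⁻¹) * x1⁻¹ * (x2 * y * x2⁻¹)⁻¹) * (x2 * y * x2⁻¹ * y⁻¹) := by group
    rw [e]
    exact Y.mul_mem (h1 _ hy2) (h2 y hy)
  inv_mem' := by
    rintro x ⟨hxR, hx⟩
    refine ⟨R.inv_mem hxR, fun y hy => ?_⟩
    have hy' : x⁻¹ * y * x ∈ Q := by
      have h := ((Subgroup.mem_normalizer_iff.mp (hRQ (R.inv_mem hxR))) y).mp hy
      simpa using h
    have h1 := hx _ hy'
    have e : x⁻¹ * y * x⁻¹⁻¹ * y⁻¹ = (x * (x⁻¹ * y * x) * x⁻¹ * (x⁻¹ * y * x)⁻¹)⁻¹ := by group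
    rw [e]
    exact Y.inv_mem h1

theorem mem_iirSub {Γ : Type u} [Group Γ] (Q R Y : Subgroup Γ)
    (hRQ : R ≤ Subgroup.normalizer (Q : Set Γ)) (x : Γ) :
    x ∈ iirSub Q R Y hRQ ↔ x ∈ R ∧ ∀ y ∈ Q, x * y * x⁻¹ * y⁻¹ ∈ Y := Iff.rfl

theorem iir (h1 : LangQStmt.{u}) (h2 : L1Stmt.{u}) : IIRStmt.{u} := by
  intro Γ _ _ p ℓ r q s A F V Q R hTw hII hQab Y hYQ hFY x hxR hxY
  classical
  -- a nonidentity element of `F`
  have hp := hTw.frob.hp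
  have hFcard := hTw.frob.hF
  obtain ⟨f, hfF, hf1⟩ : ∃ f ∈ F, f ≠ 1 := by
    by_contra hcon
    push Not at hcon
    have hbot : F = ⊥ := by
      rw [Subgroup.eq_bot_iff_forall]
      exact hcon
    rw [hbot] at hFcard
    rw [Subgroup.card_bot] at hFcard
    exact hp.one_lt.ne hFcard
  have hfp : f ^ p = 1 := by
    have h := pow_card_eq_one' (G := F) (x := ⟨f, hfF⟩)
    rw [hFcard] at h
    have h' := congrArg Subtype.val h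
    simpa using h'
  have hFQ : ∀ a ∈ F, a ∈ Subgroup.normalizer (Q : Set Γ) := fun a ha => hTw.hAQ (hTw.frob.hFA ha)
  have hFR : ∀ a ∈ F, a ∈ Subgroup.normalizer (R : Set Γ) := fun a ha => hTw.hAR (hTw.frob.hFA ha)
  have hconjQ : ∀ a ∈ F, ∀ y ∈ Q, a * y * a⁻¹ ∈ Q := fun a ha y hy =>
    ((Subgroup.mem_normalizer_iff.mp (hFQ a ha)) y).mp hy
  have hconjR : ∀ a ∈ F, ∀ y ∈ R, a * y * a⁻¹ ∈ R := fun a ha y hy =>
    ((Subgroup.mem_normalizer_iff.mp (hFR a ha)) y).mp hy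
  have hRQc : ∀ z ∈ R, ∀ y ∈ Q, z * y * z⁻¹ ∈ Q := fun z hz y hy =>
    ((Subgroup.mem_normalizer_iff.mp (hTw.hRQ hz)) y).mp hy
  -- `F` normalizes `Y`
  have hFYn : ∀ a ∈ F, ∀ k ∈ Y, a * k * a⁻¹ ∈ Y := by
    intro a ha k hk
    have e : a * k * a⁻¹ = (a * k * a⁻¹ * k⁻¹) * k := by group
    rw [e]
    exact Y.mul_mem (hFY a ha k (hYQ hk)) hk
  set R₁ := iirSub Q R Y hTw.hRQ with hR₁
  have hR₁R : R₁ ≤ R := fun z hz => hz.1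
  have hCR₁ : cz R Q ≤ R₁ := by
    intro z hz
    rw [mem_cz] at hz
    refine ⟨hz.1, fun y hy => ?_⟩
    have h := hz.2 y hy
    have e : z * y * z⁻¹ * y⁻¹ = 1 := by
      rw [← h]; group
    rw [e]; exact Y.one_mem
  -- `F` normalizes `R₁`
  have hFR₁ : ∀ a ∈ F, ∀ h ∈ R₁, a * h * a⁻¹ ∈ R₁ := by
    intro a ha h hh
    refine ⟨hconjR a ha h hh.1, fun y hy => ?_⟩
    have hy1 : a⁻¹ * y * a ∈ Q := by
      have h3 := hconjQ a⁻¹ (F.inv_mem ha) y hy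
      simpa using h3
    have hk := hh.2 _ hy1
    have e : a * h * a⁻¹ * y * (a * h * a⁻¹)⁻¹ * y⁻¹ =
        a * (h * (a⁻¹ * y * a) * h⁻¹ * (a⁻¹ * y * a)⁻¹) * a⁻¹ := by group
    rw [e]
    exact hFYn a ha _ hk
  have hfR₁ : f ∈ Subgroup.normalizer (R₁ : Set Γ) := by
    rw [Subgroup.mem_normalizer_iff]
    intro h
    constructor
    · exact fun hh => hFR₁ f hfF h hh
    · intro hh
      have h3 := hFR₁ f⁻¹ (F.inv_mem hfF) _ hh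
      have e : f⁻¹ * (f * h * f⁻¹) * f⁻¹⁻¹ = h := by group
      rwa [e] at h3
  -- the Lang element lies in `R₁`
  have hlang : x⁻¹ * (f * x * f⁻¹) ∈ R₁ := by
    refine ⟨R.mul_mem (R.inv_mem hxR) (hconjR f hfF x hxR), fun y hy => ?_⟩
    have hy3 : f⁻¹ * y * f ∈ Q := by
      have h3 := hconjQ f⁻¹ (F.inv_mem hfF) y hy
      simpa using h3
    have hy2 : x * (f⁻¹ * y * f) * x⁻¹ ∈ Q := hRQc x hxR _ hy3
    have k1 := hxY f hfF _ hy2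
    have k2 := hFY f⁻¹ (F.inv_mem hfF) y hy
    have e : x⁻¹ * (f * x * f⁻¹) * y * (x⁻¹ * (f * x * f⁻¹))⁻¹ * y⁻¹ =
        (x⁻¹ * (f * (x * (f⁻¹ * y * f) * x⁻¹) * f⁻¹ * (x * (f⁻¹ * y * f) * x⁻¹)⁻¹) * x) *
          (f⁻¹ * y * f⁻¹⁻¹ * y⁻¹) := by group
    rw [e]
    exact Y.mul_mem k1 k2
  obtain ⟨hcomm, -, -, -⟩ := h2 Γ p ℓ r q s A F V Q R hTw
  have hcop : p.Coprime s := (Nat.coprime_primes hp hTw.hs).mpr hTw.hps
  have hres := h1 Γ s p R (cz R Q) R₁ f hTw.hs hTw.hRs hcop hfp (hFR f hfF) hfR₁ hCR₁ hR₁R hcomm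
    (fun z hz hzc => hII f hfF hf1 z hz hzc) x hxR hlang
  exact hres.2
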