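import Cfsg.Agent.Lib.Helper96.SpKap

/-!
# Piece UN-IND of the S5956 project (helper96): invariant nondegenerate subspaces of prescribed
dimension from the Jordan type of a unipotent isometry
-/

set_option autoImplicit false
set_option linter.unusedSectionVars false

namespace Cfsg.Agent.Lib.Helper78.SpUn

open Module Cfsg.Agent.Lib.Helper96.Sp Cfsg.Agent.Lib.Helper51.Jordan

variable {F : Type*} [Field F] {V : Type*} [AddCommGroup V] [Module F V] [FiniteDimensional F V]

theorem map_sub_one_le (u : Module.End F V) (X : Submodule F V) (h : X.map u ≤ X) :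
    X.map (u - 1) ≤ X := by
  rintro _ ⟨x, hx, rfl⟩
  rw [LinearMap.sub_apply, Module.End.one_apply]
  exact X.sub_mem (h ⟨x, hx, rfl⟩) hx

theorem finrank_of_kapOn (N : Module.End F V) (hnil : IsNilpotent N) (P : Submodule F V)
    (c k : ℕ) (h : ∀ j, kapOn N P j = c * min k j) : finrank F P = c * k := by
  obtain ⟨K, hK⟩ := hnil
  have h1 := h (max K k)
  have h2 : N ^ (max K k) = 0 := pow_eq_zero_of_le (le_max_left K k) hK
  unfold kapOn at h1
  rw [h2, LinearMap.ker_zero, inf_top_eq, min_eq_left (le_max_right K k)] at h1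
  exact h1

/-- The induction behind `exists_nd_inv_of_type`. -/
theorem nd_inv_key {B : LinearMap.BilinForm F V} (hA : B.IsAlt) (hN : ND B ⊤)
    (u : Module.End F V) (hu : Isom B u) (hnil : IsNilpotent (u - 1))
    (hpiece : ∀ Z : Submodule F V, Z.map u ≤ Z → ND B Z → Z ≠ ⊥ →
      ∃ (k : ℕ) (P : Submodule F V), P ≤ Z ∧ P.map u ≤ P ∧ ND B P ∧ 1 ≤ k ∧
        ((Even k ∧ ∀ j, kapOn (u - 1) P j = min k j) ∨
         (Odd k ∧ ∀ j, kapOn (u - 1) P j = 2 * min k j))) :
    ∀ (n : ℕ) (Z : Submodule F V), Z.map u ≤ Z → ND B Z → finrank F Z = n →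
      ∀ (μ : Multiset ℕ), (∀ c ∈ μ, 0 < c) → (∀ j, kapOn (u - 1) Z j = kapM μ j) →
      (∀ a, Odd a → Even (μ.count a)) →
      ∀ (ν : Multiset ℕ), ν ≤ μ → (∀ a, Odd a → Even (ν.count a)) →
      ∃ W : Submodule F V, W ≤ Z ∧ W.map u ≤ W ∧ ND B W ∧ finrank F W = ν.sum := by
  intro n
  induction n using Nat.strong_induction_on with
  | _ n IH =>
    intro Z hZu hZnd hZn μ hμpos hμ hμpar ν hν hνpar
    by_cases hZ0 : Z = ⊥
    · have hμ0 : μ = 0 := by
        apply kapM_inj μ 0 hμpos (fun c hc => absurd hc (Multiset.notMem_zero c))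
        intro j
        rw [← hμ j, kapM_zero, hZ0]
        unfold kapOn
        rw [bot_inf_eq, finrank_bot]
      rw [hμ0, Multiset.le_zero] at hν
      refine ⟨⊥, bot_le, ?_, nd_bot, ?_⟩
      · rw [Submodule.map_bot]
      · rw [finrank_bot, hν, Multiset.sum_zero]
    · obtain ⟨k, P, hPZ, hPu, hPnd, hk1, hkap⟩ := hpiece Z hZu hZnd hZ0
      obtain ⟨hZ'nd, hsup, hfin⟩ := nd_rel hA hPnd hZnd hPZ
      have hZ'u : (Z ⊓ B.orthogonal P).map u ≤ Z ⊓ B.orthogonal P := by
        rintro _ ⟨x, hx, rfl⟩
        exact ⟨hZu ⟨x, hx.1, rfl⟩, perp_invariant hN hu hPu ⟨x, hx.2, rfl⟩⟩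
      have hdisj : P ⊓ (Z ⊓ B.orthogonal P) = ⊥ := by
        rw [eq_bot_iff, ← nd_inf_perp hA hPnd]
        exact inf_le_inf_left _ inf_le_right
      have hPN := map_sub_one_le u P hPu
      have hZ'N := map_sub_one_le u _ hZ'u
      obtain ⟨μ', hμ'pos, hμ'sum, hμ'⟩ := exists_type_on (u - 1) hnil _ hZ'N
      have hadd : ∀ j, kapM μ j = kapOn (u - 1) P j + kapM μ' j := by
        intro j
        rw [← hμ j, ← hμ' j, ← kapOn_sup (u - 1) P _ hPN hZ'N hdisj j, hsup]
      have hPpos : 0 < finrank F P := by
        rcases hkap with ⟨_, h⟩ | ⟨_, h⟩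
        · have h1 := finrank_of_kapOn (u - 1) hnil P 1 k (fun j => by rw [h j, one_mul])
          omega
        · have h1 := finrank_of_kapOn (u - 1) hnil P 2 k h
          omega
      have hlt : finrank F ↥(Z ⊓ B.orthogonal P) < n := by omega
      -- the combination step
      have hcomb : (∀ a, Odd a → Even (μ'.count a)) → ∀ ν' : Multiset ℕ, ν' ≤ μ' →
          (∀ a, Odd a → Even (ν'.count a)) → ∀ W₀ : Submodule F V, W₀ ≤ P → W₀.map u ≤ W₀ →
          ND B W₀ → finrank F W₀ + ν'.sum = ν.sum →
          ∃ W : Submodule F V, W ≤ Z ∧ W.map u ≤ W ∧ ND B W ∧ finrank F W = ν.sum := by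
        intro hμ'par ν' hν' hν'par W₀ hW₀P hW₀u hW₀nd hsum
        obtain ⟨W', hW'Z', hW'u, hW'nd, hW'fin⟩ :=
          IH _ hlt _ hZ'u hZ'nd rfl μ' hμ'pos hμ' hμ'par ν' hν' hν'par
        have horth : Orth B W₀ W' := by
          intro x hx y hy
          exact (mem_perp_iff.mp (hW'Z' hy).2) x (hW₀P hx)
        obtain ⟨hnd, hfinW⟩ := nd_sup hA hW₀nd hW'nd horth
        refine ⟨W₀ ⊔ W', sup_le (le_trans hW₀P hPZ) (le_trans hW'Z' inf_le_left), ?_, hnd, ?_⟩
        · rw [Submodule.map_sup]
          exact sup_le_sup hW₀u hW'u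
        · rw [hfinW, hW'fin]
          exact hsum
      have hbotu : (⊥ : Submodule F V).map u ≤ ⊥ := by rw [Submodule.map_bot]
      rcases hkap with ⟨hke, hkP⟩ | ⟨hko, hkP⟩
      · -- `k` even: one block of size `k`
        have hPfin : finrank F P = k := by
          have h1 := finrank_of_kapOn (u - 1) hnil P 1 k (fun j => by rw [hkP j, one_mul])
          omega
        have hμeq : μ = k ::ₘ μ' := by
          apply kapM_inj μ (k ::ₘ μ') hμpos
          · intro c hc
            rcases Multiset.mem_cons.1 hc with rfl | h
            · exact hk1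
            · exact hμ'pos c h
          · intro j
            rw [hadd j, hkP j, kapM_cons]
        have hne : ∀ a, Odd a → a ≠ k := by
          rintro a ha rfl
          exact (Nat.not_even_iff_odd.2 ha) hke
        have hμ'par : ∀ a, Odd a → Even (μ'.count a) := by
          intro a ha
          have h1 := hμpar a ha
          rw [hμeq, Multiset.count_cons_of_ne (hne a ha)] at h1
          exact h1
        by_cases hkν : k ∈ ν
        · apply hcomb hμ'par (ν.erase k) _ _ P le_rfl hPu hPnd
          · rw [hPfin]
            exact Multiset.sum_erase hkν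
          · rw [Multiset.erase_le_iff_le_cons, ← hμeq]
            exact hν
          · intro a ha
            rw [Multiset.count_erase_of_ne (hne a ha)]
            exact hνpar a ha
        · apply hcomb hμ'par ν _ hνpar ⊥ bot_le hbotu nd_bot
          · rw [finrank_bot, zero_add]
          · rw [hμeq] at hν
            exact (Multiset.le_cons_of_notMem hkν).1 hν
      · -- `k` odd: two blocks of size `k`
        have hPfin : finrank F P = 2 * k := finrank_of_kapOn (u - 1) hnil P 2 k hkP
        have hμeq : μ = k ::ₘ k ::ₘ μ' := by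
          apply kapM_inj μ (k ::ₘ k ::ₘ μ') hμpos
          · intro c hc
            rcases Multiset.mem_cons.1 hc with rfl | h
            · exact hk1
            · rcases Multiset.mem_cons.1 h with rfl | h'
              · exact hk1
              · exact hμ'pos c h'
          · intro j
            rw [hadd j, hkP j, kapM_cons, kapM_cons]
            ring
        have hcount : ∀ a, μ.count a = μ'.count a + (if a = k then 2 else 0) := by
          intro a
          rw [hμeq, Multiset.count_cons, Multiset.count_cons]
          split_ifs <;> omega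
        have hμ'par : ∀ a, Odd a → Even (μ'.count a) := by
          intro a ha
          obtain ⟨r, hr⟩ := hμpar a ha
          have h1 := hcount a
          by_cases hak : a = k
          · rw [if_pos hak] at h1
            exact ⟨r - 1, by omega⟩
          · rw [if_neg hak] at h1
            exact ⟨r, by omega⟩
        by_cases hle : ν.count k ≤ μ'.count k
        · have hν' : ν ≤ μ' := by
            rw [Multiset.le_iff_count]
            intro a
            by_cases hak : a = k
            · rw [hak]
              exact hle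
            · have h1 := Multiset.le_iff_count.1 hν a
              rw [hcount a, if_neg hak, add_zero] at h1
              exact h1
          apply hcomb hμ'par ν hν' hνpar ⊥ bot_le hbotu nd_bot
          rw [finrank_bot, zero_add]
        · have h1 : ν.count k ≤ μ'.count k + 2 := by
            have h2 := Multiset.le_iff_count.1 hν k
            rw [hcount k, if_pos rfl] at h2
            exact h2
          have h4 : ν.count k = μ'.count k + 2 := by
            obtain ⟨r, hr⟩ := hνpar k hko
            obtain ⟨s, hs⟩ := hμ'par k hko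
            omega
          have hk1ν : k ∈ ν := Multiset.count_pos.1 (by omega)
          have hk2ν : k ∈ ν.erase k := by
            apply Multiset.count_pos.1
            rw [Multiset.count_erase_self]
            omega
          have hs1 := Multiset.sum_erase hk1ν
          have hs2 := Multiset.sum_erase hk2ν
          have hc' : ∀ a, a ≠ k → ((ν.erase k).erase k).count a = ν.count a := by
            intro a hak
            rw [Multiset.count_erase_of_ne hak, Multiset.count_erase_of_ne hak]
          have hck : ((ν.erase k).erase k).count k = μ'.count k := by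
            rw [Multiset.count_erase_self, Multiset.count_erase_self]
            omega
          apply hcomb hμ'par ((ν.erase k).erase k) _ _ P le_rfl hPu hPnd
          · rw [hPfin]
            omega
          · rw [Multiset.le_iff_count]
            intro a
            by_cases hak : a = k
            · rw [hak, hck]
            · rw [hc' a hak]
              have h2 := Multiset.le_iff_count.1 hν a
              rw [hcount a, if_neg hak, add_zero] at h2
              exact h2
          · intro a ha
            by_cases hak : a = k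
            · rw [hak, hck]
              exact hμ'par k hko
            · rw [hc' a hak]
              exact hνpar a ha

/-- UN-IND -/
theorem exists_nd_inv_of_type {F : Type*} [Field F] {V : Type*} [AddCommGroup V] [Module F V]
    [FiniteDimensional F V] {B : LinearMap.BilinForm F V} (hA : B.IsAlt) (hN : ND B ⊤)
    (u : Module.End F V) (hu : Isom B u) (hnil : IsNilpotent (u - 1))
    (hpiece : ∀ Z : Submodule F V, Z.map u ≤ Z → ND B Z → Z ≠ ⊥ →
      ∃ (k : ℕ) (P : Submodule F V), P ≤ Z ∧ P.map u ≤ P ∧ ND B P ∧ 1 ≤ k ∧
        ((Even k ∧ ∀ j, kapOn (u - 1) P j = min k j) ∨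
         (Odd k ∧ ∀ j, kapOn (u - 1) P j = 2 * min k j)))
    (μ : Multiset ℕ) (hμpos : ∀ c ∈ μ, 0 < c) (hμ : ∀ j, kap (u - 1) j = kapM μ j)
    (hμpar : ∀ a, Odd a → Even (μ.count a))
    (ν : Multiset ℕ) (hν : ν ≤ μ) (hνpar : ∀ a, Odd a → Even (ν.count a)) :
    ∃ W : Submodule F V, W.map u ≤ W ∧ ND B W ∧ finrank F W = ν.sum := by
  obtain ⟨W, _, h1, h2, h3⟩ := nd_inv_key hA hN u hu hnil hpiece _ ⊤ le_top hN rfl μ hμpos
    (fun j => by rw [kapOn_top, hμ j]) hμpar ν hν hνpar
  exact ⟨W, h1, h2, h3⟩

end Cfsg.Agent.Lib.Helper78.SpUn
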