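import Mathlib
import Cfsg.Agent.Lib.Helper91.SuU

set_option autoImplicit false

namespace Cfsg.Agent.Lib.Helper78.SuEH1b

open Matrix Cfsg.Agent.Lib.Helper91.SpU Cfsg.Agent.Lib.Helper91.SuU

theorem center_U (l : ℕ) (K : Type*) [Field K] (σ : K →+* K) (hσ : ∀ x, σ (σ x) = x)
    (ε : K) (hε0 : ε ≠ 0) (hε : σ ε = -ε) (θ : K) (hθ : σ θ ≠ θ)
    (z : GU l K σ) (hz : InU l K σ z)
    (hc : ∀ u : GU l K σ, InU l K σ u → u * z = z * u) (i₀ i₁ : Fin l)
    (h0 : (i₀ : ℕ) = 0) (h1 : (i₁ : ℕ) = 1) :
    ∃ b : K, σ b = -b ∧ mat l K σ z = fromBlocks 1 (Matrix.single i₀ i₀ b) 0 1 := by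
  obtain ⟨A, hA⟩ : ∃ A, A = (mat l K σ z).toBlocks₁₁ := ⟨_, rfl⟩
  obtain ⟨B, hB⟩ : ∃ B, B = (mat l K σ z).toBlocks₁₂ := ⟨_, rfl⟩
  obtain ⟨D, hD⟩ : ∃ D, D = (mat l K σ z).toBlocks₂₂ := ⟨_, rfl⟩
  have hzb : mat l K σ z = fromBlocks A B 0 D := by
    rw [hA, hB, hD, ← hz.1]
    exact (Matrix.fromBlocks_toBlocks _).symm
  have hUT : IsUT l K A := by
    rw [hA]
    exact hz.2
  have hmem := mat_mem l K σ z
  rw [hzb, Matrix.fromBlocks_transpose, Matrix.fromBlocks_map, JJ, Matrix.fromBlocks_multiply,
    Matrix.fromBlocks_multiply] at hmem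
  obtain ⟨-, h12, -, h22⟩ := Matrix.fromBlocks_inj.mp hmem
  simp only [Matrix.mul_zero, Matrix.zero_mul, Matrix.mul_one, add_zero, zero_add,
    Matrix.transpose_zero] at h12 h22
  -- (1) A = 1
  have hA1 : A = 1 := by
    ext r j
    by_cases hrj : r = j
    · subst hrj
      rw [hUT.2, Matrix.one_apply_eq]
    · rw [Matrix.one_apply_ne hrj]
      have hs := hc (uyy l K σ j ε hε) (uyy_inU l K σ j ε hε)
      have hs' : mat l K σ (uyy l K σ j ε hε) * mat l K σ z =
          mat l K σ z * mat l K σ (uyy l K σ j ε hε) := by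
        rw [← mat_mul, ← mat_mul, hs]
      rw [uyy_mat, hzb, Matrix.fromBlocks_multiply, Matrix.fromBlocks_multiply] at hs'
      have h12' := (Matrix.fromBlocks_inj.mp hs').2.1
      have h3 := congrFun (congrFun h12' r) j
      rw [Matrix.add_apply, Matrix.add_apply, Matrix.one_mul, Matrix.mul_one,
        Matrix.single_mul_apply_of_ne (h := hrj), Matrix.mul_single_apply_same,
        add_zero] at h3
      have h4 : A r j * ε + B r j = 0 + B r j := by rw [zero_add]; exact h3.symm
      have h5 : A r j * ε = 0 := add_right_cancel h4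
      rcases mul_eq_zero.mp h5 with h | h
      · exact h
      · exact absurd h hε0
  have hDσ : D.map σ = 1 := by
    rw [hA1, Matrix.transpose_one, Matrix.one_mul] at h12
    exact h12
  have hD1 : D = 1 := by
    ext r s
    have h := congrFun (congrFun hDσ r) s
    rw [Matrix.map_apply] at h
    have h2 := congrArg σ h
    rw [hσ] at h2
    rw [h2]
    by_cases hrs : r = s
    · subst hrs
      rw [Matrix.one_apply_eq, map_one]
    · rw [Matrix.one_apply_ne hrs, map_zero]
  have hBskew : B.map σ + Bᵀ = 0 := by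
    rw [hDσ, hD1, Matrix.transpose_one, Matrix.one_mul, Matrix.mul_one] at h22
    exact h22
  have hBs : ∀ r s, σ (B r s) = - B s r := by
    intro r s
    have h := congrFun (congrFun hBskew r) s
    rw [Matrix.add_apply, Matrix.map_apply, Matrix.transpose_apply, Matrix.zero_apply] at h
    exact eq_neg_of_add_eq_zero_left h
  -- (2)
  have key : ∀ i j : Fin l, i < j → ∀ t : K,
      Matrix.single i j t * B + B * Matrix.single j i (σ t) = 0 := by
    intro i j hij t
    have hne : i ≠ j := ne_of_lt hij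
    obtain ⟨s, hsv⟩ : ∃ s : SpecialLinearGroup (Fin l) K,
        (s : Matrix (Fin l) (Fin l) K) = Matrix.transvection i j t :=
      ⟨⟨Matrix.transvection i j t, Matrix.det_transvection_of_ne i j hne t⟩, rfl⟩
    obtain ⟨s', hsv'⟩ : ∃ s' : SpecialLinearGroup (Fin l) K,
        (s' : Matrix (Fin l) (Fin l) K) = Matrix.transvection i j (-t) :=
      ⟨⟨Matrix.transvection i j (-t), Matrix.det_transvection_of_ne i j hne (-t)⟩, rfl⟩
    have hss' : s * s' = 1 := by
      apply Subtype.ext
      change (s : Matrix (Fin l) (Fin l) K) * (s' : Matrix (Fin l) (Fin l) K) = 1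
      rw [hsv, hsv', Matrix.transvection_mul_transvection_same i j hne, add_neg_cancel,
        Matrix.transvection_zero]
    have hinv : s⁻¹ = s' := inv_eq_of_mul_eq_one_right hss'
    have hsUT : IsUT l K (s : Matrix (Fin l) (Fin l) K) := by
      rw [hsv]
      refine ⟨fun r c hcr => ?_, fun r => ?_⟩
      · rw [Matrix.transvection, Matrix.add_apply, Matrix.one_apply_ne (ne_of_gt hcr), zero_add,
          Matrix.single_apply, if_neg]
        rintro ⟨rfl, rfl⟩
        exact absurd hcr (not_lt.mpr hij.le)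
      · rw [Matrix.transvection, Matrix.add_apply, Matrix.one_apply_eq, Matrix.single_apply,
          if_neg, add_zero]
        rintro ⟨rfl, rfl⟩
        exact hne rfl
    have hcomm := hc (uphi l K σ hσ s) (uphi_inU l K σ hσ s hsUT)
    have hcomm' : mat l K σ (uphi l K σ hσ s) * mat l K σ z =
        mat l K σ z * mat l K σ (uphi l K σ hσ s) := by
      rw [← mat_mul, ← mat_mul, hcomm]
    rw [uphi_mat, hinv, hzb, hA1, hD1, Matrix.fromBlocks_multiply, Matrix.fromBlocks_multiply,
      hsv, hsv'] at hcomm'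
    have h12' := (Matrix.fromBlocks_inj.mp hcomm').2.1
    have h5 : ((Matrix.transvection i j (-t)).map σ)ᵀ = 1 - Matrix.single j i (σ t) := by
      ext r c
      rw [Matrix.transpose_apply, Matrix.map_apply, Matrix.transvection, Matrix.add_apply,
        Matrix.sub_apply, Matrix.single_apply, Matrix.single_apply, map_add]
      by_cases hrc : r = c
      · subst hrc
        rw [Matrix.one_apply_eq, map_one]
        by_cases hcond : i = r ∧ j = r
        · exact absurd (hcond.1.trans hcond.2.symm) hne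
        · have hcond' : ¬ (j = r ∧ i = r) := fun h => hcond ⟨h.2, h.1⟩
          rw [if_neg hcond, if_neg hcond', map_zero, add_zero, sub_zero]
      · rw [Matrix.one_apply_ne hrc, Matrix.one_apply_ne (Ne.symm hrc), map_zero]
        by_cases hcond : i = c ∧ j = r
        · have hcond' : j = r ∧ i = c := ⟨hcond.2, hcond.1⟩
          rw [if_pos hcond, if_pos hcond', map_neg]
          ring
        · have hcond' : ¬ (j = r ∧ i = c) := fun h => hcond ⟨h.2, h.1⟩
          rw [if_neg hcond, if_neg hcond', map_zero]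
          ring
    rw [h5, Matrix.transvection, Matrix.add_mul, Matrix.one_mul, Matrix.zero_mul, add_zero,
      Matrix.one_mul, zero_add, Matrix.mul_sub, Matrix.mul_one] at h12'
    have h6 : Matrix.single i j t * B = - (B * Matrix.single j i (σ t)) := by
      have h7 : B + Matrix.single i j t * B = B + - (B * Matrix.single j i (σ t)) := by
        rw [h12', sub_eq_add_neg]
      exact add_left_cancel h7
    rw [h6, neg_add_cancel]
  have krow : ∀ i j : Fin l, i < j → ∀ s, s ≠ i → B j s = 0 := by
    intro i j hij s hs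
    have h3 := congrFun (congrFun (key i j hij 1) i) s
    rw [Matrix.add_apply, Matrix.single_mul_apply_same, one_mul,
      Matrix.mul_single_apply_of_ne (hbj := hs), add_zero, Matrix.zero_apply] at h3
    exact h3
  have kdiag : ∀ i j : Fin l, i < j → ∀ t : K, t * B j i + B i j * σ t = 0 := by
    intro i j hij t
    have h3 := congrFun (congrFun (key i j hij t) i) i
    rw [Matrix.add_apply, Matrix.single_mul_apply_same,
      Matrix.mul_single_apply_same, Matrix.zero_apply] at h3
    exact h3
  have hi01 : i₀ < i₁ := by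
    rw [Fin.lt_def]
    omega
  have hne01 : i₀ ≠ i₁ := ne_of_lt hi01
  have hrow : ∀ j : Fin l, 2 ≤ (j : ℕ) → ∀ s, B j s = 0 := by
    intro j hj s
    have hi0j : i₀ < j := Fin.lt_def.mpr (by omega)
    have hi1j : i₁ < j := Fin.lt_def.mpr (by omega)
    by_cases hs : s = i₀
    · subst hs
      exact krow i₁ j hi1j _ (ne_of_lt hi01)
    · exact krow i₀ j hi0j s hs
  have hcase : ∀ r : Fin l, r = i₀ ∨ r = i₁ ∨ 2 ≤ (r : ℕ) := by
    intro r
    rcases Nat.lt_or_ge (r : ℕ) 2 with h | h
    · rcases Nat.lt_or_ge (r : ℕ) 1 with h' | h'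
      · left
        apply Fin.ext
        omega
      · right
        left
        apply Fin.ext
        omega
    · right
      right
      exact h
  -- the entry `B i₁ i₀` vanishes
  have h10 : B i₁ i₀ = 0 := by
    by_contra hne
    have hfix : ∀ t : K, σ (t * B i₁ i₀) = t * B i₁ i₀ := by
      intro t
      have h := kdiag i₀ i₁ hi01 t
      have h2 : B i₀ i₁ = - σ (B i₁ i₀) := by rw [hBs i₁ i₀, neg_neg]
      rw [h2] at h
      rw [map_mul]
      have h3 : t * B i₁ i₀ = σ (B i₁ i₀) * σ t := by
        have h4 : t * B i₁ i₀ + -(σ (B i₁ i₀) * σ t) = 0 := by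
          rw [← neg_mul]
          exact h
        exact eq_of_sub_eq_zero (by rw [sub_eq_add_neg]; exact h4)
      rw [h3, mul_comm]
    have h := hfix (θ / B i₁ i₀)
    rw [div_mul_cancel₀ θ hne] at h
    exact hθ h
  have h01 : B i₀ i₁ = 0 := by
    have h := hBs i₁ i₀
    rw [h10, map_zero] at h
    exact neg_eq_zero.mp h.symm
  have hrow1 : ∀ s, B i₁ s = 0 := by
    intro s
    by_cases hs : s = i₀
    · rw [hs]
      exact h10
    · exact krow i₀ i₁ hi01 s hs
  have hrow0 : ∀ s, s ≠ i₀ → B i₀ s = 0 := by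
    intro s hs
    have hs0 : B s i₀ = 0 := by
      rcases hcase s with h | h | h
      · exact absurd h hs
      · rw [h]
        exact h10
      · exact hrow s h i₀
    have h := hBs s i₀
    rw [hs0, map_zero] at h
    exact neg_eq_zero.mp h.symm
  refine ⟨B i₀ i₀, hBs i₀ i₀, ?_⟩
  rw [hzb, hA1, hD1]
  congr 1
  ext r s
  rw [Matrix.single_apply]
  by_cases hr : r = i₀
  · by_cases hs : s = i₀
    · rw [hr, hs, if_pos ⟨rfl, rfl⟩]
    · rw [hr, if_neg (fun h => hs h.2.symm)]
      exact hrow0 s hs
  · rw [if_neg (fun h => hr h.1.symm)]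
    rcases hcase r with h | h | h
    · exact absurd h hr
    · rw [h]
      exact hrow1 s
    · exact hrow r h s

end Cfsg.Agent.Lib.Helper78.SuEH1b
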