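import Mathlib
import Cfsg.Agent.Lib.Helper22.W2Defs
import Cfsg.Agent.Lib.Helper83.Linear
import Cfsg.Agent.Lib.Helper83.Quot

/-! Project W2 (helper22, S4707), piece FAITH: an irreducible character that is not trivial on an
element of order `p` is faithful, when `p ^ 2 ∤ |G|` and every nontrivial normal subgroup has order
divisible by `p`. -/

set_option autoImplicit false

namespace Cfsg.Agent.Lib.Helper78.W2

open Cfsg Cfsg.Agent.Lib.Helper83 Cfsg.Agent.Lib.Helper22.W2
open scoped ComplexConjugate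

universe u

variable {G : Type u} [Group G] [Fintype G]

/-- PIECE FAITH -/
theorem faith (p : ℕ) [Fact p.Prime] (z : G) (hz : orderOf z = p)
    (hsq : ¬ p ^ 2 ∣ Nat.card G)
    (hnd : ∀ K : Subgroup G, K.Normal → K ≠ ⊥ → p ∣ Nat.card K) (Θ : IrrCharacter G)
    (hΘ : Θ.1 z ≠ Θ.1 1) : ∀ g : G, Θ.1 g = Θ.1 1 → g = 1 := by
  intro g hg
  by_contra hne
  obtain ⟨K, hKn, hK⟩ := exists_ker Θ.2
  have hgK : g ∈ K := (hK g).mpr hg
  have hKbot : K ≠ ⊥ := by
    intro h
    rw [h, Subgroup.mem_bot] at hgK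
    exact hne hgK
  have hpK : p ∣ Nat.card K := hnd K hKn hKbot
  have hzK : z ∉ K := fun h => hΘ ((hK z).mp h)
  haveI := hKn
  have hp : p.Prime := Fact.out
  have ho : orderOf (QuotientGroup.mk' K z) ∣ p := by
    rw [← hz]
    exact orderOf_map_dvd _ z
  have ho' : orderOf (QuotientGroup.mk' K z) = p := by
    rcases (Nat.dvd_prime hp).mp ho with h | h
    · exfalso
      apply hzK
      rw [orderOf_eq_one_iff] at h
      exact (QuotientGroup.eq_one_iff z).mp h
    · exact h
  have hpQ : p ∣ Nat.card (G ⧸ K) := by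
    rw [← ho']
    exact orderOf_dvd_natCard _
  apply hsq
  rw [Subgroup.card_eq_card_quotient_mul_card_subgroup K, pow_two]
  exact Nat.mul_dvd_mul hpQ hpK

end Cfsg.Agent.Lib.Helper78.W2
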